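import Cfsg.Agent.Lib.Helper47.OrthConj
import Cfsg.Agent.Lib.Helper47.DualPoly

/-!
# Quadratic spaces over finite fields (any characteristic): definitions and interface

* `IsQuad Q B`: `Q : V → F` is a quadratic form with polar form `B`.
* `IsBal Q e s`, `IsTyp Q k ε`: value counts of `Q` (`IsTyp Q k ε` is what a nondegenerate
  quadratic form of dimension `2k+2` and type `ε = ±1` satisfies).
* `tauSign u`: `(-1) ^ (number of self-dual members of u)`.
* `QFacts F`: the structural facts about quadratic spaces over `F` used by the conjugacy /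
  existence theorems for isometries of odd prime order.
* `exists_range_qisometry`: isometries of odd order with the same characteristic polynomial on
  `[V, g]` are intertwined by an isometry `[V, g] ≃ [V', g']`.
-/

set_option autoImplicit false

namespace Cfsg.Agent.Lib.Helper47

open Polynomial Module

universe u

section QuadBasic

variable {F : Type*} [Field F]

/-- `Q` is a quadratic form on `V` with polar form `B`. -/
structure IsQuad {V : Type*} [AddCommGroup V] [Module F V] (Q : V → F) (B : V → V → F) : Prop where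
  form : IsSForm (RingHom.id F) 1 B
  smul : ∀ (c : F) (v : V), Q (c • v) = c ^ 2 * Q v
  polar : ∀ u v : V, Q (u + v) = Q u + Q v + B u v

namespace IsQuad

variable {V : Type*} [AddCommGroup V] [Module F V] {Q : V → F} {B : V → V → F}

lemma map_zero (hQ : IsQuad Q B) : Q 0 = 0 := by
  have := hQ.smul 0 0
  simpa using this

lemma self (hQ : IsQuad Q B) (v : V) : B v v = 2 * Q v := by
  have h1 := hQ.polar v v
  have h2 := hQ.smul 2 v
  rw [two_smul] at h2
  rw [h2] at h1
  linear_combination -h1

lemma neg (hQ : IsQuad Q B) (v : V) : Q (-v) = Q v := by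
  have := hQ.smul (-1) v
  simpa using this

lemma sub (hQ : IsQuad Q B) (u v : V) : Q (u - v) = Q u + Q v - B u v := by
  rw [sub_eq_add_neg, hQ.polar, hQ.neg, hQ.form.neg_right]
  ring

/-- An additive map preserving `Q` preserves the polar form. -/
lemma isometry (hQ : IsQuad Q B) {V' : Type*} [AddCommGroup V'] [Module F V'] {Q' : V' → F}
    {B' : V' → V' → F} (hQ' : IsQuad Q' B') (g : V →ₗ[F] V') (hg : ∀ v, Q' (g v) = Q v)
    (u v : V) : B' (g u) (g v) = B u v := by
  have h1 := hQ'.polar (g u) (g v)
  rw [← map_add, hg, hg, hg, hQ.polar] at h1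
  exact (add_left_cancel h1).symm

lemma res (hQ : IsQuad Q B) (W : Submodule F V) :
    IsQuad (fun w : W => Q (w : V)) (resForm B W) where
  form := hQ.form.res W
  smul c w := hQ.smul c w
  polar u v := hQ.polar u v

lemma prod (hQ : IsQuad Q B) {V' : Type*} [AddCommGroup V'] [Module F V'] {Q' : V' → F}
    {B' : V' → V' → F} (hQ' : IsQuad Q' B') :
    IsQuad (fun x : V × V' => Q x.1 + Q' x.2) (fun x y => B x.1 y.1 + B' x.2 y.2) where
  form :=
    { add_left := fun x y z => by
        simp only [Prod.fst_add, Prod.snd_add, hQ.form.add_left, hQ'.form.add_left]; ring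
      smul_left := fun c x y => by
        simp only [Prod.smul_fst, Prod.smul_snd, hQ.form.smul_left, hQ'.form.smul_left]; ring
      symm := fun x y => by
        simp only [RingHom.id_apply, one_mul]
        rw [sym_comm hQ.form, sym_comm hQ'.form] }
  smul c x := by
    simp only [Prod.smul_fst, Prod.smul_snd, hQ.smul, hQ'.smul]; ring
  polar x y := by
    simp only [Prod.fst_add, Prod.snd_add, hQ.polar, hQ'.polar]; ring

/-- `Q ((g - 1) z) = - B ((g - 1) z) z` for an isometry `g`. -/
lemma sub_one_apply (hQ : IsQuad Q B) (g : Module.End F V) (hg : ∀ v, Q (g v) = Q v) (z : V) :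
    Q ((g - 1) z) = - B ((g - 1) z) z := by
  rw [LinearMap.sub_apply, Module.End.one_apply, hQ.sub, hg, hQ.form.sub_left, hQ.self z,
    sym_comm hQ.form z (g z)]
  ring

end IsQuad

lemma nondeg_prod {V V' : Type*} [AddCommGroup V] [Module F V] [AddCommGroup V'] [Module F V']
    {B : V → V → F} {B' : V' → V' → F} (hB : IsSForm (RingHom.id F) 1 B)
    (hB' : IsSForm (RingHom.id F) 1 B') (hnd : Nondeg B) (hnd' : Nondeg B') :
    Nondeg (fun x y : V × V' => B x.1 y.1 + B' x.2 y.2) := by
  rintro ⟨a, b⟩ h
  have ha : a = 0 := hnd a (fun y => by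
    have := h (y, 0)
    simpa [hB'.zero_right] using this)
  have hb : b = 0 := hnd' b (fun y => by
    have := h (0, y)
    simpa [hB.zero_right] using this)
  rw [ha, hb]
  rfl

end QuadBasic

/-- The binary form `z₁² + a z₁ z₂ + c z₂²` is anisotropic. -/
def IsAniso {F : Type*} [Field F] (a c : F) : Prop :=
  ∀ z₁ z₂ : F, z₁ ^ 2 + a * z₁ * z₂ + c * z₂ ^ 2 = 0 → z₁ = 0 ∧ z₂ = 0

section QuadCount

variable {F : Type*} [Field F] [Fintype F]

/-- `Q` takes the value `0` exactly `q ^ e + (q - 1) s` times and every nonzero value exactly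
`q ^ e - s` times. -/
def IsBal {V : Type*} (Q : V → F) (e : ℕ) (s : ℤ) : Prop :=
  ((Nat.card {v : V // Q v = 0} : ℤ)
      = (Fintype.card F : ℤ) ^ e + ((Fintype.card F : ℤ) - 1) * s) ∧
    ∀ c : F, c ≠ 0 → (Nat.card {v : V // Q v = c} : ℤ) = (Fintype.card F : ℤ) ^ e - s

/-- The value counts of a nondegenerate quadratic form of dimension `2k+2` and type `ε = ±1`
(`ε = 1`: hyperbolic, `ε = -1`: elliptic). -/
def IsTyp {V : Type*} (Q : V → F) (k : ℕ) (ε : ℤ) : Prop :=
  IsBal Q (2 * k + 1) (ε * (Fintype.card F : ℤ) ^ k)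

lemma IsTyp.of_equiv {V V' : Type*} {Q : V → F} {Q' : V' → F} (e : V ≃ V')
    (h : ∀ v, Q' (e v) = Q v) {k : ℕ} {ε : ℤ} (hT : IsTyp Q k ε) : IsTyp Q' k ε := by
  have key : ∀ c : F, Nat.card {v : V' // Q' v = c} = Nat.card {v : V // Q v = c} := by
    intro c
    apply Nat.card_congr
    exact (e.subtypeEquiv (fun v => by rw [h])).symm
  refine ⟨?_, fun c hc => ?_⟩
  · rw [key]; exact hT.1
  · rw [key]; exact hT.2 c hc

lemma IsTyp.unique {V : Type*} {Q : V → F} {k : ℕ} {ε ε' : ℤ} (h : IsTyp Q k ε)
    (h' : IsTyp Q k ε') : ε = ε' := by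
  have h1 := h.1
  rw [h'.1] at h1
  have hq : (2 : ℤ) ≤ (Fintype.card F : ℤ) := by exact_mod_cast Fintype.one_lt_card
  have hq0 : (Fintype.card F : ℤ) ^ k ≠ 0 := pow_ne_zero _ (by omega)
  have hq1 : (Fintype.card F : ℤ) - 1 ≠ 0 := by omega
  have h2 : ((Fintype.card F : ℤ) - 1) * (Fintype.card F : ℤ) ^ k * (ε' - ε) = 0 := by
    linear_combination h1
  rcases mul_eq_zero.mp h2 with h3 | h3
  · exact absurd h3 (mul_ne_zero hq1 hq0)
  · omega

end QuadCount

section TauSign

variable {F : Type*} [Field F]

open Classical in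
/-- `(-1) ^ (number of self-dual members of u)`. -/
noncomputable def tauSign (u : Multiset F[X]) : ℤ :=
  (-1) ^ Multiset.card (u.filter (fun f => dualP (RingHom.id F) f = f))

lemma tauSign_zero : tauSign (0 : Multiset F[X]) = 1 := by
  simp [tauSign]

lemma tauSign_add (u v : Multiset F[X]) : tauSign (u + v) = tauSign u * tauSign v := by
  classical
  simp only [tauSign, Multiset.filter_add, Multiset.card_add, pow_add]

lemma tauSign_cons_self {f : F[X]} (h : dualP (RingHom.id F) f = f) (u : Multiset F[X]) :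
    tauSign (f ::ₘ u) = - tauSign u := by
  classical
  rw [tauSign, tauSign,
    Multiset.filter_cons_of_pos (p := fun f => dualP (RingHom.id F) f = f) _ h,
    Multiset.card_cons, pow_succ]
  ring

lemma tauSign_cons_ne {f : F[X]} (h : dualP (RingHom.id F) f ≠ f) (u : Multiset F[X]) :
    tauSign (f ::ₘ u) = tauSign u := by
  classical
  rw [tauSign, tauSign,
    Multiset.filter_cons_of_neg (p := fun f => dualP (RingHom.id F) f = f) _ h]

lemma tauSign_sq (u : Multiset F[X]) : tauSign u = 1 ∨ tauSign u = -1 := by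
  unfold tauSign
  exact neg_one_pow_eq_or ℤ _

lemma tauSign_of_forall_ne {u : Multiset F[X]} (h : ∀ f ∈ u, dualP (RingHom.id F) f ≠ f) :
    tauSign u = 1 := by
  classical
  unfold tauSign
  rw [Multiset.filter_eq_nil.mpr h]
  simp

lemma tauSign_of_forall_self {u : Multiset F[X]} (h : ∀ f ∈ u, dualP (RingHom.id F) f = f) :
    tauSign u = (-1) ^ Multiset.card u := by
  classical
  unfold tauSign
  rw [Multiset.filter_eq_self.mpr h]

end TauSign

/-- The structural facts about quadratic spaces over the finite field `F` that the theory of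
isometries of odd prime order needs. -/
structure QFacts (F : Type u) [Field F] [Fintype F] : Prop where
  /-- value counts of an orthogonal sum -/
  typ_prod : ∀ {V₁ V₂ : Type u} [Finite V₁] [Finite V₂] (Q₁ : V₁ → F) (Q₂ : V₂ → F)
      {k₁ k₂ : ℕ} {ε₁ ε₂ : ℤ}, IsTyp Q₁ k₁ ε₁ → IsTyp Q₂ k₂ ε₂ →
      IsTyp (fun x : V₁ × V₂ => Q₁ x.1 + Q₂ x.2) (k₁ + k₂ + 1) (ε₁ * ε₂)
  /-- every nondegenerate quadratic space of even positive dimension has a type -/
  typ_exists : ∀ (k : ℕ) (V : Type u) [AddCommGroup V] [Module F V] [FiniteDimensional F V]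
      (Q : V → F) (B : V → V → F), IsQuad Q B → Nondeg B → finrank F V = 2 * k + 2 →
      IsTyp Q k 1 ∨ IsTyp Q k (-1)
  /-- nondegenerate quadratic spaces of the same dimension and type are isometric -/
  isometric : ∀ (k : ℕ) (ε : ℤ) (V V' : Type u) [AddCommGroup V] [Module F V]
      [FiniteDimensional F V] [AddCommGroup V'] [Module F V'] [FiniteDimensional F V']
      (Q : V → F) (B : V → V → F) (Q' : V' → F) (B' : V' → V' → F),
      IsQuad Q B → Nondeg B → finrank F V = 2 * k + 2 →
      IsQuad Q' B' → Nondeg B' → finrank F V' = 2 * k + 2 →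
      IsTyp Q k ε → IsTyp Q' k ε → ∃ φ : V ≃ₗ[F] V', ∀ v, Q' (φ v) = Q v
  /-- spaces of every even positive dimension and type exist -/
  space : ∀ (k : ℕ) (ε : ℤ), ε = 1 ∨ ε = -1 →
      ∃ (M : Type u) (_ : AddCommGroup M) (_ : Module F M) (_ : FiniteDimensional F M)
        (Q : M → F) (B : M → M → F),
        IsQuad Q B ∧ Nondeg B ∧ finrank F M = 2 * k + 2 ∧ IsTyp Q k ε
  /-- nondegenerate alternating spaces have even dimension -/
  alt_even : ∀ (W : Type u) [AddCommGroup W] [Module F W] [FiniteDimensional F W]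
      (B : W → W → F), IsSForm (RingHom.id F) (-1) B → (∀ x, B x x = 0) → Nondeg B →
      Even (finrank F W)
  /-- a model: a quadratic space with a fixed-point-free isometry of order dividing `r` and
  prescribed (self-dual) characteristic polynomial; its type is `tauSign u` -/
  rmodel : ∀ (r : ℕ) (u : Multiset F[X]), r.Prime → r ≠ 2 → (r : F) ≠ 0 →
      (∀ f ∈ u, IsCycFactor r f) → u.map (dualP (RingHom.id F)) = u → u ≠ 0 →
      ∃ (M : Type u) (_ : AddCommGroup M) (_ : Module F M) (_ : FiniteDimensional F M)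
        (Q : M → F) (B : M → M → F) (x : Module.End F M),
        IsQuad Q B ∧ Nondeg B ∧ (∀ v, Q (x v) = Q v) ∧ x ^ r = 1 ∧ x.charpoly = u.prod ∧
        ∃ j : ℕ, finrank F M = 2 * j + 2 ∧ IsTyp Q j (tauSign u)

section RangeIso

variable {F : Type*} [Field F]

lemma charpoly_eq_ker_range {V : Type*} [AddCommGroup V] [Module F V] [FiniteDimensional F V]
    (g : Module.End F V) (r : ℕ) (hrF : (r : F) ≠ 0) (hg : g ^ r = 1) :
    g.charpoly = (X - 1) ^ finrank F (LinearMap.ker (g - 1))
      * (resInv g (range_sub_one_invt g)).charpoly := by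
  have hch := charpoly_of_isCompl (ker_sub_one_invt g) (range_sub_one_invt g)
    (isCompl_ker_range g r hrF hg)
  rw [charpoly_resInv_ker] at hch
  exact hch

lemma range_charpoly_eq_of_charpoly_eq {V V' : Type*} [AddCommGroup V] [Module F V]
    [FiniteDimensional F V] [AddCommGroup V'] [Module F V'] [FiniteDimensional F V']
    (g : Module.End F V) (g' : Module.End F V') (r : ℕ) (hrF : (r : F) ≠ 0) (hg : g ^ r = 1)
    (hg' : g' ^ r = 1) (hc : g.charpoly = g'.charpoly) :
    finrank F (LinearMap.ker (g - 1)) = finrank F (LinearMap.ker (g' - 1)) ∧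
      (resInv g (range_sub_one_invt g)).charpoly
        = (resInv g' (range_sub_one_invt g')).charpoly := by
  have hcmp : (X - 1 : F[X]) ^ finrank F (LinearMap.ker (g - 1))
        * (resInv g (range_sub_one_invt g)).charpoly
      = (X - 1) ^ finrank F (LinearMap.ker (g' - 1))
        * (resInv g' (range_sub_one_invt g')).charpoly := by
    rw [← charpoly_eq_ker_range g r hrF hg, ← charpoly_eq_ker_range g' r hrF hg', hc]
  exact pow_mul_cancel_of_eval_ne hcmp (eval_one_charpoly_resInv_range g r hrF hg)
    (eval_one_charpoly_resInv_range g' r hrF hg')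

/-- Isometries of odd order `r` (prime to the characteristic) of two nondegenerate quadratic
spaces whose restrictions to `[V, g] = range (g - 1)` have the same characteristic polynomial
are intertwined by an isometry `[V, g] ≃ [V', g']`. -/
theorem exists_range_qisometry [Fintype F] {V V' : Type u} [AddCommGroup V] [Module F V]
    [FiniteDimensional F V] [AddCommGroup V'] [Module F V'] [FiniteDimensional F V']
    {Q : V → F} {B : V → V → F} {Q' : V' → F} {B' : V' → V' → F}
    (hQ : IsQuad Q B) (hQ' : IsQuad Q' B') (hnd : Nondeg B) (hnd' : Nondeg B')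
    (g : Module.End F V) (g' : Module.End F V') (r : ℕ) (hodd : Odd r) (hrF : (r : F) ≠ 0)
    (hg : g ^ r = 1) (hg' : g' ^ r = 1)
    (hgQ : ∀ v, Q (g v) = Q v) (hgQ' : ∀ v, Q' (g' v) = Q' v)
    (hc : (resInv g (range_sub_one_invt g)).charpoly
      = (resInv g' (range_sub_one_invt g')).charpoly) :
    ∃ φ : LinearMap.range (g - 1) ≃ₗ[F] LinearMap.range (g' - 1),
      (∀ w, φ (resInv g (range_sub_one_invt g) w) = resInv g' (range_sub_one_invt g') (φ w)) ∧
      (∀ w, Q' (φ w : V') = Q (w : V)) ∧
      ∀ w w', B' (φ w : V') (φ w' : V') = B (w : V) (w' : V) := by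
  have hr : 0 < r := hodd.pos
  have hB := hQ.form
  have hB' := hQ'.form
  have hgi : ∀ x y, B (g x) (g y) = B x y := hQ.isometry hQ g hgQ
  have hgi' : ∀ x y, B' (g' x) (g' y) = B' x y := hQ'.isometry hQ' g' hgQ'
  have hsep : (X ^ r - C (1 : F)).Separable := separable_X_pow_sub_C 1 hrF one_ne_zero
  have hgs : g.IsSemisimple := by
    apply Module.End.isSemisimple_of_squarefree_aeval_eq_zero hsep.squarefree
    rw [map_sub, map_pow, aeval_X, aeval_C, hg, map_one, sub_self]
  have hgs' : g'.IsSemisimple := by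
    apply Module.End.isSemisimple_of_squarefree_aeval_eq_zero hsep.squarefree
    rw [map_sub, map_pow, aeval_X, aeval_C, hg', map_one, sub_self]
  have hJ := dForm_isSForm hB g hgi r hr hg
  have hJ' := dForm_isSForm hB' g' hgi' r hr hg'
  obtain ⟨φ, hφe, hφi⟩ := exists_isometry_conj (σ := RingHom.id F) (ε := -1) (fun x => rfl)
    (Or.inl ⟨rfl, rfl⟩) _ (LinearMap.range (g - 1)) (LinearMap.range (g' - 1))
    (resForm (dForm B g r) _) (resForm (dForm B' g' r) _)
    (resInv g (range_sub_one_invt g)) (resInv g' (range_sub_one_invt g')) rfl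
    (hJ.res _) (hJ'.res _) (nondeg_dForm_range hB hnd g hgi r hodd hrF hg)
    (nondeg_dForm_range hB' hnd' g' hgi' r hodd hrF hg')
    (fun _ x => dForm_alt hB g hgi r hr hg x) (fun _ x => dForm_alt hB' g' hgi' r hr hg' x)
    (isSemisimple_resInv hgs _) (isSemisimple_resInv hgs' _)
    (fun x y => dForm_isometry g hgi r x y) (fun x y => dForm_isometry g' hgi' r x y) hc
  have hφpow : ∀ (k : ℕ) x, φ (((resInv g (range_sub_one_invt g)) ^ k) x)
      = ((resInv g' (range_sub_one_invt g')) ^ k) (φ x) := by
    intro k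
    induction k with
    | zero => intro x; rw [pow_zero, pow_zero, Module.End.one_apply, Module.End.one_apply]
    | succ k ih =>
      intro x
      rw [pow_succ, Module.End.mul_apply, ih, hφe, pow_succ, Module.End.mul_apply]
  have hφB : ∀ x y : LinearMap.range (g - 1), B' (φ x : V') (φ y : V') = B (x : V) (y : V) := by
    intro u y
    obtain ⟨x, hx⟩ := exists_sub_inv_eq g r hodd hrF hg u
    have e1 : (u : V) = (g - g ^ (r - 1)) (x : V) := by
      rw [hx, coe_sub_inv]
    have e2 : (φ u : V') = (g' - g' ^ (r - 1)) (φ x : V') := by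
      rw [hx, LinearMap.sub_apply, map_sub, hφe, hφpow, ← LinearMap.sub_apply, coe_sub_inv]
    rw [e1, e2]
    exact hφi x y
  refine ⟨φ, hφe, fun w => ?_, hφB⟩
  -- `Q` on the range is determined by `B` and `g`
  have hsurj : ∀ w : LinearMap.range (g - 1), ∃ z : LinearMap.range (g - 1),
      (w : V) = (g - 1) (z : V) := by
    have hinj : Function.Injective
        (resInv g (range_sub_one_invt g) - (1 : Module.End F (LinearMap.range (g - 1)))) := by
      rw [← LinearMap.ker_eq_bot, LinearMap.ker_eq_bot']
      intro z hz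
      have h1 : g (z : V) = (z : V) := by
        have := congrArg Subtype.val hz
        rw [LinearMap.sub_apply, Module.End.one_apply, Submodule.coe_sub, resInv_apply,
          ZeroMemClass.coe_zero, sub_eq_zero] at this
        exact this
      exact Subtype.ext (eq_zero_of_fix_of_mem_range g r hrF hg _ h1 z.2)
    have hsur := LinearMap.surjective_of_injective hinj
    intro w
    obtain ⟨z, hz⟩ := hsur w
    refine ⟨z, ?_⟩
    rw [← hz, LinearMap.sub_apply, Module.End.one_apply, Submodule.coe_sub, resInv_apply,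
      LinearMap.sub_apply, Module.End.one_apply]
  obtain ⟨z, hz⟩ := hsurj w
  have e1 : (φ w : V') = (g' - 1) (φ z : V') := by
    have h1 : (((resInv g (range_sub_one_invt g)
        - (1 : Module.End F (LinearMap.range (g - 1)))) z : LinearMap.range (g - 1)) : V)
        = g (z : V) - (z : V) := by
      rw [LinearMap.sub_apply, Module.End.one_apply, Submodule.coe_sub, resInv_apply]
    have hw : w = (resInv g (range_sub_one_invt g)
        - (1 : Module.End F (LinearMap.range (g - 1)))) z := by
      apply Subtype.ext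
      rw [h1, hz, LinearMap.sub_apply, Module.End.one_apply]
    have h2 : φ w = resInv g' (range_sub_one_invt g') (φ z) - φ z := by
      rw [hw, LinearMap.sub_apply, map_sub, hφe, Module.End.one_apply]
    rw [h2, Submodule.coe_sub, resInv_apply, LinearMap.sub_apply, Module.End.one_apply]
  have e2 : B' ((g' - 1) (φ z : V')) (φ z : V') = B ((g - 1) (z : V)) (z : V) := by
    rw [← e1, ← hz]
    exact hφB w z
  rw [e1, hz, hQ'.sub_one_apply g' hgQ', hQ.sub_one_apply g hgQ, e2]

end RangeIso

end Cfsg.Agent.Lib.Helper47
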