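import Cfsg.Agent.Lib.Helper47.OrthForm

/-!
# Classes of elements of odd prime order in `O_{2m+1}(q)`, `q` odd

The classes of elements of odd prime order `r ≠ p` of the isometry group of `quadFormOdd m F` are
in bijection with those of `Sp_{2m}(q)`, through `charpoly g = (X - 1) * charpoly s`.
-/

set_option autoImplicit false

namespace Cfsg.Agent.Lib.Helper47

open Polynomial Module Matrix

section OrthGroup

variable {F : Type*} [Field F]

lemma two_ne_zero_of_odd_card' [Fintype F] {q : ℕ} (hq : Fintype.card F = q) (hodd : Odd q) :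
    (2 : F) ≠ 0 := by
  intro h2
  have h0 : (q : F) = 0 := by
    rw [← hq]
    exact FiniteField.cast_card_eq_zero F
  obtain ⟨k, rfl⟩ := hodd
  push_cast at h0
  rw [h2, zero_mul, zero_add] at h0
  exact one_ne_zero h0

lemma natDegree_X_sub_one : (X - 1 : F[X]).natDegree = 1 := by
  have := natDegree_X_sub_C (1 : F)
  rwa [C_1] at this

lemma charpoly_eq_of_isConj_hom {G : Type*} [Group G] {n : Type*} [Fintype n] [DecidableEq n]
    (φ : G →* Matrix n n F) {a b : G} (h : IsConj a b) : (φ a).charpoly = (φ b).charpoly := by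
  obtain ⟨c, hc⟩ := isConj_iff.mp h
  rw [← hc, map_mul, map_mul, Matrix.charpoly_mul_comm, ← mul_assoc, ← map_mul, inv_mul_cancel,
    map_one, one_mul]

lemma IsCycFactor.eval_one_ne (p : ℕ) [Fact p.Prime] [CharP F p] {r : ℕ} (hr : r.Prime)
    (hrp : r ≠ p) {f : F[X]} (hf : IsCycFactor r f) : f.eval 1 ≠ 0 := by
  intro h0
  obtain ⟨q, hq⟩ := hf.2.2
  have h1 := congrArg (eval 1) hq
  have : Fact r.Prime := ⟨hr⟩
  rw [eval_one_cyclotomic_prime, eval_mul, h0, zero_mul] at h1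
  exact natCast_ne_zero_of_coprime p ((Nat.coprime_primes hr Fact.out).mpr hrp) h1

lemma cyc_prod_eval_one_ne (p : ℕ) [Fact p.Prime] [CharP F p] {r : ℕ} (hr : r.Prime)
    (hrp : r ≠ p) (s : Multiset F[X]) (hs : ∀ f ∈ s, IsCycFactor r f) : s.prod.eval 1 ≠ 0 := by
  induction s using Multiset.induction_on with
  | empty => simp
  | cons a s ih =>
    rw [Multiset.prod_cons, eval_mul]
    exact mul_ne_zero ((hs a (Multiset.mem_cons_self a s)).eval_one_ne p hr hrp)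
      (ih (fun f hf => hs f (Multiset.mem_cons_of_mem hf)))

lemma cyc_prod_monic {r : ℕ} (s : Multiset F[X]) (hs : ∀ f ∈ s, IsCycFactor r f) :
    s.prod.Monic := by
  induction s using Multiset.induction_on with
  | empty => simp
  | cons a s ih =>
    rw [Multiset.prod_cons]
    exact (hs a (Multiset.mem_cons_self a s)).1.mul
      (ih (fun f hf => hs f (Multiset.mem_cons_of_mem hf)))

lemma orth_charpoly_reverse (m : ℕ) (h2 : (2 : F) ≠ 0)
    {M : Matrix (Unit ⊕ (Fin m ⊕ Fin m)) (Unit ⊕ (Fin m ⊕ Fin m)) F}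
    (hM : Mᵀ * oGram m F * M = oGram m F) (r : ℕ) (hodd : Odd r) (hMr : M ^ r = 1) :
    M.charpoly.reverse = -M.charpoly := by
  have hG := oGram_det_ne_zero m h2
  have hdet2 : M.det * M.det = 1 := by
    have := congrArg Matrix.det hM
    rw [det_mul, det_mul, det_transpose] at this
    apply mul_right_cancel₀ hG
    rw [one_mul]
    linear_combination this
  have hdet : M.det = 1 := by
    have h1 : M.det ^ r = 1 := by rw [← det_pow, hMr, det_one]
    obtain ⟨k, hk⟩ := hodd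
    rw [hk, pow_succ, pow_mul, pow_two, hdet2, one_pow, one_mul] at h1
    exact h1
  have hu : IsUnit M := (Matrix.isUnit_iff_isUnit_det M).mpr (by rw [hdet]; exact isUnit_one)
  have h1 := Matrix.charpoly_inv M hu
  rw [hdet, Ring.inverse_one, map_one, mul_one, ← Matrix.reverse_charpoly] at h1
  have hcard : (-1 : F[X]) ^ Fintype.card (Unit ⊕ (Fin m ⊕ Fin m)) = -1 := by
    rw [Fintype.card_sum, Fintype.card_sum, Fintype.card_unit, Fintype.card_fin, ← two_mul,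
      add_comm, pow_succ, pow_mul]
    simp
  rw [hcard] at h1
  have hGu : IsUnit (oGram m F) :=
    (Matrix.isUnit_iff_isUnit_det _).mpr (isUnit_iff_ne_zero.mpr hG)
  obtain ⟨u, hu'⟩ := hGu
  have h3 : M⁻¹ = (u : Matrix (Unit ⊕ (Fin m ⊕ Fin m)) (Unit ⊕ (Fin m ⊕ Fin m)) F)⁻¹ * Mᵀ
      * (u : Matrix (Unit ⊕ (Fin m ⊕ Fin m)) (Unit ⊕ (Fin m ⊕ Fin m)) F) := by
    apply Matrix.inv_eq_left_inv
    rw [hu', mul_assoc, mul_assoc, ← mul_assoc Mᵀ, hM]
    exact Matrix.nonsing_inv_mul _ (isUnit_iff_ne_zero.mpr hG)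
  rw [h3, Matrix.charpoly_units_conj', Matrix.charpoly_transpose] at h1
  linear_combination h1

/-- (a) The characteristic polynomial of an isometry of odd order is `(X - 1)` times a monic
palindromic polynomial of degree `2m`. -/
lemma orth_charpoly_shape (m : ℕ) (h2 : (2 : F) ≠ 0)
    (g : ↥(Cfsg.isometryGroup F (Cfsg.quadFormOdd m F))) (r : ℕ) (hodd : Odd r)
    (hgr : g ^ r = 1) :
    ∃ P : F[X], P.Monic ∧ P.natDegree = 2 * m ∧ P.reverse = P ∧
      ((g : Matrix.GeneralLinearGroup (Unit ⊕ (Fin m ⊕ Fin m)) F) :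
        Matrix (Unit ⊕ (Fin m ⊕ Fin m)) (Unit ⊕ (Fin m ⊕ Fin m)) F).charpoly = (X - 1) * P := by
  obtain ⟨M, hM⟩ : ∃ M : Matrix (Unit ⊕ (Fin m ⊕ Fin m)) (Unit ⊕ (Fin m ⊕ Fin m)) F,
      M = ((g : Matrix.GeneralLinearGroup (Unit ⊕ (Fin m ⊕ Fin m)) F) :
        Matrix (Unit ⊕ (Fin m ⊕ Fin m)) (Unit ⊕ (Fin m ⊕ Fin m)) F) := ⟨_, rfl⟩
  have hMr : M ^ r = 1 := by
    rw [hM, ← Units.val_pow_eq_pow_val, ← Subgroup.coe_pow, hgr]
    rfl
  have hiso := oForm_isometry_of_quad m ((mem_isometryGroup_iff m g.1).mp g.2)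
  have hG := oGram_conj_of_isometry m hiso
  rw [← hM] at hG ⊢
  apply exists_pal_factor h2 M.charpoly (Matrix.charpoly_monic M) (2 * m)
  · rw [Matrix.charpoly_natDegree_eq_dim, Fintype.card_sum, Fintype.card_sum, Fintype.card_unit,
      Fintype.card_fin]
    ring
  · exact orth_charpoly_reverse m h2 hG r hodd hMr

variable [Fintype F]

/-- (c) Isometries of odd order prime to `p` with the same characteristic polynomial are
conjugate in the isometry group. -/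
theorem orth_isConj_of_charpoly_eq (h2 : (2 : F) ≠ 0) (m r : ℕ) (hrodd : Odd r)
    (hrF : (r : F) ≠ 0) (g g' : ↥(Cfsg.isometryGroup F (Cfsg.quadFormOdd m F)))
    (hg : g ^ r = 1) (hg' : g' ^ r = 1)
    (hc : ((g : Matrix.GeneralLinearGroup (Unit ⊕ (Fin m ⊕ Fin m)) F) :
        Matrix (Unit ⊕ (Fin m ⊕ Fin m)) (Unit ⊕ (Fin m ⊕ Fin m)) F).charpoly
      = ((g' : Matrix.GeneralLinearGroup (Unit ⊕ (Fin m ⊕ Fin m)) F) :
        Matrix (Unit ⊕ (Fin m ⊕ Fin m)) (Unit ⊕ (Fin m ⊕ Fin m)) F).charpoly) :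
    IsConj g g' := by
  obtain ⟨M, hM⟩ : ∃ M : Matrix (Unit ⊕ (Fin m ⊕ Fin m)) (Unit ⊕ (Fin m ⊕ Fin m)) F,
      M = ((g : Matrix.GeneralLinearGroup (Unit ⊕ (Fin m ⊕ Fin m)) F) :
        Matrix (Unit ⊕ (Fin m ⊕ Fin m)) (Unit ⊕ (Fin m ⊕ Fin m)) F) := ⟨_, rfl⟩
  obtain ⟨M', hM'⟩ : ∃ M' : Matrix (Unit ⊕ (Fin m ⊕ Fin m)) (Unit ⊕ (Fin m ⊕ Fin m)) F,
      M' = ((g' : Matrix.GeneralLinearGroup (Unit ⊕ (Fin m ⊕ Fin m)) F) :
        Matrix (Unit ⊕ (Fin m ⊕ Fin m)) (Unit ⊕ (Fin m ⊕ Fin m)) F) := ⟨_, rfl⟩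
  have hMr : M ^ r = 1 := by
    rw [hM, ← Units.val_pow_eq_pow_val, ← Subgroup.coe_pow, hg]
    rfl
  have hM'r : M' ^ r = 1 := by
    rw [hM', ← Units.val_pow_eq_pow_val, ← Subgroup.coe_pow, hg']
    rfl
  have hMi := oForm_isometry_of_quad m ((mem_isometryGroup_iff m g.1).mp g.2)
  have hM'i := oForm_isometry_of_quad m ((mem_isometryGroup_iff m g'.1).mp g'.2)
  rw [← hM] at hMi
  rw [← hM'] at hM'i
  rw [← hM, ← hM'] at hc
  obtain ⟨Φ, hΦi, hΦ⟩ := exists_orth_conj (oForm_isSForm m) h2 (oForm_nondeg m h2)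
    (Matrix.toLin' M) (Matrix.toLin' M') r hrodd hrF
    (by rw [← Matrix.toLin'_pow, hMr, Matrix.toLin'_one]; rfl)
    (by rw [← Matrix.toLin'_pow, hM'r, Matrix.toLin'_one]; rfl)
    (fun x y => by rw [Matrix.toLin'_apply, Matrix.toLin'_apply]; exact hMi x y)
    (fun x y => by rw [Matrix.toLin'_apply, Matrix.toLin'_apply]; exact hM'i x y)
    (by rw [Matrix.charpoly_toLin', Matrix.charpoly_toLin', hc])
  obtain ⟨P, hP⟩ : ∃ P : Matrix (Unit ⊕ (Fin m ⊕ Fin m)) (Unit ⊕ (Fin m ⊕ Fin m)) F,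
      P = LinearMap.toMatrix' Φ := ⟨_, rfl⟩
  have hPlin : Matrix.toLin' P = Φ := by rw [hP, Matrix.toLin'_toMatrix']
  have hPi : ∀ x y, oForm m F (P *ᵥ x) (P *ᵥ y) = oForm m F x y := by
    intro x y
    rw [← Matrix.toLin'_apply, ← Matrix.toLin'_apply, hPlin]
    exact hΦi x y
  have hPinj : Function.Injective P.mulVec := by
    intro x y hxy
    have : x - y = 0 := by
      apply oForm_nondeg m h2
      intro z
      rw [← hPi, Matrix.mulVec_sub, hxy, sub_self]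
      exact (oForm_isSForm m).zero_left _
    exact sub_eq_zero.mp this
  have hPu : IsUnit P := Matrix.mulVec_injective_iff_isUnit.mp hPinj
  obtain ⟨Pu, hPu'⟩ := hPu
  have hmem : Pu ∈ Cfsg.isometryGroup F (Cfsg.quadFormOdd m F) := by
    rw [mem_isometryGroup_iff, hPu']
    exact quad_of_oForm_isometry m h2 hPi
  have hPM : P * M = M' * P := by
    apply Matrix.toLin'.injective
    rw [Matrix.toLin'_mul, Matrix.toLin'_mul, hPlin]
    apply LinearMap.ext
    intro x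
    rw [LinearMap.comp_apply, LinearMap.comp_apply]
    exact hΦ x
  rw [isConj_iff]
  refine ⟨⟨Pu, hmem⟩, ?_⟩
  rw [mul_inv_eq_iff_eq_mul]
  apply Subtype.ext
  apply Units.ext
  show (Pu : Matrix (Unit ⊕ (Fin m ⊕ Fin m)) (Unit ⊕ (Fin m ⊕ Fin m)) F)
      * ((g : Matrix.GeneralLinearGroup (Unit ⊕ (Fin m ⊕ Fin m)) F) :
        Matrix (Unit ⊕ (Fin m ⊕ Fin m)) (Unit ⊕ (Fin m ⊕ Fin m)) F)
    = ((g' : Matrix.GeneralLinearGroup (Unit ⊕ (Fin m ⊕ Fin m)) F) :
        Matrix (Unit ⊕ (Fin m ⊕ Fin m)) (Unit ⊕ (Fin m ⊕ Fin m)) F)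
      * (Pu : Matrix (Unit ⊕ (Fin m ⊕ Fin m)) (Unit ⊕ (Fin m ⊕ Fin m)) F)
  rw [hPu', ← hM, ← hM']
  exact hPM

/-- (b) Every element of order `r` of `Sp_{2m}(q)` gives an isometry of order `r` with
characteristic polynomial `(X - 1) * charpoly s`. -/
theorem orth_exists_of_sp (p : ℕ) [Fact p.Prime] [CharP F p] (h2 : (2 : F) ≠ 0)
    (hodd : Fintype.card F % 2 = 1) (m r : ℕ) (hr : r.Prime) (hr2 : r ≠ 2) (hrp : r ≠ p)
    (s : Matrix.symplecticGroup (Fin m) F) (hs : orderOf s = r) :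
    ∃ g : ↥(Cfsg.isometryGroup F (Cfsg.quadFormOdd m F)), orderOf g = r ∧
      ((g : Matrix.GeneralLinearGroup (Unit ⊕ (Fin m ⊕ Fin m)) F) :
        Matrix (Unit ⊕ (Fin m ⊕ Fin m)) (Unit ⊕ (Fin m ⊕ Fin m)) F).charpoly
        = (X - 1) * (s : Matrix (Fin m ⊕ Fin m) (Fin m ⊕ Fin m) F).charpoly := by
  have hroddN : Odd r := hr.odd_of_ne_two hr2
  have hrpos : 0 < r := hr.pos
  have hfact : Fact r.Prime := ⟨hr⟩
  obtain ⟨S, hS⟩ : ∃ S : Matrix (Fin m ⊕ Fin m) (Fin m ⊕ Fin m) F, S = s := ⟨_, rfl⟩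
  have hSr : S ^ r = 1 := by
    rw [hS, ← SubmonoidClass.coe_pow, ← hs, pow_orderOf_eq_one]
    rfl
  obtain ⟨c, ms, hms, hch⟩ := charpoly_factors_of_pow_eq_one' p hr hrp S hSr
  have hpe1 := cyc_prod_eval_one_ne p hr hrp ms hms
  have hpmo := cyc_prod_monic ms hms
  have hrevS : S.charpoly.reverse = S.charpoly := by
    rw [hS]
    exact sp_charpoly_reverse s.2
  rw [hch] at hrevS
  obtain ⟨hceven, hprv⟩ := pal_of_pow_mul h2 c ms.prod hpe1 hrevS
  obtain ⟨c', hc'⟩ := hceven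
  have hdeg : c + ms.prod.natDegree = 2 * m := by
    have := congrArg natDegree hch
    rw [Matrix.charpoly_natDegree_eq_dim, Fintype.card_sum, Fintype.card_fin,
      natDegree_mul (pow_ne_zero c monic_X_sub_one.ne_zero) hpmo.ne_zero, natDegree_pow,
      natDegree_X_sub_one] at this
    omega
  obtain ⟨w, hw⟩ : ∃ w, ms.prod.natDegree = 2 * w := ⟨m - c', by omega⟩
  obtain ⟨s', hs'cop, hs'ch⟩ := sp_exists_charpoly p w ms.prod hpmo hw hprv
  obtain ⟨S', hS'⟩ : ∃ S' : Matrix (Fin w ⊕ Fin w) (Fin w ⊕ Fin w) F, S' = s' := ⟨_, rfl⟩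
  rw [← hS'] at hs'ch
  have hS'r : S' ^ r = 1 := by
    apply pow_eq_one_of_charpoly_dvd p S' (orderOf s') hs'cop
      (by rw [hS', ← SubmonoidClass.coe_pow, pow_orderOf_eq_one]; rfl) (0 + Multiset.card ms)
    rw [hs'ch]
    have := cyc_prod_dvd hr 0 ms hms
    rwa [pow_zero, one_mul] at this
  obtain ⟨σ, hσ⟩ : ∃ σ : Module.End F (Fin w ⊕ Fin w → F), σ = Matrix.toLin' S' := ⟨_, rfl⟩
  have hσr : σ ^ r = 1 := by
    rw [hσ, ← Matrix.toLin'_pow, hS'r, Matrix.toLin'_one]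
    rfl
  have hσi : ∀ x y, spForm (Fin w) F (σ x) (σ y) = spForm (Fin w) F x y := by
    intro x y
    rw [hσ]
    exact spForm_isometry (by rw [hS']; exact s'.2) x y
  have hσch : σ.charpoly = ms.prod := by rw [hσ, Matrix.charpoly_toLin', hs'ch]
  have hBU : IsSForm (RingHom.id F) 1 (dForm (spForm (Fin w) F) σ r) := by
    have h := dForm_isSForm spForm_isSForm σ hσi r hrpos hσr
    rwa [neg_neg] at h
  have hndU : Nondeg (dForm (spForm (Fin w) F) σ r) := by
    intro x hx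
    have hDx : (σ - σ ^ (r - 1)) x = 0 := spForm_nondeg _ hx
    have hfix := fix_of_sub_inv σ r hroddN hσr x hDx
    by_contra hx0
    have hev : σ.HasEigenvalue 1 := Module.End.hasEigenvalue_of_hasEigenvector
      ⟨Module.End.mem_eigenspace_iff.mpr (by rw [hfix, one_smul]), hx0⟩
    rw [Module.End.hasEigenvalue_iff_isRoot_charpoly, hσch] at hev
    exact hpe1 hev
  have hσBU : ∀ x y, dForm (spForm (Fin w) F) σ r (σ x) (σ y)
      = dForm (spForm (Fin w) F) σ r x y := fun x y => dForm_isometry σ hσi r x y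
  have hfrU : finrank F (Fin w ⊕ Fin w → F) = 2 * w := by
    rw [Module.finrank_fintype_fun_eq_card, Fintype.card_sum, Fintype.card_fin]
    ring
  have hfrV : finrank F (Unit ⊕ (Fin m ⊕ Fin m) → F) = 2 * m + 1 := by
    rw [Module.finrank_fintype_fun_eq_card, Fintype.card_sum, Fintype.card_sum,
      Fintype.card_unit, Fintype.card_fin]
    ring
  obtain ⟨ι, hι⟩ := exists_embed h2 hodd (2 * w) (Fin w ⊕ Fin w → F)
    (dForm (spForm (Fin w) F) σ r) hfrU hBU hndU (Unit ⊕ (Fin m ⊕ Fin m) → F) (oForm m F)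
    (oForm_isSForm m) (oForm_nondeg m h2) (by rw [hfrV]; omega)
  obtain ⟨g, hgi, hgpow, hgch⟩ := exists_isometry_extend (oForm_isSForm m) hBU hndU ι hι σ hσBU
  rw [hfrU, hfrV, hσch] at hgch
  obtain ⟨M, hM⟩ : ∃ M : Matrix (Unit ⊕ (Fin m ⊕ Fin m)) (Unit ⊕ (Fin m ⊕ Fin m)) F,
      M = LinearMap.toMatrix' g := ⟨_, rfl⟩
  have hMlin : Matrix.toLin' M = g := by rw [hM, Matrix.toLin'_toMatrix']
  have hMr : M ^ r = 1 := by
    apply Matrix.toLin'.injective
    rw [Matrix.toLin'_pow, hMlin, hgpow r hσr, Matrix.toLin'_one]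
    rfl
  have hMch : M.charpoly = (X - 1) * S.charpoly := by
    rw [← Matrix.charpoly_toLin', hMlin, hgch, hch]
    have : 2 * m + 1 - 2 * w = c + 1 := by omega
    rw [this]
    ring
  have hMiso : ∀ x y, oForm m F (M *ᵥ x) (M *ᵥ y) = oForm m F x y := by
    intro x y
    rw [← Matrix.toLin'_apply, ← Matrix.toLin'_apply, hMlin]
    exact hgi x y
  have hM1 : M * M ^ (r - 1) = 1 := by rw [← pow_succ', Nat.sub_add_cancel hrpos, hMr]
  have hM2 : M ^ (r - 1) * M = 1 := by rw [← pow_succ, Nat.sub_add_cancel hrpos, hMr]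
  obtain ⟨gu, hgu⟩ : ∃ gu : Matrix.GeneralLinearGroup (Unit ⊕ (Fin m ⊕ Fin m)) F,
      (gu : Matrix (Unit ⊕ (Fin m ⊕ Fin m)) (Unit ⊕ (Fin m ⊕ Fin m)) F) = M :=
    ⟨⟨M, M ^ (r - 1), hM1, hM2⟩, rfl⟩
  have hmem : gu ∈ Cfsg.isometryGroup F (Cfsg.quadFormOdd m F) := by
    rw [mem_isometryGroup_iff, hgu]
    exact quad_of_oForm_isometry m h2 hMiso
  refine ⟨⟨gu, hmem⟩, ?_, ?_⟩
  · apply orderOf_eq_prime
    · apply Subtype.ext
      apply Units.ext
      rw [Subgroup.coe_pow, Units.val_pow_eq_pow_val, hgu, hMr]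
      rfl
    · intro h1
      have hgu1 : gu = 1 := congrArg Subtype.val h1
      have hM1' : M = 1 := by
        rw [← hgu, hgu1]
        rfl
      rw [hM1', Matrix.charpoly_one, Fintype.card_sum, Fintype.card_sum, Fintype.card_unit,
        Fintype.card_fin] at hMch
      have hSch : S.charpoly = (X - 1) ^ (m + m) := by
        apply mul_left_cancel₀ monic_X_sub_one.ne_zero
        rw [← hMch]
        ring
      have hS1 := eq_one_of_charpoly_eq' p hr hrp S hSr _ hSch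
      have hs1 : s = 1 := Subtype.ext (by rw [← hS, hS1]; rfl)
      rw [hs1, orderOf_one] at hs
      exact hr.one_lt.ne hs
  · show (gu : Matrix (Unit ⊕ (Fin m ⊕ Fin m)) (Unit ⊕ (Fin m ⊕ Fin m)) F).charpoly = _
    rw [hgu, hMch, hS]

/-- The classes of elements of odd prime order `r ≠ p` of `O_{2m+1}(q)` (`q` odd) are as many
as those of `Sp_{2m}(q)`. -/
theorem orth_odd_card_prime_order_classes_eq {p q : ℕ} [Fact p.Prime] [CharP F p]
    (hF : Fintype.card F = q) (hq : Odd q) (m r : ℕ) (hr : r.Prime) (hr2 : r ≠ 2)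
    (hrp : r ≠ p) :
    Nat.card {C : ConjClasses ↥(Cfsg.isometryGroup F (Cfsg.quadFormOdd m F)) //
        ∃ g : ↥(Cfsg.isometryGroup F (Cfsg.quadFormOdd m F)), ConjClasses.mk g = C ∧ orderOf g = r}
      = Nat.card {C : ConjClasses ↥(Matrix.symplecticGroup (Fin m) F) //
        ∃ g : Matrix.symplecticGroup (Fin m) F, ConjClasses.mk g = C ∧ orderOf g = r} := by
  classical
  have h2 : (2 : F) ≠ 0 := two_ne_zero_of_odd_card' hF hq
  have hodd : Fintype.card F % 2 = 1 := by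
    rw [hF]
    exact Nat.odd_iff.mp hq
  have hrodd : Odd r := hr.odd_of_ne_two hr2
  have hcopr : r.Coprime p := (Nat.coprime_primes hr Fact.out).mpr hrp
  have hrF : (r : F) ≠ 0 := natCast_ne_zero_of_coprime p hcopr
  have hfact : Fact r.Prime := ⟨hr⟩
  obtain ⟨fA, hfA⟩ : ∃ fA : {C : ConjClasses ↥(Cfsg.isometryGroup F (Cfsg.quadFormOdd m F)) //
        ∃ g : ↥(Cfsg.isometryGroup F (Cfsg.quadFormOdd m F)),
          ConjClasses.mk g = C ∧ orderOf g = r} → F[X],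
      ∀ C, ∃ g : ↥(Cfsg.isometryGroup F (Cfsg.quadFormOdd m F)),
        ConjClasses.mk g = C.1 ∧ orderOf g = r ∧
        fA C = ((g : Matrix.GeneralLinearGroup (Unit ⊕ (Fin m ⊕ Fin m)) F) :
          Matrix (Unit ⊕ (Fin m ⊕ Fin m)) (Unit ⊕ (Fin m ⊕ Fin m)) F).charpoly :=
    ⟨fun C => ((C.2.choose : Matrix.GeneralLinearGroup (Unit ⊕ (Fin m ⊕ Fin m)) F) :
          Matrix (Unit ⊕ (Fin m ⊕ Fin m)) (Unit ⊕ (Fin m ⊕ Fin m)) F).charpoly,
      fun C => ⟨C.2.choose, C.2.choose_spec.1, C.2.choose_spec.2, rfl⟩⟩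
  obtain ⟨fB, hfB⟩ : ∃ fB : {C : ConjClasses ↥(Matrix.symplecticGroup (Fin m) F) //
        ∃ g : Matrix.symplecticGroup (Fin m) F, ConjClasses.mk g = C ∧ orderOf g = r} → F[X],
      ∀ C, ∃ g : Matrix.symplecticGroup (Fin m) F,
        ConjClasses.mk g = C.1 ∧ orderOf g = r ∧
        fB C = (X - 1) * (g : Matrix (Fin m ⊕ Fin m) (Fin m ⊕ Fin m) F).charpoly :=
    ⟨fun C => (X - 1) * (C.2.choose : Matrix (Fin m ⊕ Fin m) (Fin m ⊕ Fin m) F).charpoly,
      fun C => ⟨C.2.choose, C.2.choose_spec.1, C.2.choose_spec.2, rfl⟩⟩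
  have hAinj : Function.Injective fA := by
    intro C C' h
    obtain ⟨g, hgC, hgr, hg⟩ := hfA C
    obtain ⟨g', hgC', hgr', hg'⟩ := hfA C'
    apply Subtype.ext
    rw [← hgC, ← hgC', ConjClasses.mk_eq_mk_iff_isConj]
    rw [hg, hg'] at h
    exact orth_isConj_of_charpoly_eq h2 m r hrodd hrF g g'
      (by rw [← hgr]; exact pow_orderOf_eq_one g) (by rw [← hgr']; exact pow_orderOf_eq_one g') h
  have hBinj : Function.Injective fB := by
    intro C C' h
    obtain ⟨s, hsC, hsr, hs⟩ := hfB C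
    obtain ⟨s', hsC', hsr', hs'⟩ := hfB C'
    apply Subtype.ext
    rw [← hsC, ← hsC', ConjClasses.mk_eq_mk_iff_isConj]
    rw [hs, hs'] at h
    have hch := mul_left_cancel₀ monic_X_sub_one.ne_zero h
    exact sp_isConj_of_charpoly_eq p m s s' r r hcopr hcopr
      (by rw [← hsr]; exact pow_orderOf_eq_one s) (by rw [← hsr']; exact pow_orderOf_eq_one s') hch
  have hrange : Set.range fA = Set.range fB := by
    ext Q
    constructor
    · rintro ⟨C, rfl⟩
      obtain ⟨g, hgC, hgr, hg⟩ := hfA C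
      have hgr1 : g ^ r = 1 := by rw [← hgr]; exact pow_orderOf_eq_one g
      obtain ⟨P, hPm, hPd, hPr, hPch⟩ := orth_charpoly_shape m h2 g r hrodd hgr1
      obtain ⟨s, hscop, hsch⟩ := sp_exists_charpoly p m P hPm hPd hPr
      have hgMr : ((g : Matrix.GeneralLinearGroup (Unit ⊕ (Fin m ⊕ Fin m)) F) :
          Matrix (Unit ⊕ (Fin m ⊕ Fin m)) (Unit ⊕ (Fin m ⊕ Fin m)) F) ^ r = 1 := by
        rw [← Units.val_pow_eq_pow_val, ← Subgroup.coe_pow, hgr1]
        rfl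
      obtain ⟨c, ms, hms, hch⟩ := charpoly_factors_of_pow_eq_one' p hr hrp _ hgMr
      have hsr : (s : Matrix (Fin m ⊕ Fin m) (Fin m ⊕ Fin m) F) ^ r = 1 := by
        apply pow_eq_one_of_charpoly_dvd p _ (orderOf s) hscop
          (by rw [← SubmonoidClass.coe_pow, pow_orderOf_eq_one]; rfl) (c + Multiset.card ms)
        rw [hsch]
        have h1 : P ∣ (X - 1 : F[X]) ^ c * ms.prod := by
          rw [← hch, hPch]
          exact Dvd.intro_left _ rfl
        exact h1.trans (cyc_prod_dvd hr c ms hms)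
      have hs1 : s ≠ 1 := by
        intro h1
        rw [h1] at hsch
        have hP1 : P = (X - 1) ^ (m + m) := by
          rw [← hsch]
          have := Matrix.charpoly_one (R := F) (n := Fin m ⊕ Fin m)
          rw [Fintype.card_sum, Fintype.card_fin] at this
          exact this
        rw [hP1, ← pow_succ'] at hPch
        have hg1 := eq_one_of_charpoly_eq' p hr hrp _ hgMr _ hPch
        have hg1' : g = 1 := by
          apply Subtype.ext
          apply Units.ext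
          rw [hg1]
          rfl
        rw [hg1', orderOf_one] at hgr
        exact hr.one_lt.ne hgr
      have hsord : orderOf s = r := orderOf_eq_prime
        (Subtype.ext (by rw [SubmonoidClass.coe_pow, hsr]; rfl)) hs1
      obtain ⟨s₂, hs₂C, hs₂r, hs₂⟩ := hfB ⟨ConjClasses.mk s, s, rfl, hsord⟩
      refine ⟨⟨ConjClasses.mk s, s, rfl, hsord⟩, ?_⟩
      rw [hs₂, hg, hPch, ← hsch]
      congr 1
      have hconj : IsConj s₂ s := ConjClasses.mk_eq_mk_iff_isConj.mp hs₂C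
      exact charpoly_eq_of_isConj_hom (Matrix.symplecticGroup (Fin m) F).subtype hconj
    · rintro ⟨C, rfl⟩
      obtain ⟨s, hsC, hsr, hs⟩ := hfB C
      obtain ⟨g, hgr, hgch⟩ := orth_exists_of_sp p h2 hodd m r hr hr2 hrp s hsr
      obtain ⟨g₂, hg₂C, hg₂r, hg₂⟩ := hfA ⟨ConjClasses.mk g, g, rfl, hgr⟩
      refine ⟨⟨ConjClasses.mk g, g, rfl, hgr⟩, ?_⟩
      rw [hg₂, hs, ← hgch]
      have hconj : IsConj g₂ g := ConjClasses.mk_eq_mk_iff_isConj.mp hg₂C
      exact charpoly_eq_of_isConj_hom ((Units.coeHom (Matrix (Unit ⊕ (Fin m ⊕ Fin m))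
        (Unit ⊕ (Fin m ⊕ Fin m)) F)).comp (Cfsg.isometryGroup F (Cfsg.quadFormOdd m F)).subtype)
        hconj
  rw [Nat.card_congr (Equiv.ofInjective fA hAinj), Nat.card_congr (Equiv.ofInjective fB hBinj),
    hrange]

end OrthGroup

end Cfsg.Agent.Lib.Helper47
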