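import Cfsg.Agent.Lib.Helper47.QuadDefs
import Cfsg.Agent.Lib.Helper47.GUPrime
import Cfsg.Agent.Lib.Helper2.QuadMINUSTYP
import Cfsg.Agent.Lib.Helper4.QuadANISOEQ
import Cfsg.Agent.Lib.Helper5.QuadANISOCOUNT
import Cfsg.Agent.Lib.Helper23.QuadBALPLUS
import Cfsg.Agent.Lib.Helper26.QuadCLASSIFY
import Cfsg.Agent.Lib.Helper34.QuadNEC
import Cfsg.Agent.Lib.Helper58.QuadCOUNTEVEN
import Cfsg.Agent.Lib.Helper58.QuadCOUNTODD
import Cfsg.Agent.Lib.Helper63.QuadCW
import Cfsg.Agent.Lib.Helper66.QuadSTD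
import Cfsg.Agent.Lib.Helper78.QuadEVENALT
import Cfsg.Agent.Lib.Helper82.QuadSELFDUAL
import Cfsg.Agent.Lib.Helper78.QuadBALSUM
import Cfsg.Agent.Lib.Helper29.QuadEXIST
import Cfsg.Agent.Lib.Helper29.QuadCONJ
import Cfsg.Agent.Lib.Helper43.QuadRMODEL
import Cfsg.Agent.Lib.Helper19.QuadHYPMODEL
import Cfsg.Agent.Lib.Helper97.QuadMODELK

/-!
# Quadratic spaces over finite fields: assembly of the job-board pieces (S2674, S2675)

Pieces: BALSUM, EVENALT (helper78), BALPLUS (helper23), ANISOCOUNT (helper5), ANISOEQ (helper4),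
CW (helper63), CLASSIFY (helper26), STD (helper66), MINUSTYP (helper2), SELFDUAL (helper82),
NEC (helper34), COUNTODD/COUNTEVEN (helper58), MODELK (helper97), HYPMODEL (helper19),
RMODEL (helper43), CONJ and EXIST (helper29).
`qfacts` bundles them into `QFacts F`.
-/

set_option autoImplicit false

namespace Cfsg.Agent.Lib.Helper47

open Polynomial Module

open Cfsg.Agent.Lib.Helper2.QuadMINUSTYP Cfsg.Agent.Lib.Helper4.Quad Cfsg.Agent.Lib.Helper5.QuadAC
  Cfsg.Agent.Lib.Helper23.Quad Cfsg.Agent.Lib.Helper26.QuadClassify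
  Cfsg.Agent.Lib.Helper63 Cfsg.Agent.Lib.Helper66.QuadSTD Cfsg.Agent.Lib.Helper78.Quad
open Cfsg.Agent.Lib.Helper43.QuadRMODEL Cfsg.Agent.Lib.Helper19.QuadHyp
open Cfsg.Agent.Lib.Helper97.QuadMODELK

universe u

theorem qfacts {F : Type u} [Field F] [Fintype F] (p : ℕ) [Fact p.Prime] [CharP F p] :
    QFacts F := by
  have hcl := quad_classify (F := F) (fun Q₁ Q₂ _ _ _ _ h₁ h₂ => isTyp_prod Q₁ Q₂ h₁ h₂)
    isTyp_hyp isTyp_aniso exists_aniso_vec
    (fun V _ _ _ Q B hQ hd => exists_singular hQ hd)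
  refine
    { typ_prod := fun Q₁ Q₂ _ _ _ _ h₁ h₂ => isTyp_prod Q₁ Q₂ h₁ h₂
      typ_exists := hcl.1
      isometric := hcl.2
      space := ?_
      alt_even := fun W _ _ _ B hB halt hnd => even_finrank_of_alt hB halt hnd
      rmodel := ?_ }
  · intro k ε hε
    rcases hε with rfl | rfl
    · exact ⟨Fin (k + 1) ⊕ Fin (k + 1) → F, inferInstance, inferInstance, inferInstance,
        Cfsg.quadFormPlus (k + 1) F, plusB (k + 1) F, quadFormPlus_isQuad (k + 1),
        plusB_nondeg (k + 1), by simp; ring, isTyp_quadFormPlus k⟩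
    · obtain ⟨a, c, hac⟩ := exists_isAniso (F := F)
      exact ⟨(Fin k ⊕ Fin k) ⊕ Fin 2 → F, inferInstance, inferInstance, inferInstance,
        Cfsg.quadFormMinus k F a c, minusB k F a c, quadFormMinus_isQuad k a c,
        minusB_nondeg k a c hac, by simp; ring,
        isTyp_quadFormMinus_of k a c (fun Q₁ Q₂ _ _ _ _ h₁ h₂ => isTyp_prod Q₁ Q₂ h₁ h₂)
          isTyp_quadFormPlus (isTyp_aniso a c hac)⟩
  · exact exists_rmodel p (fun Q₁ Q₂ _ _ _ _ h₁ h₂ => isTyp_prod Q₁ Q₂ h₁ h₂)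
      (fun r hr hr2 hrF f hf hd => exists_selfdual_model hcl.1 p r hr hr2
        (fun h => hrF (by rw [h]; exact CharP.cast_eq_zero F p)) f hf hd)
      (fun k A r hr hA => exists_hyp_model k A r hr hA (isTyp_quadFormPlus k))

end Cfsg.Agent.Lib.Helper47
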