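import Cfsg.Agent.Lib.Helper47.QuadAll
import Cfsg.Agent.Lib.Helper47.SpPrime
import Cfsg.Agent.Lib.Helper47.OrthPrime

/-!
# Conjugacy classes of elements of odd prime order in even-dimensional orthogonal groups

`quad_card_classes`: for a nondegenerate quadratic form `Q` on `F^ι` (`|ι| = 2k+2`) of type `ε`,
the classes of elements of odd prime order `r ≠ p` of the isometry group correspond to the
dual-invariant multisets `u` of irreducible factors of the `r`-th cyclotomic polynomial with
`deg ≤ 2k+2`, and type `tauSign u = ε` in case of equality.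
-/

set_option autoImplicit false

namespace Cfsg.Agent.Lib.Helper47

open Polynomial Module Matrix

open Cfsg.Agent.Lib.Helper34.QuadNEC Cfsg.Agent.Lib.Helper82
open Cfsg.Agent.Lib.Helper29.QuadEXIST Cfsg.Agent.Lib.Helper29.QuadCONJ

universe u

section QuadMain

variable {F : Type u} [Field F] [Fintype F]

lemma mem_isometryGroup_iff' {ι : Type} [Fintype ι] [DecidableEq ι] (Q : (ι → F) → F)
    (g : Matrix.GeneralLinearGroup ι F) :
    g ∈ Cfsg.isometryGroup F Q ↔ ∀ u, Q ((g : Matrix ι ι F) *ᵥ u) = Q u := by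
  constructor
  · intro h u
    exact h u u
  · intro h u v
    exact h u

lemma exists_unit_of_pow_eq_one {ι : Type} [Fintype ι] [DecidableEq ι] (M : Matrix ι ι F)
    (r : ℕ) (hr : 0 < r) (hM : M ^ r = 1) :
    ∃ gu : Matrix.GeneralLinearGroup ι F, (gu : Matrix ι ι F) = M := by
  have hM1 : M * M ^ (r - 1) = 1 := by rw [← pow_succ', Nat.sub_add_cancel hr, hM]
  have hM2 : M ^ (r - 1) * M = 1 := by rw [← pow_succ, Nat.sub_add_cancel hr, hM]
  exact ⟨⟨M, M ^ (r - 1), hM1, hM2⟩, rfl⟩

/-- Conjugacy in the isometry group of elements of odd order with the same characteristic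
polynomial. -/
theorem quad_isConj_of_charpoly_eq (hf : QFacts F) {ι : Type} [Fintype ι] [DecidableEq ι]
    (Q : (ι → F) → F) (B : (ι → F) → (ι → F) → F) (hQ : IsQuad Q B) (hnd : Nondeg B) (k : ℕ)
    (hι : Fintype.card ι = 2 * k + 2) (r : ℕ) (hrodd : Odd r) (hrF : (r : F) ≠ 0)
    (g g' : ↥(Cfsg.isometryGroup F Q)) (hg : g ^ r = 1) (hg' : g' ^ r = 1)
    (hc : ((g : Matrix.GeneralLinearGroup ι F) : Matrix ι ι F).charpoly
      = ((g' : Matrix.GeneralLinearGroup ι F) : Matrix ι ι F).charpoly) :
    IsConj g g' := by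
  obtain ⟨M, hM⟩ : ∃ M : Matrix ι ι F,
      M = ((g : Matrix.GeneralLinearGroup ι F) : Matrix ι ι F) := ⟨_, rfl⟩
  obtain ⟨M', hM'⟩ : ∃ M' : Matrix ι ι F,
      M' = ((g' : Matrix.GeneralLinearGroup ι F) : Matrix ι ι F) := ⟨_, rfl⟩
  have hMr : M ^ r = 1 := by
    rw [hM, ← Units.val_pow_eq_pow_val, ← Subgroup.coe_pow, hg]
    rfl
  have hM'r : M' ^ r = 1 := by
    rw [hM', ← Units.val_pow_eq_pow_val, ← Subgroup.coe_pow, hg']
    rfl
  have hMi := (mem_isometryGroup_iff' Q g.1).mp g.2
  have hM'i := (mem_isometryGroup_iff' Q g'.1).mp g'.2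
  rw [← hM] at hMi
  rw [← hM'] at hM'i
  rw [← hM, ← hM'] at hc
  have hdim : finrank F (ι → F) = 2 * k + 2 := by
    rw [Module.finrank_fintype_fun_eq_card, hι]
  obtain ⟨Φ, hΦQ, hΦ⟩ := quad_exists_conj hf hQ hnd k hdim
    (Matrix.toLin' M) (Matrix.toLin' M') r hrodd hrF
    (by rw [← Matrix.toLin'_pow, hMr, Matrix.toLin'_one]; rfl)
    (by rw [← Matrix.toLin'_pow, hM'r, Matrix.toLin'_one]; rfl)
    (fun x => by rw [Matrix.toLin'_apply]; exact hMi x)
    (fun x => by rw [Matrix.toLin'_apply]; exact hM'i x)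
    (by rw [Matrix.charpoly_toLin', Matrix.charpoly_toLin', hc])
  obtain ⟨P, hP⟩ : ∃ P : Matrix ι ι F, P = LinearMap.toMatrix' Φ.toLinearMap := ⟨_, rfl⟩
  have hPlin : Matrix.toLin' P = Φ.toLinearMap := by rw [hP, Matrix.toLin'_toMatrix']
  have hPQ : ∀ x, Q (P *ᵥ x) = Q x := by
    intro x
    rw [← Matrix.toLin'_apply, hPlin]
    exact hΦQ x
  have hPinj : Function.Injective P.mulVec := by
    intro x y hxy
    have h1 : Matrix.toLin' P x = Matrix.toLin' P y := by
      rw [Matrix.toLin'_apply, Matrix.toLin'_apply]; exact hxy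
    rw [hPlin] at h1
    exact Φ.injective h1
  have hPu : IsUnit P := Matrix.mulVec_injective_iff_isUnit.mp hPinj
  obtain ⟨Pu, hPu'⟩ := hPu
  have hmem : Pu ∈ Cfsg.isometryGroup F Q := by
    rw [mem_isometryGroup_iff', hPu']
    exact hPQ
  have hPM : P * M = M' * P := by
    apply Matrix.toLin'.injective
    rw [Matrix.toLin'_mul, Matrix.toLin'_mul, hPlin]
    apply LinearMap.ext
    intro x
    rw [LinearMap.comp_apply, LinearMap.comp_apply]
    exact hΦ x
  rw [isConj_iff]
  refine ⟨⟨Pu, hmem⟩, ?_⟩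
  rw [mul_inv_eq_iff_eq_mul]
  apply Subtype.ext
  apply Units.ext
  show (Pu : Matrix ι ι F) * ((g : Matrix.GeneralLinearGroup ι F) : Matrix ι ι F)
    = ((g' : Matrix.GeneralLinearGroup ι F) : Matrix ι ι F) * (Pu : Matrix ι ι F)
  rw [hPu', ← hM, ← hM']
  exact hPM

/-- The classes of elements of odd prime order `r ≠ p` in the isometry group of a nondegenerate
quadratic form of dimension `2k+2` and type `ε`, in terms of multisets of cyclotomic factors. -/
theorem quad_card_classes (hf : QFacts F) {p q : ℕ} [Fact p.Prime] [CharP F p]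
    (hF : Fintype.card F = q) {ι : Type} [Fintype ι] [DecidableEq ι] (Q : (ι → F) → F)
    (B : (ι → F) → (ι → F) → F) (hQ : IsQuad Q B) (hnd : Nondeg B) (k : ℕ)
    (hι : Fintype.card ι = 2 * k + 2) (ε : ℤ) (hε : ε = 1 ∨ ε = -1) (htyp : IsTyp Q k ε)
    (r i : ℕ) (hr : r.Prime) (hr2 : r ≠ 2) (hrp : r ≠ p) (hi : i = orderOf (q : ZMod r))
    (δ : {f : F[X] // IsCycFactor r f} → {f : F[X] // IsCycFactor r f})
    (hδdef : ∀ a, (δ a).1 = dualP (RingHom.id F) a.1) :
    Nat.card {C : ConjClasses ↥(Cfsg.isometryGroup F Q) //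
        ∃ g : ↥(Cfsg.isometryGroup F Q), ConjClasses.mk g = C ∧ orderOf g = r}
      = Nat.card {u : Multiset {f : F[X] // IsCycFactor r f} //
          0 < Multiset.card u ∧ i * Multiset.card u ≤ 2 * k + 2 ∧ u.map δ = u ∧
            (i * Multiset.card u = 2 * k + 2 → tauSign (u.map Subtype.val) = ε)} := by
  classical
  have hcopr : r.Coprime p := (Nat.coprime_primes hr Fact.out).mpr hrp
  have hfact : Fact r.Prime := ⟨hr⟩
  have hrF : (r : F) ≠ 0 := natCast_ne_zero_of_coprime p hcopr
  have hrodd : Odd r := hr.odd_of_ne_two hr2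
  have hdegα : ∀ f : F[X], IsCycFactor r f → f.Monic ∧ f.natDegree = i :=
    fun f hf => ⟨hf.1, by rw [hi]; exact hf.natDegree_eq hF hr hrp⟩
  have hdim : finrank F (ι → F) = 2 * k + 2 := by
    rw [Module.finrank_fintype_fun_eq_card, hι]
  rw [card_classes_eq (fun g : ↥(Cfsg.isometryGroup F Q) => orderOf g = r)
    (fun g => ((g : Matrix.GeneralLinearGroup ι F) : Matrix ι ι F).charpoly)
    (fun g h hc => charpoly_eq_of_isConj_hom
      ((Units.coeHom (Matrix ι ι F)).comp (Subgroup.subtype _)) hc)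
    (fun g h hg hh hc => quad_isConj_of_charpoly_eq hf Q B hQ hnd k hι r hrodd hrF g h
      (by rw [← hg]; exact pow_orderOf_eq_one g) (by rw [← hh]; exact pow_orderOf_eq_one h) hc)
    (fun f => ∃ g : ↥(Cfsg.isometryGroup F Q), orderOf g = r ∧
      ((g : Matrix.GeneralLinearGroup ι F) : Matrix ι ι F).charpoly = f)
    (fun f => Iff.rfl)]
  have hval : ∀ u : Multiset {f : F[X] // IsCycFactor r f}, ∀ f ∈ u.map Subtype.val,
      IsCycFactor r f := by
    intro u f hf
    obtain ⟨a, -, rfl⟩ := Multiset.mem_map.mp hf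
    exact a.2
  have hdualmap : ∀ u : Multiset {f : F[X] // IsCycFactor r f},
      (u.map Subtype.val).map (dualP (RingHom.id F)) = (u.map δ).map Subtype.val := by
    intro u
    rw [Multiset.map_map, Multiset.map_map]
    exact Multiset.map_congr rfl (fun a _ => (hδdef a).symm)
  have hdualpoly : ∀ (c : ℕ) (u : Multiset {f : F[X] // IsCycFactor r f}),
      dualP (RingHom.id F) ((X - 1) ^ c * (u.map Subtype.val).prod)
        = (X - 1) ^ c * ((u.map δ).map Subtype.val).prod := by
    intro c u
    rw [dualP_mul, dualP_pow, dualP_X_sub_one, dualP_multiset_prod, hdualmap]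
  have hnatdeg : ∀ u : Multiset {f : F[X] // IsCycFactor r f},
      (u.map Subtype.val).prod.natDegree = i * Multiset.card u := by
    intro u
    have h1 := natDegree_cyc_prod 0 (u.map Subtype.val) (fun f hf => hdegα f (hval u f hf))
    rw [pow_zero, one_mul, Multiset.card_map, zero_add] at h1
    exact h1
  symm
  have hex : ∀ u : {u : Multiset {f : F[X] // IsCycFactor r f} //
        0 < Multiset.card u ∧ i * Multiset.card u ≤ 2 * k + 2 ∧ u.map δ = u ∧
          (i * Multiset.card u = 2 * k + 2 → tauSign (u.map Subtype.val) = ε)},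
      ∃ g : ↥(Cfsg.isometryGroup F Q), orderOf g = r ∧
        ((g : Matrix.GeneralLinearGroup ι F) : Matrix ι ι F).charpoly
          = (X - 1) ^ (2 * k + 2 - i * Multiset.card u.1) * (u.1.map Subtype.val).prod := by
    rintro ⟨u, hu0, hun, huδ, hutype⟩
    have hune : u.map Subtype.val ≠ 0 := by
      intro h0
      have := congrArg Multiset.card h0
      rw [Multiset.card_map, Multiset.card_zero] at this
      omega
    obtain ⟨γ, hγQ, hγr, hγc⟩ := quad_exists_of_multiset hf hQ hnd k hdim ε hε htyp p r hr hr2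
      hrp (u.map Subtype.val) (hval u) hune (by rw [hdualmap, huδ])
      (by rw [hnatdeg]; exact hun) (fun h => hutype (by rw [← hnatdeg]; exact h))
    rw [hnatdeg] at hγc
    obtain ⟨M, hM⟩ : ∃ M : Matrix ι ι F, M = LinearMap.toMatrix' γ := ⟨_, rfl⟩
    have hMlin : Matrix.toLin' M = γ := by rw [hM, Matrix.toLin'_toMatrix']
    have hMr : M ^ r = 1 := by
      apply Matrix.toLin'.injective
      rw [Matrix.toLin'_pow, hMlin, hγr, Matrix.toLin'_one]
      rfl
    have hMch : M.charpoly
        = (X - 1) ^ (2 * k + 2 - i * Multiset.card u) * (u.map Subtype.val).prod := by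
      rw [← Matrix.charpoly_toLin', hMlin, hγc]
    have hMQ : ∀ x, Q (M *ᵥ x) = Q x := by
      intro x
      rw [← Matrix.toLin'_apply, hMlin]
      exact hγQ x
    obtain ⟨gu, hgu⟩ := exists_unit_of_pow_eq_one M r hr.pos hMr
    have hmem : gu ∈ Cfsg.isometryGroup F Q := by
      rw [mem_isometryGroup_iff', hgu]
      exact hMQ
    refine ⟨⟨gu, hmem⟩, ?_, ?_⟩
    · apply orderOf_eq_prime
      · apply Subtype.ext
        apply Units.ext
        rw [Subgroup.coe_pow, Units.val_pow_eq_pow_val, hgu, hMr]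
        rfl
      · intro h1
        have hgu1 : gu = 1 := congrArg Subtype.val h1
        have hM1' : M = 1 := by
          rw [← hgu, hgu1]
          rfl
        rw [hM1', Matrix.charpoly_one, hι] at hMch
        have h1' := normalizedFactors_cyc_prod p hr hrp (2 * k + 2) (0 : Multiset F[X]) (by simp)
        have h2' := normalizedFactors_cyc_prod p hr hrp (2 * k + 2 - i * Multiset.card u)
          (u.map Subtype.val) (hval u)
        rw [← hMch] at h2'
        rw [Multiset.prod_zero, mul_one] at h1'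
        rw [h1'] at h2'
        have h3 : Multiset.card u = 0 := by
          rw [← Multiset.card_map Subtype.val, ← h2']; rfl
        omega
    · show (gu : Matrix ι ι F).charpoly = _
      rw [hgu, hMch]
  apply Nat.card_congr
  apply Equiv.ofBijective (fun u => (⟨_, hex u⟩ : {f : F[X] //
    ∃ g : ↥(Cfsg.isometryGroup F Q), orderOf g = r ∧
      ((g : Matrix.GeneralLinearGroup ι F) : Matrix ι ι F).charpoly = f}))
  constructor
  · rintro ⟨u, hu0, hun, huδ, hut⟩ ⟨u', hu0', hun', huδ', hut'⟩ h
    have h1 : (X - 1 : F[X]) ^ (2 * k + 2 - i * Multiset.card u) * (u.map Subtype.val).prod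
        = (X - 1) ^ (2 * k + 2 - i * Multiset.card u') * (u'.map Subtype.val).prod :=
      congrArg Subtype.val h
    have h2 := normalizedFactors_cyc_prod p hr hrp (2 * k + 2 - i * Multiset.card u) _ (hval u)
    have h3 := normalizedFactors_cyc_prod p hr hrp (2 * k + 2 - i * Multiset.card u') _ (hval u')
    rw [h1, h3] at h2
    apply Subtype.ext
    exact (Multiset.map_injective Subtype.val_injective h2).symm
  · rintro ⟨f, g, hg, rfl⟩
    obtain ⟨G, hG⟩ : ∃ G : Matrix ι ι F,
      G = ((g : Matrix.GeneralLinearGroup ι F) : Matrix ι ι F) := ⟨_, rfl⟩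
    have hGr : G ^ r = 1 := by
      rw [hG, ← Units.val_pow_eq_pow_val, ← Subgroup.coe_pow, ← hg, pow_orderOf_eq_one]; rfl
    have hGQ : ∀ x, Q (G *ᵥ x) = Q x := by
      rw [hG]
      exact (mem_isometryGroup_iff' Q g.1).mp g.2
    obtain ⟨c, s₀, hs₀, hc⟩ := charpoly_factors_of_pow_eq_one' p hr hrp G hGr
    obtain ⟨u, hu⟩ : ∃ u : Multiset {f : F[X] // IsCycFactor r f}, u.map Subtype.val = s₀ :=
      ⟨s₀.pmap (fun f hf => ⟨f, hf⟩) hs₀, map_val_pmap_mk s₀ hs₀⟩
    have hdeg : 2 * k + 2 = c + i * Multiset.card u := by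
      have h1 := natDegree_cyc_prod c s₀ (fun f hf => hdegα f (hs₀ f hf))
      rw [← hc, Matrix.charpoly_natDegree_eq_dim, hι, ← hu, Multiset.card_map] at h1
      exact h1
    have hu0 : 0 < Multiset.card u := by
      rw [Multiset.card_pos]
      rintro rfl
      rw [Multiset.map_zero] at hu
      subst hu
      rw [Multiset.prod_zero, mul_one] at hc
      have h1 := eq_one_of_charpoly_eq' p hr hrp _ hGr c hc
      have h2 : g = 1 := by
        apply Subtype.ext
        apply Units.ext
        rw [← hG, h1]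
        rfl
      rw [h2, orderOf_one] at hg
      exact hr.one_lt.ne hg
    have hγQ : ∀ v, Q (Matrix.toLin' G v) = Q v := by
      intro v
      rw [Matrix.toLin'_apply]
      exact hGQ v
    have huδ : u.map δ = u := by
      have h2 : dualP (RingHom.id F) G.charpoly = G.charpoly := by
        have := charpoly_selfdual hQ.form hnd (Matrix.toLin' G)
          (hQ.isometry hQ (Matrix.toLin' G) hγQ)
        rwa [Matrix.charpoly_toLin'] at this
      rw [hc, ← hu, hdualpoly] at h2
      have h3 := normalizedFactors_cyc_prod p hr hrp c _ (hval (u.map δ))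
      have h4 := normalizedFactors_cyc_prod p hr hrp c _ (hval u)
      rw [h2, h4] at h3
      exact (Multiset.map_injective Subtype.val_injective h3).symm
    have hutype : i * Multiset.card u = 2 * k + 2 → tauSign (u.map Subtype.val) = ε := by
      intro hfull
      have hc0 : c = 0 := by omega
      have hune : u.map Subtype.val ≠ 0 := by
        intro h0
        have := congrArg Multiset.card h0
        rw [Multiset.card_map, Multiset.card_zero] at this
        omega
      obtain ⟨j, hj, hjt⟩ := quad_type_of_no_fix hf hQ hnd p (Matrix.toLin' G) r hr hr2 hrp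
        (by rw [← Matrix.toLin'_pow, hGr, Matrix.toLin'_one]; rfl) hγQ (u.map Subtype.val)
        (hval u) hune (by rw [hdualmap, huδ])
        (by rw [Matrix.charpoly_toLin', hc, hc0, pow_zero, one_mul, hu])
      have hjk : j = k := by omega
      rw [hjk] at hjt
      exact hjt.unique htyp
    refine ⟨⟨u, hu0, by omega, huδ, hutype⟩, ?_⟩
    apply Subtype.ext
    simp only
    rw [← hG, hu, hc]
    congr 2
    omega

end QuadMain

end Cfsg.Agent.Lib.Helper47
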