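import Cfsg.Agent.Lib.Helper98.H74Defs

/-!
# Project H74 (S5974), piece K4 (backup copy `H74K4b`, by helper47)

An involutory isometry of a `+` type quadratic space of dimension `≥ 4` in characteristic 2
leaves a `+` type 4-subspace invariant.  The sibling pieces HYPTYP (`hyp_iff`), SUM
(`subtyp_sup`) and COMPL (`subtyp_compl`) enter `k4_of` as hypotheses.
-/

set_option autoImplicit false

namespace Cfsg.Agent.Lib.Helper98.H74

open Cfsg.Agent.Lib.Helper47 Cfsg.Agent.Lib.Helper98.T73 Module Polynomial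

universe u

variable {F : Type u} [Field F] [Fintype F] {V : Type u} [AddCommGroup V] [Module F V]
  [FiniteDimensional F V] {Q : V → F} {B : V → V → F}

/-- a plane `⟨a, b⟩` with `B a b ≠ 0` (alternating `B`) is nondegenerate, so it has a type -/
theorem K4b_plane (hf : QFacts F) (hQ : IsQuad Q B) (halt : ∀ x : V, B x x = 0) (a b : V)
    (hab : B a b ≠ 0) :
    SubTyp Q B (Submodule.span F {a, b}) 0 1 ∨ SubTyp Q B (Submodule.span F {a, b}) 0 (-1) := by
  have hB := hQ.form
  have hba : B b a ≠ 0 := by rw [sym_comm hB a b]; exact hab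
  have hnd : Nondeg (resForm B (Submodule.span F {a, b})) := by
    intro x hx
    obtain ⟨s, t, hst⟩ := Submodule.mem_span_pair.mp x.2
    have h1 := hx ⟨b, Submodule.subset_span (by simp)⟩
    have h2 := hx ⟨a, Submodule.subset_span (by simp)⟩
    simp only [resForm_apply] at h1 h2
    rw [← hst, hB.add_left, hB.smul_left, hB.smul_left, halt b, mul_zero, add_zero] at h1
    rw [← hst, hB.add_left, hB.smul_left, hB.smul_left, halt a, mul_zero, zero_add] at h2
    have hs : s = 0 := (mul_eq_zero.mp h1).resolve_right hab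
    have ht : t = 0 := (mul_eq_zero.mp h2).resolve_right hba
    apply Subtype.ext
    rw [← hst, hs, ht]; simp
  have hli : LinearIndependent F ![a, b] := by
    rw [LinearIndependent.pair_iff]
    intro s t hst
    have h1 : B (s • a + t • b) b = 0 := by rw [hst, hB.zero_left]
    have h2 : B (s • a + t • b) a = 0 := by rw [hst, hB.zero_left]
    rw [hB.add_left, hB.smul_left, hB.smul_left, halt b, mul_zero, add_zero] at h1
    rw [hB.add_left, hB.smul_left, hB.smul_left, halt a, mul_zero, zero_add] at h2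
    exact ⟨(mul_eq_zero.mp h1).resolve_right hab, (mul_eq_zero.mp h2).resolve_right hba⟩
  have hfr : finrank F (Submodule.span F {a, b} : Submodule F V) = 2 * 0 + 2 := by
    have h := finrank_span_eq_card hli
    have hr : Set.range ![a, b] = {a, b} := by
      ext z
      simp only [Set.mem_range, Fin.exists_fin_two, Matrix.cons_val_zero, Matrix.cons_val_one,
        Set.mem_insert_iff, Set.mem_singleton_iff]
      constructor
      · rintro (h | h)
        · exact Or.inl h.symm
        · exact Or.inr h.symm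
      · rintro (h | h)
        · exact Or.inl h.symm
        · exact Or.inr h.symm
    rw [hr] at h
    rw [h]; simp
  rcases hf.typ_exists 0 (Submodule.span F {a, b} : Submodule F V) (fun w => Q (w : V))
    (resForm B _) (hQ.res _) hnd hfr with h | h
  · left; unfold SubTyp; exact ⟨hnd, hfr, h⟩
  · right; unfold SubTyp; exact ⟨hnd, hfr, h⟩

/-- the Gram matrix of `u, v, nu, nv` is invertible -/
theorem K4b_key (hB : IsSForm (RingHom.id F) 1 B) (u v nu nv : V) (β : F) (hβ : β ≠ 0)
    (e1 : B u nu = 0) (e2 : B v nu = β) (e3 : B nu nu = 0) (e4 : B nv nu = 0)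
    (e5 : B u nv = β) (e6 : B v nv = 0) (e7 : B nu nv = 0) (e8 : B nv nv = 0)
    (e9 : B nu v = β) (e10 : B nv v = 0) (e11 : B v v = 0)
    (e12 : B nu u = 0) (e13 : B nv u = β) (e14 : B u u = 0) (c0 c1 c2 c3 : F)
    (h1 : B (c0 • u + c1 • v + c2 • nu + c3 • nv) nu = 0)
    (h2 : B (c0 • u + c1 • v + c2 • nu + c3 • nv) nv = 0)
    (h3 : B (c0 • u + c1 • v + c2 • nu + c3 • nv) v = 0)
    (h4 : B (c0 • u + c1 • v + c2 • nu + c3 • nv) u = 0) :
    c0 = 0 ∧ c1 = 0 ∧ c2 = 0 ∧ c3 = 0 := by
  simp only [hB.add_left, hB.smul_left, e1, e2, e3, e4, e5, e6, e7, e8, e9, e10, e11, e12, e13,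
    e14, mul_zero, add_zero, zero_add] at h1 h2 h3 h4
  have hc1' : c1 = 0 := (mul_eq_zero.mp h1).resolve_right hβ
  have hc0' : c0 = 0 := (mul_eq_zero.mp h2).resolve_right hβ
  rw [hc0', zero_mul, zero_add] at h3
  rw [hc1', zero_mul, zero_add] at h4
  exact ⟨hc0', hc1', (mul_eq_zero.mp h3).resolve_right hβ,
    (mul_eq_zero.mp h4).resolve_right hβ⟩

/-- PEEL: inside a nonzero invariant nondegenerate subspace there is an invariant typed plane
or an invariant `+` type 4-subspace -/
theorem K4b_peel (hf : QFacts F) [CharP F 2] (hQ : IsQuad Q B) (g : Module.End F V)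
    (hgQ : QI Q g) (hg : g * g = 1)
    (hhyp : ∀ W : Submodule F V, HypM Q (2 * 1 + 2) W → SubTyp Q B W 1 1)
    (X : Submodule F V) (hXg : X.map g ≤ X) (hXnd : Nondeg (resForm B X)) (hX0 : X ≠ ⊥) :
    ∃ P : Submodule F V, P ≤ X ∧ P.map g ≤ P ∧
      ((∃ ε : ℤ, (ε = 1 ∨ ε = -1) ∧ SubTyp Q B P 0 ε) ∨ SubTyp Q B P 1 1) := by
  classical
  have hB := hQ.form
  have h2 : (2 : F) = 0 := CharTwo.two_eq_zero
  have halt : ∀ x : V, B x x = 0 := fun x => by rw [hQ.self, h2, zero_mul]
  have hvv : ∀ v : V, v + v = 0 := fun v => by rw [← two_smul F v, h2, zero_smul]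
  have hgg : ∀ x : V, g (g x) = x := fun x => by
    have h := LinearMap.congr_fun hg x
    simpa using h
  have hiso : ∀ x y : V, B (g x) (g y) = B x y := fun x y => hQ.isometry hQ g hgQ x y
  have hadj : ∀ x y : V, B (g x) y = B x (g y) := fun x y => by
    rw [← hiso (g x) y, hgg]
  have hgX : ∀ x ∈ X, g x ∈ X := fun x hx => hXg (Submodule.mem_map_of_mem hx)
  have hNX : ∀ x ∈ X, g x + x ∈ X := fun x hx => X.add_mem (hgX x hx) hx
  have hgN : ∀ x : V, g (g x + x) = g x + x := fun x => by rw [map_add, hgg, add_comm]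
  have hNadj : ∀ x y : V, B (g x + x) y = B x (g y + y) := fun x y => by
    rw [hB.add_left, hB.add_right, hadj]
  have hNN : ∀ x y : V, B (g x + x) (g y + y) = 0 := fun x y => by
    rw [hNadj, hgN, hvv, hB.zero_right]
  have hQN : ∀ x : V, Q (g x + x) = B x (g x + x) := fun x => by
    have h3 : Q x + Q x = 0 := by rw [← two_mul, h2, zero_mul]
    rw [hQ.polar, hgQ x, hB.add_right, halt, add_zero, sym_comm hB (g x) x, h3, zero_add]
  have hpol : ∀ x y : V, QuadraticMap.polar Q x y = B x y := fun x y => by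
    unfold QuadraticMap.polar; rw [hQ.polar]; ring
  by_cases hc1 : ∃ v ∈ X, B v (g v + v) ≠ 0
  · obtain ⟨v, hv, hvN⟩ := hc1
    have htyp := K4b_plane hf hQ halt v (g v + v) hvN
    refine ⟨Submodule.span F {v, g v + v}, ?_, ?_, Or.inl ?_⟩
    · rw [Submodule.span_le]
      intro z hz
      rcases hz with rfl | hz
      · exact hv
      · rw [Set.mem_singleton_iff.mp hz]; exact hNX _ hv
    · rw [Submodule.map_span_le]
      intro z hz
      rcases hz with rfl | hz
      · have h3 : g z = (g z + z) + z := by rw [add_assoc, hvv, add_zero]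
        have h4 : (g z + z) + z ∈ Submodule.span F {z, g z + z} :=
          Submodule.add_mem _ (Submodule.subset_span (by simp)) (Submodule.subset_span (by simp))
        exact (congrArg (fun w : V => w ∈ Submodule.span F {z, g z + z}) h3).mpr h4
      · rw [Set.mem_singleton_iff.mp hz, hgN]; exact Submodule.subset_span (by simp)
    · rcases htyp with h | h
      · exact ⟨1, Or.inl rfl, h⟩
      · exact ⟨-1, Or.inr rfl, h⟩
  · push Not at hc1
    by_cases hc2 : ∃ u ∈ X, g u + u ≠ 0
    · obtain ⟨u, huX, hNu⟩ := hc2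
      have hex : ∃ v ∈ X, B (g u + u) v ≠ 0 := by
        by_contra hcon
        push Not at hcon
        have h3 := hXnd ⟨g u + u, hNX u huX⟩ (fun y => hcon y.1 y.2)
        exact hNu (congrArg Subtype.val h3)
      obtain ⟨v, hvX, hβ0⟩ := hex
      obtain ⟨β, hβv⟩ : ∃ β, B (g u + u) v = β := ⟨_, rfl⟩
      have hβ : β ≠ 0 := hβv ▸ hβ0
      have e_uNv : B u (g v + v) = β := by rw [← hNadj u v]; exact hβv
      have e_vNu : B v (g u + u) = β := by rw [sym_comm hB (g u + u) v]; exact hβv
      have e_uNu : B u (g u + u) = 0 := hc1 u huX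
      have e_vNv : B v (g v + v) = 0 := hc1 v hvX
      have e_Nuu : B (g u + u) u = 0 := by rw [sym_comm hB u (g u + u)]; exact e_uNu
      have e_Nvv : B (g v + v) v = 0 := by rw [sym_comm hB v (g v + v)]; exact e_vNv
      have e_Nvu : B (g v + v) u = β := by rw [sym_comm hB u (g v + v)]; exact e_uNv
      have key := K4b_key hB u v (g u + u) (g v + v) β hβ e_uNu e_vNu (hNN u u) (hNN v u)
        e_uNv e_vNv (hNN u v) (hNN v v) hβv e_Nvv (halt v) e_Nuu e_Nvu (halt u)
      let e : Fin 4 → V := ![u, v, g u + u, g v + v]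
      have hsum4 : ∀ c : Fin 4 → F, ∑ i, c i • e i
          = c 0 • u + c 1 • v + c 2 • (g u + u) + c 3 • (g v + v) := by
        intro c
        rw [Fin.sum_univ_four]
        rfl
      have hli : LinearIndependent F e := by
        rw [Fintype.linearIndependent_iff]
        intro c hc
        rw [hsum4] at hc
        obtain ⟨h0, h1, h2', h3⟩ := key (c 0) (c 1) (c 2) (c 3)
          (by rw [hc, hB.zero_left]) (by rw [hc, hB.zero_left]) (by rw [hc, hB.zero_left])
          (by rw [hc, hB.zero_left])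
        intro i
        fin_cases i
        · exact h0
        · exact h1
        · exact h2'
        · exact h3
      have hu_H : u ∈ Submodule.span F (Set.range e) := Submodule.subset_span ⟨0, rfl⟩
      have hv_H : v ∈ Submodule.span F (Set.range e) := Submodule.subset_span ⟨1, rfl⟩
      have hNu_H : g u + u ∈ Submodule.span F (Set.range e) := Submodule.subset_span ⟨2, rfl⟩
      have hNv_H : g v + v ∈ Submodule.span F (Set.range e) := Submodule.subset_span ⟨3, rfl⟩
      have hfr4 : finrank F (Submodule.span F (Set.range e) : Submodule F V) = 2 * 1 + 2 := by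
        rw [finrank_span_eq_card hli]; simp
      -- the totally singular plane
      have hliU : LinearIndependent F ![g u + u, g v + v] := by
        rw [LinearIndependent.pair_iff]
        intro s t hst
        have h0 : (0 : F) • u + (0 : F) • v + s • (g u + u) + t • (g v + v) = 0 := by
          rw [zero_smul, zero_smul, zero_add, zero_add]; exact hst
        obtain ⟨-, -, h2', h3⟩ := key 0 0 s t
          (by rw [h0, hB.zero_left]) (by rw [h0, hB.zero_left]) (by rw [h0, hB.zero_left])
          (by rw [h0, hB.zero_left])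
        exact ⟨h2', h3⟩
      have hfrU : finrank F (Submodule.span F {g u + u, g v + v} : Submodule F V) = 2 := by
        have h := finrank_span_eq_card hliU
        have hr : Set.range ![g u + u, g v + v] = {g u + u, g v + v} := by
          ext z
          simp only [Set.mem_range, Fin.exists_fin_two, Matrix.cons_val_zero,
            Matrix.cons_val_one, Set.mem_insert_iff, Set.mem_singleton_iff]
          constructor
          · rintro (h | h)
            · exact Or.inl h.symm
            · exact Or.inr h.symm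
          · rintro (h | h)
            · exact Or.inl h.symm
            · exact Or.inr h.symm
        rw [hr] at h
        rw [h]; simp
      have hH : HypM Q (2 * 1 + 2) (Submodule.span F (Set.range e)) := by
        refine ⟨hfr4, ?_, Submodule.span F {g u + u, g v + v}, ?_, ?_, ?_⟩
        · intro x hx hx0
          by_contra hcon
          push Not at hcon
          obtain ⟨c, hc⟩ := (Submodule.mem_span_range_iff_exists_fun F).mp hx
          rw [hsum4] at hc
          have hz : ∀ y ∈ Submodule.span F (Set.range e),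
              B (c 0 • u + c 1 • v + c 2 • (g u + u) + c 3 • (g v + v)) y = 0 := by
            intro y hy
            rw [hc, ← hpol]; exact hcon y hy
          obtain ⟨h0, h1, h2', h3⟩ := key (c 0) (c 1) (c 2) (c 3) (hz _ hNu_H) (hz _ hNv_H)
            (hz _ hv_H) (hz _ hu_H)
          apply hx0
          rw [← hc, h0, h1, h2', h3]; simp
        · rw [Submodule.span_le]
          intro z hz
          rcases hz with rfl | hz
          · exact hNu_H
          · rw [Set.mem_singleton_iff.mp hz]; exact hNv_H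
        · rw [hfrU]
        · intro x hx
          obtain ⟨s, t, hst⟩ := Submodule.mem_span_pair.mp hx
          rw [← hst, hQ.polar, hQ.smul, hQ.smul, hQN, hQN, e_uNu, e_vNv, hB.smul_left,
            sym_smul_right hB, hNN]
          ring
      refine ⟨Submodule.span F (Set.range e), ?_, ?_, Or.inr (hhyp _ hH)⟩
      · rw [Submodule.span_le]
        rintro _ ⟨i, rfl⟩
        fin_cases i
        · exact huX
        · exact hvX
        · exact hNX u huX
        · exact hNX v hvX
      · rw [Submodule.map_span_le]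
        rintro _ ⟨i, rfl⟩
        fin_cases i
        · show g u ∈ Submodule.span F (Set.range e)
          have h3 : g u = (g u + u) + u := by rw [add_assoc, hvv, add_zero]
          rw [h3]; exact Submodule.add_mem _ hNu_H hu_H
        · show g v ∈ Submodule.span F (Set.range e)
          have h3 : g v = (g v + v) + v := by rw [add_assoc, hvv, add_zero]
          rw [h3]; exact Submodule.add_mem _ hNv_H hv_H
        · show g (g u + u) ∈ Submodule.span F (Set.range e)
          rw [hgN]; exact hNu_H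
        · show g (g v + v) ∈ Submodule.span F (Set.range e)
          rw [hgN]; exact hNv_H
    · push Not at hc2
      have hfix : ∀ u ∈ X, g u = u := fun u hu =>
        add_right_cancel ((hc2 u hu).trans (hvv u).symm)
      obtain ⟨a, haX, ha0⟩ := (Submodule.ne_bot_iff X).mp hX0
      have hex : ∃ b ∈ X, B a b ≠ 0 := by
        by_contra hcon
        push Not at hcon
        have h3 := hXnd ⟨a, haX⟩ (fun y => hcon y.1 y.2)
        exact ha0 (congrArg Subtype.val h3)
      obtain ⟨b, hbX, hab⟩ := hex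
      have htyp := K4b_plane hf hQ halt a b hab
      refine ⟨Submodule.span F {a, b}, ?_, ?_, Or.inl ?_⟩
      · rw [Submodule.span_le]
        intro z hz
        rcases hz with rfl | hz
        · exact haX
        · rw [Set.mem_singleton_iff.mp hz]; exact hbX
      · rw [Submodule.map_span_le]
        intro z hz
        rcases hz with rfl | hz
        · rw [hfix _ haX]; exact Submodule.subset_span (by simp)
        · rw [Set.mem_singleton_iff.mp hz, hfix _ hbX]; exact Submodule.subset_span (by simp)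
      · rcases htyp with h | h
        · exact ⟨1, Or.inl rfl, h⟩
        · exact ⟨-1, Or.inr rfl, h⟩

/-- K4, with the sibling pieces HYPTYP, SUM, COMPL as hypotheses -/
theorem k4_of (hf : QFacts F) [CharP F 2] (hQ : IsQuad Q B) (hnd : Nondeg B) (n : ℕ) (hn : 1 ≤ n)
    (hdim : finrank F V = 2 * n + 2) (htyp : IsTyp Q n 1) (g : Module.End F V) (hgQ : QI Q g)
    (hg : g * g = 1)
    (hhyp : ∀ W : Submodule F V, HypM Q (2 * 1 + 2) W → SubTyp Q B W 1 1)
    (hsum : ∀ (X Y : Submodule F V), (∀ x ∈ X, ∀ y ∈ Y, B x y = 0) → ∀ (ε₁ ε₂ : ℤ),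
      SubTyp Q B X 0 ε₁ → SubTyp Q B Y 0 ε₂ → SubTyp Q B (X ⊔ Y) (0 + 0 + 1) (ε₁ * ε₂))
    (hcompl : ∀ (X : Submodule F V) (k : ℕ) (τ : ℤ), SubTyp Q B X k τ → k + 2 ≤ n + 1 →
      ∃ Y : Submodule F V, (∀ x ∈ X, ∀ y ∈ Y, B x y = 0) ∧ X ⊔ Y = ⊤ ∧ X ⊓ Y = ⊥ ∧
        SubTyp Q B Y (n + 1 - k - 2) (1 * τ) ∧
        ∀ g : Module.End F V, QI Q g → X.map g ≤ X → Y.map g ≤ Y) :
    ∃ H : Submodule F V, H.map g ≤ H ∧ SubTyp Q B H 1 1 := by
  classical
  have hndtop : Nondeg (resForm B (⊤ : Submodule F V)) := by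
    intro x hx
    have h3 := hnd x.1 (fun y => hx ⟨y, Submodule.mem_top⟩)
    exact Subtype.ext h3
  by_cases hn1 : n = 1
  · subst hn1
    refine ⟨⊤, le_top, ?_⟩
    unfold SubTyp
    refine ⟨hndtop, ?_, ?_⟩
    · rw [finrank_top, hdim]
    · exact IsTyp.of_equiv (Submodule.topEquiv (R := F) (M := V)).symm.toEquiv
        (fun v => rfl) htyp
  · have hn2 : 2 ≤ n := by omega
    -- pairs of orthogonal invariant planes of the same type
    have pair : ∀ (X Y : Submodule F V), (∀ x ∈ X, ∀ y ∈ Y, B x y = 0) → X.map g ≤ X →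
        Y.map g ≤ Y → ∀ ε : ℤ, (ε = 1 ∨ ε = -1) → SubTyp Q B X 0 ε → SubTyp Q B Y 0 ε →
        ∃ H : Submodule F V, H.map g ≤ H ∧ SubTyp Q B H 1 1 := by
      intro X Y hXY hXg hYg ε hε hX hY
      have h3 := hsum X Y hXY ε ε hX hY
      have h4 : ε * ε = 1 := by rcases hε with rfl | rfl <;> norm_num
      rw [h4] at h3
      refine ⟨X ⊔ Y, ?_, h3⟩
      rw [Submodule.map_sup]
      exact sup_le_sup hXg hYg
    have hne : ∀ (Y : Submodule F V) (k : ℕ), finrank F Y = 2 * k + 2 → Y ≠ ⊥ := by
      intro Y k hk hbot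
      rw [hbot, finrank_bot] at hk
      omega
    -- step 1
    obtain ⟨P1, -, hP1g, hP1⟩ := K4b_peel hf hQ g hgQ hg hhyp ⊤ le_top hndtop
      (hne ⊤ n (by rw [finrank_top, hdim]))
    rcases hP1 with ⟨ε₁, hε₁, hP1t⟩ | hP1
    swap
    · exact ⟨P1, hP1g, hP1⟩
    -- step 2
    obtain ⟨Y1, horth1, -, -, hY1, hinv1⟩ := hcompl P1 0 ε₁ hP1t (by omega)
    have hY1g : Y1.map g ≤ Y1 := hinv1 g hgQ hP1g
    obtain ⟨P2, hP2Y, hP2g, hP2⟩ := K4b_peel hf hQ g hgQ hg hhyp Y1 hY1g hY1.1
      (hne Y1 _ hY1.2.1)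
    rcases hP2 with ⟨ε₂, hε₂, hP2t⟩ | hP2
    swap
    · exact ⟨P2, hP2g, hP2⟩
    have horth12 : ∀ x ∈ P1, ∀ y ∈ P2, B x y = 0 := fun x hx y hy => horth1 x hx y (hP2Y hy)
    -- step 3
    have hS := hsum P1 P2 horth12 ε₁ ε₂ hP1t hP2t
    have hSg : (P1 ⊔ P2).map g ≤ P1 ⊔ P2 := by
      rw [Submodule.map_sup]
      exact sup_le_sup hP1g hP2g
    obtain ⟨Y2, horth2, -, -, hY2, hinv2⟩ := hcompl (P1 ⊔ P2) (0 + 0 + 1) (ε₁ * ε₂) hS (by omega)
    have hY2g : Y2.map g ≤ Y2 := hinv2 g hgQ hSg
    obtain ⟨P3, hP3Y, hP3g, hP3⟩ := K4b_peel hf hQ g hgQ hg hhyp Y2 hY2g hY2.1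
      (hne Y2 _ hY2.2.1)
    rcases hP3 with ⟨ε₃, hε₃, hP3t⟩ | hP3
    swap
    · exact ⟨P3, hP3g, hP3⟩
    have horth13 : ∀ x ∈ P1, ∀ y ∈ P3, B x y = 0 := fun x hx y hy =>
      horth2 x (Submodule.mem_sup_left hx) y (hP3Y hy)
    have horth23 : ∀ x ∈ P2, ∀ y ∈ P3, B x y = 0 := fun x hx y hy =>
      horth2 x (Submodule.mem_sup_right hx) y (hP3Y hy)
    by_cases h12 : ε₁ = ε₂
    · subst h12
      exact pair P1 P2 horth12 hP1g hP2g ε₁ hε₁ hP1t hP2t
    · by_cases h13 : ε₁ = ε₃
      · subst h13
        exact pair P1 P3 horth13 hP1g hP3g ε₁ hε₁ hP1t hP3t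
      · have h23 : ε₂ = ε₃ := by omega
        subst h23
        exact pair P2 P3 horth23 hP2g hP3g ε₂ hε₂ hP2t hP3t

end Cfsg.Agent.Lib.Helper98.H74
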