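import Mathlib
import Cfsg.Agent.Lib.Helper47.SemiConjMat
import Cfsg.Agent.Lib.Helper47.SemiCount
import Cfsg.Agent.Lib.Helper47.PrimeOrd

/-!
# Matrices with `M ^ r = 1` over a field containing the `r`-th roots of unity

For a primitive `r`-th root of unity `ζ` (`r` prime) the eigenvalue multiplicity function
`multF ζ r M : ZMod r → ℕ`, its behaviour under scaling by `ζ ^ k`, the fact that it determines
the characteristic polynomial, realisation by diagonal matrices, and the description of matrices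
with `M ^ r = λ`, `λ` not an `r`-th power.
-/

set_option autoImplicit false

namespace Cfsg.Agent.Lib.Helper47

open Polynomial Matrix

section Smul

variable {F : Type*} [Field F]

/-- Characteristic polynomial of a scalar multiple. -/
lemma charpoly_smul' {n : ℕ} (u : F) (hu : u ≠ 0) (M : Matrix (Fin n) (Fin n) F) :
    (u • M).charpoly = C (u ^ n) * M.charpoly.comp (C u⁻¹ * X) := by
  unfold Matrix.charpoly
  have h1 : (compRingHom (C u⁻¹ * X : F[X])).mapMatrix (charmatrix M)
      = (C u⁻¹ * X : F[X]) • (1 : Matrix (Fin n) (Fin n) F[X]) - M.map C := by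
    apply Matrix.ext
    intro i j
    by_cases hij : i = j
    · subst hij
      simp
    · simp [hij]
  have h2 : charmatrix (u • M) = (C u : F[X]) • ((C u⁻¹ * X : F[X]) • (1 : Matrix (Fin n) (Fin n) F[X])
      - M.map C) := by
    apply Matrix.ext
    intro i j
    by_cases hij : i = j
    · subst hij
      simp only [charmatrix_apply, Matrix.sub_apply, Matrix.smul_apply, Matrix.one_apply,
        smul_eq_mul, Matrix.diagonal_apply, Matrix.map_apply, if_true, mul_one, C_mul]
      rw [mul_sub, ← mul_assoc, ← C_mul, ← C_mul, mul_inv_cancel₀ hu, C_1, one_mul]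
    · simp [hij]
  rw [h2, Matrix.det_smul, ← h1, ← RingHom.map_det, Fintype.card_fin, C_pow]
  rfl

end Smul

section Roots

variable {F : Type*} [Field F]

lemma pow_val_add {r : ℕ} [NeZero r] {ζ : F} (hζ : IsPrimitiveRoot ζ r) (j k : ZMod r) :
    ζ ^ (j + k).val = ζ ^ j.val * ζ ^ k.val := by
  rw [ZMod.val_add, ← pow_add]
  conv_rhs => rw [← Nat.mod_add_div (j.val + k.val) r]
  rw [pow_add, pow_mul, hζ.pow_eq_one, one_pow, mul_one]

lemma pow_val_injective {r : ℕ} [NeZero r] {ζ : F} (hζ : IsPrimitiveRoot ζ r) :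
    Function.Injective (fun j : ZMod r => ζ ^ j.val) := by
  intro j k h
  exact ZMod.val_injective r (hζ.pow_inj (ZMod.val_lt j) (ZMod.val_lt k) h)

lemma exists_pow_val {r : ℕ} [NeZero r] {ζ : F} (hζ : IsPrimitiveRoot ζ r) {ω : F}
    (hω : ω ^ r = 1) : ∃ j : ZMod r, ω = ζ ^ j.val := by
  obtain ⟨i, hi, rfl⟩ := hζ.eq_pow_of_pow_eq_one hω
  exact ⟨(i : ZMod r), by rw [ZMod.val_natCast, Nat.mod_eq_of_lt hi]⟩

/-- The eigenvalue multiplicity function with respect to a primitive root `ζ`. -/
noncomputable def multF (ζ : F) (r : ℕ) {n : ℕ} (M : Matrix (Fin n) (Fin n) F) : ZMod r → ℕ :=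
  fun j => M.charpoly.rootMultiplicity (ζ ^ j.val)

lemma roots_charpoly_smul {n : ℕ} (u : F) (hu : u ≠ 0) (M : Matrix (Fin n) (Fin n) F)
    (hsp : M.charpoly.Splits) :
    (u • M).charpoly.roots = M.charpoly.roots.map (fun x => u * x) := by
  have hn : Multiset.card M.charpoly.roots = n := by
    rw [← hsp.natDegree_eq_card_roots, Matrix.charpoly_natDegree_eq_dim, Fintype.card_fin]
  have h1 : (u • M).charpoly
      = ((M.charpoly.roots.map (fun x => u * x)).map (fun a => X - C a)).prod := by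
    rw [charpoly_smul' u hu M]
    conv_lhs => rw [hsp.eq_prod_roots_of_monic (Matrix.charpoly_monic M)]
    rw [multiset_prod_comp, Multiset.map_map, Multiset.map_map]
    have h2 : ∀ ω : F, ((fun a => X - C a) ∘ fun x => u * x) ω
        = C u * ((fun (p : F[X]) => p.comp (C u⁻¹ * X)) ∘ fun a => X - C a) ω := by
      intro ω
      simp only [Function.comp_apply, sub_comp, X_comp, C_comp]
      rw [mul_sub, ← mul_assoc, ← C_mul, mul_inv_cancel₀ hu, C_1, one_mul, C_mul]
    rw [Multiset.map_congr rfl (fun ω _ => h2 ω), Multiset.prod_map_mul, Multiset.map_const',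
      Multiset.prod_replicate, hn, C_pow]
  rw [h1, roots_multiset_prod_X_sub_C]

end Roots

section RootsFin

variable {F : Type*} [Field F] [Fintype F] {p q r : ℕ} [Fact p.Prime] [CharP F p]

/-- For `r ∣ q - 1` a cyclotomic factor is linear. -/
lemma IsCycFactor.eq_X_sub_C (hF : Fintype.card F = q) (hr : r.Prime) (hrp : r ≠ p)
    (hrq : r ∣ q - 1) {f : F[X]} (hf : IsCycFactor r f) : ∃ ω : F, f = X - C ω ∧ ω ^ r = 1 := by
  have hdeg : f.natDegree = 1 := by
    rw [hf.natDegree_eq hF hr hrp, orderOf_eq_one_iff]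
    have hq1 : 1 ≤ q := by
      rw [← hF]
      exact Fintype.card_pos
    have h1 : ((q - 1 : ℕ) : ZMod r) = 0 := (ZMod.natCast_eq_zero_iff _ _).mpr hrq
    rw [Nat.cast_sub hq1, Nat.cast_one, sub_eq_zero] at h1
    exact h1
  have h1 := hf.1.eq_X_add_C hdeg
  refine ⟨-f.coeff 0, by rw [C_neg, sub_neg_eq_add]; exact h1, ?_⟩
  obtain ⟨g, hg⟩ := hf.dvd_X_pow_sub_one
  have h3 : (X ^ r - 1 : F[X]).eval (-f.coeff 0) = 0 := by
    rw [hg, eval_mul]
    have h4 : f.eval (-f.coeff 0) = 0 := by
      rw [h1]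
      simp
    rw [h4, zero_mul]
  simpa [sub_eq_zero] using h3

/-- Structure of the characteristic polynomial when `M ^ r = 1`, `r ∣ q - 1`. -/
lemma charpoly_splits_of_pow_eq_one (hF : Fintype.card F = q) (hr : r.Prime) (hrp : r ≠ p)
    (hrq : r ∣ q - 1) {n : ℕ} (M : Matrix (Fin n) (Fin n) F) (hM : M ^ r = 1) :
    M.charpoly.Splits ∧ ∀ ω ∈ M.charpoly.roots, ω ^ r = 1 := by
  obtain ⟨c, s, hs, hchar⟩ := charpoly_factors_of_pow_eq_one p hr hrp M hM
  have hs' : ∀ f ∈ s, ∃ ω : F, f = X - C ω ∧ ω ^ r = 1 :=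
    fun f hf => (hs f hf).eq_X_sub_C hF hr hrp hrq
  constructor
  · rw [hchar]
    apply Splits.mul
    · have h1 := (Splits.X_sub_C (1 : F)).pow c
      rwa [C_1] at h1
    · apply Splits.multisetProd
      intro f hf
      obtain ⟨ω, rfl, -⟩ := hs' f hf
      exact Splits.X_sub_C ω
  · intro ω hω
    rw [mem_roots (Matrix.charpoly_monic M).ne_zero, IsRoot.def, hchar, eval_mul, eval_pow,
      mul_eq_zero] at hω
    rcases hω with h | h
    · have h1 : eval ω (X - 1 : F[X]) = 0 := pow_eq_zero_iff (M₀ := F) (by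
        rintro rfl
        simp at h) |>.mp h
      have h2 : ω = 1 := by
        rw [eval_sub, eval_X, eval_one] at h1
        exact sub_eq_zero.mp h1
      rw [h2, one_pow]
    · rw [eval_multiset_prod, Multiset.prod_eq_zero_iff] at h
      obtain ⟨v, hv, hv0⟩ := Multiset.mem_map.mp h
      obtain ⟨ω', rfl, hω'⟩ := hs' v hv
      rw [eval_sub, eval_X, eval_C] at hv0
      rw [sub_eq_zero.mp hv0]
      exact hω'

variable [NeZero r] (hF : Fintype.card F = q) (hr : r.Prime) (hrp : r ≠ p) (hrq : r ∣ q - 1)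
  {ζ : F} (hζ : IsPrimitiveRoot ζ r)

include hF hr hrp hrq hζ

lemma sum_multF {n : ℕ} (M : Matrix (Fin n) (Fin n) F) (hM : M ^ r = 1) :
    ∑ j, multF ζ r M j = n := by
  classical
  obtain ⟨hsp, hroots⟩ := charpoly_splits_of_pow_eq_one hF hr hrp hrq M hM
  have hcard : Multiset.card M.charpoly.roots = n := by
    rw [← hsp.natDegree_eq_card_roots, Matrix.charpoly_natDegree_eq_dim, Fintype.card_fin]
  refine Eq.trans ?_ hcard
  rw [← Multiset.toFinset_sum_count_eq]
  simp only [multF, ← count_roots]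
  rw [← Finset.sum_image (f := fun ω => M.charpoly.roots.count ω)
    (g := fun j : ZMod r => ζ ^ j.val) (fun a _ b _ h => pow_val_injective hζ h)]
  symm
  apply Finset.sum_subset
  · intro ω hω
    rw [Multiset.mem_toFinset] at hω
    obtain ⟨j, rfl⟩ := exists_pow_val hζ (hroots ω hω)
    exact Finset.mem_image.mpr ⟨j, Finset.mem_univ _, rfl⟩
  · intro ω _ hω
    rw [Multiset.mem_toFinset] at hω
    exact Multiset.count_eq_zero.mpr hω

lemma charpoly_eq_of_multF_eq {n : ℕ} (M N : Matrix (Fin n) (Fin n) F) (hM : M ^ r = 1)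
    (hN : N ^ r = 1) (h : multF ζ r M = multF ζ r N) : M.charpoly = N.charpoly := by
  classical
  obtain ⟨hspM, hrM⟩ := charpoly_splits_of_pow_eq_one hF hr hrp hrq M hM
  obtain ⟨hspN, hrN⟩ := charpoly_splits_of_pow_eq_one hF hr hrp hrq N hN
  have hroots : M.charpoly.roots = N.charpoly.roots := by
    ext ω
    by_cases hω : ω ^ r = 1
    · obtain ⟨j, rfl⟩ := exists_pow_val hζ hω
      have h1 := congrFun h j
      simp only [multF, ← count_roots] at h1
      exact h1
    · rw [Multiset.count_eq_zero.mpr (fun hmem => hω (hrM ω hmem)),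
        Multiset.count_eq_zero.mpr (fun hmem => hω (hrN ω hmem))]
  rw [hspM.eq_prod_roots_of_monic (Matrix.charpoly_monic M),
    hspN.eq_prod_roots_of_monic (Matrix.charpoly_monic N), hroots]

lemma multF_smul {n : ℕ} (k : ZMod r) (M : Matrix (Fin n) (Fin n) F) (hM : M ^ r = 1)
    (j : ZMod r) : multF ζ r ((ζ ^ k.val) • M) j = multF ζ r M (j - k) := by
  classical
  have hsp := (charpoly_splits_of_pow_eq_one hF hr hrp hrq M hM).1
  have hu : ζ ^ k.val ≠ 0 := pow_ne_zero _ (hζ.ne_zero hr.ne_zero)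
  simp only [multF, ← count_roots]
  rw [roots_charpoly_smul _ hu M hsp]
  have h1 : ζ ^ j.val = ζ ^ k.val * ζ ^ (j - k).val := by
    rw [← pow_val_add hζ, add_sub_cancel]
  rw [h1, Multiset.count_map_eq_count' (fun x => ζ ^ k.val * x) _ (mul_right_injective₀ hu)]

lemma exists_matrix_multF {n : ℕ} (a : ZMod r → ℕ) (ha : ∑ j, a j = n) :
    ∃ M : Matrix (Fin n) (Fin n) F, M ^ r = 1 ∧ multF ζ r M = a := by
  classical
  have hcard : Fintype.card (Σ j : ZMod r, Fin (a j)) = Fintype.card (Fin n) := by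
    rw [Fintype.card_sigma, Fintype.card_fin]
    simp only [Fintype.card_fin]
    exact ha
  obtain ⟨ε⟩ : Nonempty (Fin n ≃ Σ j : ZMod r, Fin (a j)) :=
    ⟨Fintype.equivOfCardEq hcard.symm⟩
  obtain ⟨d, hd⟩ : ∃ d : Fin n → F, d = fun i => ζ ^ (ε i).1.val := ⟨_, rfl⟩
  refine ⟨Matrix.diagonal d, ?_, ?_⟩
  · rw [Matrix.diagonal_pow, ← Matrix.diagonal_one]
    congr 1
    funext i
    subst hd
    simp only [Pi.pow_apply, Pi.one_apply]
    rw [← pow_mul, mul_comm, pow_mul, hζ.pow_eq_one, one_pow]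
  · funext j
    simp only [multF]
    rw [Matrix.charpoly_diagonal, ← count_roots]
    have h1 : ∏ i, (X - C (d i)) = ((Finset.univ.val.map d).map (fun a => X - C a)).prod := by
      rw [Multiset.map_map]
      rfl
    rw [h1, roots_multiset_prod_X_sub_C, Multiset.count_map]
    have h2 : (Finset.univ.val.filter (fun i => ζ ^ j.val = d i))
        = (Finset.univ.filter (fun i : Fin n => (ε i).1 = j)).val := by
      rw [Finset.filter_val]
      apply Multiset.filter_congr
      intro i _
      subst hd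
      constructor
      · intro h
        exact (pow_val_injective hζ h).symm
      · intro h
        simp only [h]
    rw [h2, ← Finset.card_def, ← Fintype.card_subtype]
    have h3 : Fintype.card {i : Fin n // (ε i).1 = j}
        = Fintype.card {x : Σ j : ZMod r, Fin (a j) // x.1 = j} :=
      Fintype.card_congr (ε.subtypeEquiv (fun i => Iff.rfl))
    rw [h3]
    have h4 : Function.Bijective
        (fun b : Fin (a j) => (⟨⟨j, b⟩, rfl⟩ : {x : Σ j : ZMod r, Fin (a j) // x.1 = j})) := by
      constructor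
      · intro b b' h
        have h5 := congrArg Subtype.val h
        simp only [Sigma.mk.injEq, heq_eq_eq, true_and] at h5
        exact h5
      · rintro ⟨⟨j', b⟩, rfl⟩
        exact ⟨b, rfl⟩
    rw [← Fintype.card_of_bijective h4, Fintype.card_fin]

lemma multF_scalar (n : ℕ) (j : ZMod r) :
    multF ζ r ((ζ ^ j.val) • (1 : Matrix (Fin n) (Fin n) F)) j = n := by
  simp only [multF]
  rw [Matrix.smul_one_eq_diagonal, Matrix.charpoly_diagonal, Finset.prod_const, Finset.card_univ,
    Fintype.card_fin, rootMultiplicity_X_sub_C_pow]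

lemma eq_scalar_of_multF {n : ℕ} (M : Matrix (Fin n) (Fin n) F) (hM : M ^ r = 1) (j : ZMod r)
    (h : n ≤ multF ζ r M j) : M = (ζ ^ j.val) • (1 : Matrix (Fin n) (Fin n) F) := by
  classical
  have hu : ζ ^ (-j).val ≠ 0 := pow_ne_zero _ (hζ.ne_zero hr.ne_zero)
  obtain ⟨N, hN⟩ : ∃ N : Matrix (Fin n) (Fin n) F, N = (ζ ^ (-j).val) • M := ⟨_, rfl⟩
  have hNr : N ^ r = 1 := by
    rw [hN, _root_.smul_pow, hM, ← pow_mul, mul_comm, pow_mul, hζ.pow_eq_one, one_pow, one_smul]
  have h0 : multF ζ r N 0 = multF ζ r M j := by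
    rw [hN, multF_smul hF hr hrp hrq hζ (-j) M hM 0, zero_sub, neg_neg]
  obtain ⟨hsp, hroots⟩ := charpoly_splits_of_pow_eq_one hF hr hrp hrq N hNr
  have hcard : Multiset.card N.charpoly.roots = n := by
    rw [← hsp.natDegree_eq_card_roots, Matrix.charpoly_natDegree_eq_dim, Fintype.card_fin]
  have hcount : N.charpoly.roots.count 1 = Multiset.card N.charpoly.roots := by
    apply le_antisymm (Multiset.count_le_card _ _)
    rw [hcard]
    have h1 : multF ζ r N 0 = N.charpoly.roots.count 1 := by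
      simp only [multF, ← count_roots]
      rw [ZMod.val_zero, pow_zero]
    rw [← h1, h0]
    exact h
  have hrep : N.charpoly.roots = Multiset.replicate n 1 := by
    rw [Multiset.eq_replicate]
    exact ⟨hcard, fun b hb => (Multiset.count_eq_card.mp hcount b hb).symm⟩
  have hchar : N.charpoly = (X - 1) ^ n := by
    rw [hsp.eq_prod_roots_of_monic (Matrix.charpoly_monic N), hrep, Multiset.map_replicate,
      Multiset.prod_replicate, C_1]
  have hN1 : N = 1 := eq_one_of_charpoly_eq p hr hrp N hNr n hchar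
  have hinv : ζ ^ j.val * ζ ^ (-j).val = 1 := by
    rw [← pow_val_add hζ, add_neg_cancel, ZMod.val_zero, pow_zero]
  calc M = (ζ ^ j.val * ζ ^ (-j).val) • M := by rw [hinv, one_smul]
    _ = (ζ ^ j.val) • N := by rw [hN, smul_smul]
    _ = (ζ ^ j.val) • (1 : Matrix (Fin n) (Fin n) F) := by rw [hN1]

end RootsFin

end Cfsg.Agent.Lib.Helper47
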