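import Mathlib
import Cfsg.Agent.Lib.Helper47.RootsDiag

/-!
# Tools for counting classes of prime order in projective groups

* `card_classes_rel`: counting conjugacy classes through a relation with an index type;
* `quot_orderOf_eq_prime_iff`, `quot_isConj_iff`: order and conjugacy in a quotient group;
* `exists_gen_root`: a generator of the multiplicative group of a finite field and the induced
  primitive `r`-th root of unity;
* `charpoly_of_pow_eq_scalar`, `exists_matrix_pow_eq_scalar`: matrices whose `r`-th power is a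
  scalar which is not an `r`-th power.
-/

set_option autoImplicit false

namespace Cfsg.Agent.Lib.Helper47

open Polynomial Matrix UniqueFactorizationMonoid

section Generic

theorem card_classes_rel {G : Type*} [Group G] {T : Type*} (P : G → Prop) (R : T → G → Prop)
    (h1 : ∀ t, ∃ g, R t g) (h2 : ∀ t g, R t g → P g) (h3 : ∀ g, P g → ∃ t, R t g)
    (h4 : ∀ t t' g g', R t g → R t' g' → (IsConj g g' ↔ t = t')) :
    Nat.card {c : ConjClasses G // ∃ g : G, ConjClasses.mk g = c ∧ P g} = Nat.card T := by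
  symm
  apply Nat.card_congr
  refine Equiv.ofBijective
    (fun t => ⟨ConjClasses.mk (h1 t).choose, (h1 t).choose, rfl, h2 _ _ (h1 t).choose_spec⟩)
    ⟨?_, ?_⟩
  · intro t t' h
    have h5 := congrArg Subtype.val h
    simp only at h5
    rw [ConjClasses.mk_eq_mk_iff_isConj] at h5
    exact (h4 t t' _ _ (h1 t).choose_spec (h1 t').choose_spec).mp h5
  · rintro ⟨c, g, rfl, hg⟩
    obtain ⟨t, ht⟩ := h3 g hg
    refine ⟨t, ?_⟩
    apply Subtype.ext
    simp only
    rw [ConjClasses.mk_eq_mk_iff_isConj]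
    exact (h4 t t _ _ (h1 t).choose_spec ht).mpr rfl

lemma quot_orderOf_eq_prime_iff {G : Type*} [Group G] (Z : Subgroup G) [Z.Normal] {r : ℕ}
    (hr : r.Prime) (g : G) :
    orderOf (g : G ⧸ Z) = r ↔ g ^ r ∈ Z ∧ g ∉ Z := by
  have : Fact r.Prime := ⟨hr⟩
  rw [orderOf_eq_prime_iff, ← QuotientGroup.mk_pow, QuotientGroup.eq_one_iff, Ne,
    QuotientGroup.eq_one_iff]

lemma quot_isConj_iff {G : Type*} [Group G] (Z : Subgroup G) [Z.Normal] (g h : G) :
    IsConj (g : G ⧸ Z) (h : G ⧸ Z) ↔ ∃ z ∈ Z, IsConj g (z * h) := by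
  constructor
  · intro hc
    obtain ⟨c, hc⟩ := isConj_iff.mp hc
    obtain ⟨c, rfl⟩ := QuotientGroup.mk_surjective c
    refine ⟨c * g * c⁻¹ * h⁻¹, ?_, ?_⟩
    · rw [← QuotientGroup.eq_one_iff, QuotientGroup.mk_mul, QuotientGroup.mk_mul,
        QuotientGroup.mk_mul, QuotientGroup.mk_inv, QuotientGroup.mk_inv, hc, mul_inv_cancel]
    · rw [isConj_iff]
      exact ⟨c, by group⟩
  · rintro ⟨z, hz, hc⟩
    obtain ⟨c, hc⟩ := isConj_iff.mp hc
    rw [isConj_iff]
    refine ⟨(c : G ⧸ Z), ?_⟩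
    rw [← QuotientGroup.mk_inv, ← QuotientGroup.mk_mul, ← QuotientGroup.mk_mul, hc,
      QuotientGroup.mk_mul, (QuotientGroup.eq_one_iff z).mpr hz, one_mul]

end Generic

section Gen

variable {F : Type*} [Field F] [Fintype F] {q r : ℕ}

lemma exists_gen_root (hF : Fintype.card F = q) (hrq : r ∣ q - 1) :
    ∃ (γ : F) (m : ℕ), γ ≠ 0 ∧ (∀ x : F, x ≠ 0 → ∃ a : ℕ, x = γ ^ a) ∧ q - 1 = r * m ∧
      γ ^ (q - 1) = 1 ∧ IsPrimitiveRoot (γ ^ m) r := by
  classical
  obtain ⟨g, hg⟩ := IsCyclic.exists_generator (α := Fˣ)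
  have hord : orderOf g = q - 1 := by
    rw [orderOf_eq_card_of_forall_mem_zpowers hg, Nat.card_eq_fintype_card, Fintype.card_units, hF]
  obtain ⟨m, hm⟩ := hrq
  have hq1 : 0 < q - 1 := by
    rw [← hord]
    exact orderOf_pos g
  have hm0 : m ≠ 0 := by
    rintro rfl
    rw [mul_zero] at hm
    omega
  refine ⟨(g : F), m, g.ne_zero, ?_, hm, ?_, ?_⟩
  · intro x hx
    obtain ⟨a, ha⟩ := (mem_powers_iff_mem_zpowers).mpr (hg (Units.mk0 x hx))
    refine ⟨a, ?_⟩
    have := congrArg Units.val ha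
    simpa using this.symm
  · rw [← Units.val_pow_eq_pow_val, ← hord, pow_orderOf_eq_one, Units.val_one]
  · have h1 : orderOf ((g : F) ^ m) = r := by
      rw [← Units.val_pow_eq_pow_val, orderOf_units,
        orderOf_pow_of_dvd hm0 (by rw [hord, hm]; exact dvd_mul_left m r), hord, hm,
        Nat.mul_div_cancel _ (Nat.pos_of_ne_zero hm0)]
    rw [← h1]
    exact IsPrimitiveRoot.orderOf _

end Gen

section TypeB

variable {F : Type*} [Field F]

theorem charpoly_of_pow_eq_scalar (p : ℕ) [Fact p.Prime] [CharP F p] {r n : ℕ}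
    (hr : r.Prime) (hrp : r ≠ p) (M : Matrix (Fin n) (Fin n) F) (c : F) (hc0 : c ≠ 0)
    (hc : ∀ b : F, b ^ r ≠ c) (hM : M ^ r = c • (1 : Matrix (Fin n) (Fin n) F)) :
    ∃ k : ℕ, M.charpoly = (X ^ r - C c) ^ k ∧ n = r * k := by
  classical
  have hχ0 : M.charpoly ≠ 0 := (Matrix.charpoly_monic M).ne_zero
  have hrF : (r : F) ≠ 0 :=
    natCast_ne_zero_of_coprime p ((Nat.coprime_primes hr Fact.out).mpr hrp)
  have hirr : Irreducible (X ^ r - C c : F[X]) :=
    (X_pow_sub_C_irreducible_iff_of_prime hr).mpr hc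
  have hmon : (X ^ r - C c : F[X]).Monic := monic_X_pow_sub_C c hr.ne_zero
  have haev : aeval (Matrix.toLin' M) (X ^ r - C c : F[X]) = 0 := by
    rw [map_sub, map_pow, aeval_X, aeval_C, ← Matrix.toLin'_pow, hM]
    apply LinearMap.ext
    intro v
    simp [Algebra.algebraMap_eq_smul_one]
  have hs : Module.End.IsSemisimple (Matrix.toLin' M) := by
    have hsep : (X ^ r - C c : F[X]).Separable := separable_X_pow_sub_C c hrF hc0
    exact Module.End.isSemisimple_of_squarefree_aeval_eq_zero hsep.squarefree haev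
  obtain ⟨m, hm⟩ : ∃ m, m = normalizedFactors M.charpoly := ⟨_, rfl⟩
  have hall : ∀ f ∈ m, f = X ^ r - C c := by
    intro f hf
    rw [hm] at hf
    have hfirr : Irreducible f := irreducible_of_normalized_factor f hf
    have hfmonic : f.Monic := by
      have h1 := normalize_normalized_factor f hf
      rw [← h1]
      exact monic_normalize hfirr.ne_zero
    have hfdvd : f ∣ M.charpoly := dvd_of_mem_normalizedFactors hf
    obtain ⟨w, hw, hfw⟩ := exists_ker_of_dvd_charpoly n (Fin n → F) (Matrix.toLin' M)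
      (by simp) hs f hfmonic hfirr (by rw [Matrix.charpoly_toLin']; exact hfdvd)
    have hdvd : f ∣ X ^ r - C c := by
      by_contra hnd
      have hcop : IsCoprime f (X ^ r - C c) := (hfirr.coprime_iff_not_dvd).mpr hnd
      obtain ⟨a, b, hab⟩ := hcop
      have h2 := congrArg (fun P => aeval (Matrix.toLin' M) P w) hab
      simp only [map_add, map_mul, LinearMap.add_apply, Module.End.mul_apply] at h2
      rw [hfw, map_zero, haev] at h2
      simp at h2
      exact hw h2.symm
    exact eq_of_monic_of_associated hfmonic hmon (hfirr.associated_of_dvd hirr hdvd)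
  have hprod : m.prod = M.charpoly := by
    have h1 : Associated m.prod M.charpoly := hm ▸ prod_normalizedFactors hχ0
    have h2 : m.prod.Monic := by
      have := monic_multiset_prod_of_monic m id (fun f hf => by rw [hall f hf]; exact hmon)
      simpa using this
    exact eq_of_monic_of_associated h2 (Matrix.charpoly_monic M) h1
  have hrep : m = Multiset.replicate (Multiset.card m) (X ^ r - C c) :=
    Multiset.eq_replicate_card.mpr hall
  have hchar : M.charpoly = (X ^ r - C c) ^ (Multiset.card m) := by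
    rw [← hprod]
    conv_lhs => rw [hrep]
    rw [Multiset.prod_replicate]
  refine ⟨Multiset.card m, hchar, ?_⟩
  have h3 := congrArg natDegree hchar
  rw [Matrix.charpoly_natDegree_eq_dim, Fintype.card_fin, natDegree_pow,
    natDegree_X_pow_sub_C] at h3
  rw [h3, mul_comm]

theorem exists_matrix_pow_eq_scalar [Finite F] (p : ℕ) [Fact p.Prime] [CharP F p] {r n : ℕ}
    (hr : r.Prime) (c : F) (hc0 : c ≠ 0) (hrn : r ∣ n) :
    ∃ M : Matrix (Fin n) (Fin n) F, M ^ r = c • (1 : Matrix (Fin n) (Fin n) F) := by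
  classical
  obtain ⟨k, rfl⟩ := hrn
  rcases Nat.eq_zero_or_pos k with h0 | hpos
  · refine ⟨1, ?_⟩
    apply Matrix.ext
    intro i
    exact absurd i.2 (by simp [h0])
  obtain ⟨P, hP⟩ : ∃ P : F[X], P = (X ^ r - C c) ^ k := ⟨_, rfl⟩
  have hmon : (X ^ r - C c : F[X]).Monic := monic_X_pow_sub_C c hr.ne_zero
  have hPm : P.Monic := by
    rw [hP]
    exact hmon.pow k
  have hdeg : P.natDegree = r * k := by
    rw [hP, natDegree_pow, natDegree_X_pow_sub_C, mul_comm]
  have hP0 : P.coeff 0 ≠ 0 := by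
    rw [hP, coeff_zero_eq_eval_zero, eval_pow, eval_sub, eval_pow, eval_X, eval_C,
      zero_pow hr.ne_zero, zero_sub]
    exact pow_ne_zero _ (neg_ne_zero.mpr hc0)
  obtain ⟨M, hM, k', hk', hkp, hMk⟩ := exists_matrix_coeffVec p
    (fun j : Fin (r * k) => P.coeff j) (fun _ => hP0)
  have hMc : M.charpoly = P := by
    apply eq_of_monic_of_coeff_eq (n := r * k) (Matrix.charpoly_monic M) hPm (by simp) hdeg
    intro j hj
    exact congrFun hM ⟨j, hj⟩
  refine ⟨M, ?_⟩
  have hkF : (k' : F) ≠ 0 := natCast_ne_zero_of_coprime p hkp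
  have hμdvd : minpoly F M ∣ X ^ k' - C (1 : F) := by
    apply minpoly.dvd
    rw [map_sub, map_pow, aeval_X, aeval_C, hMk, map_one, sub_self]
  have hsq : Squarefree (minpoly F M) :=
    (separable_X_pow_sub_C 1 hkF one_ne_zero).squarefree.squarefree_of_dvd hμdvd
  have hμ2 : minpoly F M ∣ (X ^ r - C c) ^ k := by
    rw [← hP, ← hMc]
    exact Matrix.minpoly_dvd_charpoly M
  have hμ3 : minpoly F M ∣ X ^ r - C c := (hsq.dvd_pow_iff_dvd hpos.ne').mp hμ2
  obtain ⟨w, hw⟩ := hμ3
  have h4 := congrArg (aeval M) hw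
  rw [map_mul, minpoly.aeval, zero_mul, map_sub, map_pow, aeval_X, aeval_C, sub_eq_zero] at h4
  rw [h4]
  exact Algebra.algebraMap_eq_smul_one c

end TypeB

end Cfsg.Agent.Lib.Helper47
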