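import Cfsg.Agent.Lib.Helper47.SpCount
import Cfsg.Agent.Lib.Helper47.UnitaryEmb
import Cfsg.Agent.Lib.Helper7.GUOrder

/-!
# Centraliser of a fixed-point-free element of order 3 in `Sp_{2m}(q)`, `q ≡ 2 (mod 3)`

The centraliser is identified with `GU_m(q)`: the space `F^{2m}` with the symplectic form and the
element `x` is isometric to `K^m` (`K = F(ω)`, `ω² + ω + 1 = 0`) with the form
`τ (hermForm u v)` (`τ` the coefficient functional at `ω`) and multiplication by `ω`.
-/

set_option autoImplicit false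
set_option linter.unusedSectionVars false

namespace Cfsg.Agent.Lib.Helper47

open Polynomial Module Matrix UniqueFactorizationMonoid

universe u

/-- An endomorphism killed by a separable monic irreducible `f` has characteristic polynomial a
power of `f`. -/
theorem charpoly_eq_pow_of_aeval {F : Type*} [Field F] (V : Type u) [AddCommGroup V] [Module F V]
    [FiniteDimensional F V] (g : Module.End F V) (f : F[X]) (hfm : f.Monic) (hfi : Irreducible f)
    (hsep : f.Separable) (haev : aeval g f = 0) :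
    ∃ k : ℕ, g.charpoly = f ^ k ∧ finrank F V = f.natDegree * k := by
  classical
  have hχ0 : g.charpoly ≠ 0 := (LinearMap.charpoly_monic g).ne_zero
  have hs : g.IsSemisimple :=
    Module.End.isSemisimple_of_squarefree_aeval_eq_zero hsep.squarefree haev
  obtain ⟨m, hm⟩ : ∃ m, m = normalizedFactors g.charpoly := ⟨_, rfl⟩
  have hall : ∀ f' ∈ m, f' = f := by
    intro f' hf
    rw [hm] at hf
    have hfirr : Irreducible f' := irreducible_of_normalized_factor f' hf
    have hfmonic : f'.Monic := by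
      have h1 := normalize_normalized_factor f' hf
      rw [← h1]
      exact monic_normalize hfirr.ne_zero
    have hfdvd : f' ∣ g.charpoly := dvd_of_mem_normalizedFactors hf
    obtain ⟨w, hw, hfw⟩ :=
      exists_ker_of_dvd_charpoly (finrank F V) V g rfl hs f' hfmonic hfirr hfdvd
    have hdvd : f' ∣ f := by
      by_contra hnd
      have hcop : IsCoprime f' f := (hfirr.coprime_iff_not_dvd).mpr hnd
      obtain ⟨a, b, hab⟩ := hcop
      have h2 := congrArg (fun P => aeval g P w) hab
      simp only [map_add, map_mul, LinearMap.add_apply, Module.End.mul_apply] at h2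
      rw [hfw, map_zero, haev] at h2
      simp at h2
      exact hw h2.symm
    exact eq_of_monic_of_associated hfmonic hfm (hfirr.associated_of_dvd hfi hdvd)
  have hprod : m.prod = g.charpoly := by
    have h1 : Associated m.prod g.charpoly := hm ▸ prod_normalizedFactors hχ0
    have h2 : m.prod.Monic := by
      have := monic_multiset_prod_of_monic m id (fun f' hf => by rw [hall f' hf]; exact hfm)
      simpa using this
    exact eq_of_monic_of_associated h2 (LinearMap.charpoly_monic g) h1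
  have hrep : m = Multiset.replicate (Multiset.card m) f := Multiset.eq_replicate_card.mpr hall
  have hchar : g.charpoly = f ^ (Multiset.card m) := by
    rw [← hprod]
    conv_lhs => rw [hrep]
    rw [Multiset.prod_replicate]
  refine ⟨Multiset.card m, hchar, ?_⟩
  have h3 := congrArg natDegree hchar
  rw [LinearMap.charpoly_natDegree, natDegree_pow] at h3
  rw [h3, mul_comm]

section Model

/-- Data of a quadratic extension `K = F(ω)`, `ω² + ω + 1 = 0`, of a field of order
`q ≡ 2 (mod 3)`, with the coefficient functional `τ` at `ω`. -/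
structure CubeData (F K : Type u) [Field F] [Fintype F] [Field K] [Fintype K] [Algebra F K]
    (q : ℕ) (ω : K) (τ : K →ₗ[F] F) : Prop where
  cardF : Fintype.card F = q
  cardK : Fintype.card K = q ^ 2
  mod3 : q % 3 = 2
  root : ω ^ 2 + ω + 1 = 0
  coef : ∀ a b : F, τ (algebraMap F K a + algebraMap F K b * ω) = b
  rep : ∀ z : K, ∃ a b : F, z = algebraMap F K a + algebraMap F K b * ω

variable {F K : Type u} [Field F] [Fintype F] [Field K] [Fintype K] [Algebra F K] {q : ℕ}
  {ω : K} {τ : K →ₗ[F] F}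

namespace CubeData

variable (D : CubeData F K q ω τ)
include D

lemma cube : ω ^ 3 = 1 := by linear_combination (ω - 1) * D.root

lemma pow_q : ω ^ q = ω ^ 2 := by
  have h := Nat.div_add_mod q 3
  rw [D.mod3] at h
  rw [← h, pow_add, pow_mul, D.cube, one_pow, one_mul]

lemma map_pow_q (a : F) : (algebraMap F K a) ^ q = algebraMap F K a := by
  rw [← map_pow, ← D.cardF, FiniteField.pow_card]

lemma add_pow_q (y z : K) : (y + z) ^ q = y ^ q + z ^ q := by
  obtain ⟨σ, hσq, -⟩ := exists_unitary_data K q D.cardK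
  rw [← hσq, ← hσq, ← hσq, map_add]

lemma pow_q_pow_q (z : K) : (z ^ q) ^ q = z := by
  obtain ⟨σ, hσq, hσ, -⟩ := exists_unitary_data K q D.cardK
  rw [← hσq, ← hσq, hσ]

lemma tau_pow_q (z : K) : τ (z ^ q) = - τ z := by
  obtain ⟨a, b, rfl⟩ := D.rep z
  rw [D.add_pow_q, mul_pow, D.map_pow_q, D.map_pow_q, D.pow_q, D.coef]
  have h : algebraMap F K a + algebraMap F K b * ω ^ 2
      = algebraMap F K (a - b) + algebraMap F K (-b) * ω := by
    rw [map_sub, map_neg]
    linear_combination (algebraMap F K b) * D.root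
  rw [h, D.coef]

lemma tau_norm (z : K) : τ (z * z ^ q) = 0 := by
  obtain ⟨a, b, rfl⟩ := D.rep z
  rw [D.add_pow_q, mul_pow, D.map_pow_q, D.map_pow_q, D.pow_q]
  have h : (algebraMap F K a + algebraMap F K b * ω) * (algebraMap F K a + algebraMap F K b * ω ^ 2)
      = algebraMap F K (a ^ 2 - a * b + b ^ 2) + algebraMap F K 0 * ω := by
    simp only [map_sub, map_add, map_mul, map_pow, map_zero]
    linear_combination (algebraMap F K a * algebraMap F K b) * D.root
      + (algebraMap F K b) ^ 2 * (ω - 1) * D.root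
  rw [h, D.coef]

lemma eq_zero_of_tau (w : K) (h : ∀ c : K, τ (c * w) = 0) : w = 0 := by
  obtain ⟨a, b, rfl⟩ := D.rep w
  have h1 := h 1
  rw [one_mul, D.coef] at h1
  have h2 := h ω
  have h3 : ω * (algebraMap F K a + algebraMap F K b * ω)
      = algebraMap F K (-b) + algebraMap F K (a - b) * ω := by
    rw [map_sub, map_neg]
    linear_combination (algebraMap F K b) * D.root
  rw [h3, D.coef] at h2
  rw [h1, sub_zero] at h2
  rw [h1, h2]
  simp

lemma q_ne_zero : q ≠ 0 := by
  have := D.mod3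
  omega

lemma two_le_q : 2 ≤ q := by
  have := D.mod3
  omega

lemma finrank_eq : finrank F K = 2 := by
  have h := Module.card_eq_pow_finrank (K := F) (V := K)
  rw [D.cardK, D.cardF] at h
  exact (Nat.pow_right_injective D.two_le_q h).symm

end CubeData

/-- The alternating `F`-form `τ (Σ u_i v_i^q)` on `K^m`. -/
def cubeForm (m : ℕ) (q : ℕ) (τ : K →ₗ[F] F) (u v : Fin m → K) : F :=
  τ (Cfsg.hermForm m K q u v)

/-- Multiplication by `ω` as an `F`-linear map of `K^m`. -/
def cubeMul (F : Type u) {K : Type u} [Field F] [Field K] [Algebra F K] (m : ℕ) (ω : K) :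
    Module.End F (Fin m → K) :=
  DistribSMul.toLinearMap F (Fin m → K) ω

lemma cubeMul_apply (m : ℕ) (ω : K) (u : Fin m → K) : cubeMul F m ω u = ω • u := rfl

/-- The `F`-linear map of `K^m` given by a matrix over `K`. -/
def cubeLin (F : Type u) {K : Type u} [Field F] [Field K] [Algebra F K] (m : ℕ)
    (P : Matrix (Fin m) (Fin m) K) : Module.End F (Fin m → K) where
  toFun u := P *ᵥ u
  map_add' := Matrix.mulVec_add P
  map_smul' c u := Matrix.mulVec_smul P c u

lemma cubeLin_apply (m : ℕ) (P : Matrix (Fin m) (Fin m) K) (u : Fin m → K) :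
    cubeLin F m P u = P *ᵥ u := rfl

namespace CubeData

variable (D : CubeData F K q ω τ)
include D

lemma cubeForm_isSForm (m : ℕ) : IsSForm (RingHom.id F) (-1) (cubeForm m q τ) where
  add_left x y z := by
    simp [cubeForm, Cfsg.hermForm, add_mul, Finset.sum_add_distrib]
  smul_left c x y := by
    simp only [cubeForm, Cfsg.hermForm, Pi.smul_apply, smul_mul_assoc, ← Finset.smul_sum,
      map_smul, smul_eq_mul]
  symm x y := by
    simp only [cubeForm, RingHom.id_apply, neg_one_mul]
    rw [← D.tau_pow_q]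
    congr 1
    simp only [Cfsg.hermForm]
    obtain ⟨σ, hσq, hσ, -⟩ := exists_unitary_data K q D.cardK
    simp only [← hσq, map_sum, map_mul, hσ]
    exact Finset.sum_congr rfl (fun i _ => mul_comm _ _)

lemma cubeForm_nondeg (m : ℕ) : Nondeg (cubeForm m q τ) := by
  classical
  intro u hu
  funext i
  apply D.eq_zero_of_tau
  intro c
  have h := hu (Pi.single i (c ^ q))
  simp only [cubeForm, Cfsg.hermForm] at h
  rw [Finset.sum_eq_single i] at h
  · rwa [Pi.single_eq_same, D.pow_q_pow_q, mul_comm] at h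
  · intro j _ hj
    rw [Pi.single_eq_of_ne hj, zero_pow D.q_ne_zero, mul_zero]
  · intro h
    exact absurd (Finset.mem_univ i) h

lemma cubeForm_alt (m : ℕ) (u : Fin m → K) : cubeForm m q τ u u = 0 := by
  simp only [cubeForm, Cfsg.hermForm, map_sum]
  exact Finset.sum_eq_zero (fun i _ => D.tau_norm (u i))

lemma cubeMul_isometry (m : ℕ) (u v : Fin m → K) :
    cubeForm m q τ (cubeMul F m ω u) (cubeMul F m ω v) = cubeForm m q τ u v := by
  simp only [cubeForm, cubeMul_apply, Cfsg.hermForm, Pi.smul_apply, smul_eq_mul, mul_pow, D.pow_q]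
  congr 1
  apply Finset.sum_congr rfl
  intro i _
  linear_combination (u i * v i ^ q) * D.cube

lemma cubeMul_aeval (m : ℕ) : aeval (cubeMul F m ω) (X ^ 2 + X + 1 : F[X]) = 0 := by
  rw [map_add, map_add, map_pow, aeval_X, map_one]
  apply LinearMap.ext
  intro u
  rw [pow_two]
  simp only [LinearMap.add_apply, Module.End.mul_apply, Module.End.one_apply, cubeMul_apply,
    LinearMap.zero_apply]
  have : ω • ω • u + ω • u + u = (ω ^ 2 + ω + 1) • u := by
    rw [add_smul, add_smul, one_smul, pow_two, mul_smul]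
  rw [this, D.root, zero_smul]

lemma finrank_pi (m : ℕ) : finrank F (Fin m → K) = 2 * m := by
  rw [Module.finrank_pi_fintype]
  simp [D.finrank_eq, mul_comm]

end CubeData

section Cent

variable {m : ℕ} (φ : (Fin m ⊕ Fin m → F) ≃ₗ[F] (Fin m → K))

/-- The matrix over `F` corresponding, via `φ`, to a matrix over `K`. -/
noncomputable def cubeMat (P : Matrix (Fin m) (Fin m) K) :
    Matrix (Fin m ⊕ Fin m) (Fin m ⊕ Fin m) F :=
  LinearMap.toMatrix' (φ.symm.toLinearMap ∘ₗ cubeLin F m P ∘ₗ φ.toLinearMap)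

lemma cubeMat_mulVec (P : Matrix (Fin m) (Fin m) K) (v : Fin m ⊕ Fin m → F) :
    cubeMat φ P *ᵥ v = φ.symm (P *ᵥ φ v) := by
  rw [cubeMat, ← Matrix.toLin'_apply, Matrix.toLin'_toMatrix']
  rfl

/-- The centraliser of `x` in `Sp_{2m}(F)` is in bijection with `GU_m(K)`. -/
theorem card_centralizer_eq_card_GU (D : CubeData F K q ω τ)
    (x : Matrix.symplecticGroup (Fin m) F)
    (hφg : ∀ v, φ ((x : Matrix (Fin m ⊕ Fin m) (Fin m ⊕ Fin m) F) *ᵥ v) = ω • φ v)
    (hφB : ∀ v w, cubeForm m q τ (φ v) (φ w) = spForm (Fin m) F v w) :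
    Nat.card (Subgroup.centralizer ({x} : Set (Matrix.symplecticGroup (Fin m) F)))
      = Nat.card (Cfsg.GU m K q) := by
  classical
  have hsp : ∀ P : Matrix (Fin m) (Fin m) K,
      (∀ u v, Cfsg.hermForm m K q (P *ᵥ u) (P *ᵥ v) = Cfsg.hermForm m K q u v) →
      cubeMat φ P ∈ Matrix.symplecticGroup (Fin m) F := by
    intro P hP
    apply mem_sp_of_isometry
    intro v w
    rw [cubeMat_mulVec, cubeMat_mulVec, ← hφB, LinearEquiv.apply_symm_apply,
      LinearEquiv.apply_symm_apply, cubeForm, hP, ← hφB]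
    rfl
  have hcomm : ∀ P : Matrix (Fin m) (Fin m) K,
      (x : Matrix (Fin m ⊕ Fin m) (Fin m ⊕ Fin m) F) * cubeMat φ P
        = cubeMat φ P * (x : Matrix (Fin m ⊕ Fin m) (Fin m ⊕ Fin m) F) := by
    intro P
    apply Matrix.toLin'.injective
    apply LinearMap.ext
    intro v
    rw [Matrix.toLin'_mul, Matrix.toLin'_mul, LinearMap.comp_apply, LinearMap.comp_apply,
      Matrix.toLin'_apply, Matrix.toLin'_apply, Matrix.toLin'_apply, Matrix.toLin'_apply,
      cubeMat_mulVec, cubeMat_mulVec]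
    apply φ.injective
    rw [hφg, LinearEquiv.apply_symm_apply, LinearEquiv.apply_symm_apply, hφg, Matrix.mulVec_smul]
  symm
  apply Nat.card_congr
  refine Equiv.ofBijective (fun P => ⟨⟨cubeMat φ ((P : GL (Fin m) K) : Matrix (Fin m) (Fin m) K),
    hsp _ ((Cfsg.Agent.Lib.Helper7.mem_GU_iff _).mp P.2)⟩, ?_⟩) ⟨?_, ?_⟩
  · rw [Subgroup.mem_centralizer_iff]
    intro h hh
    rw [Set.mem_singleton_iff] at hh
    subst hh
    apply Subtype.ext
    rw [Submonoid.coe_mul, Submonoid.coe_mul]
    exact hcomm _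
  · intro P P' hPP
    have h1 : cubeMat φ ((P : GL (Fin m) K) : Matrix (Fin m) (Fin m) K)
        = cubeMat φ ((P' : GL (Fin m) K) : Matrix (Fin m) (Fin m) K) :=
      congrArg (fun z : Subgroup.centralizer ({x} : Set (Matrix.symplecticGroup (Fin m) F)) =>
        ((z : Matrix.symplecticGroup (Fin m) F) : Matrix (Fin m ⊕ Fin m) (Fin m ⊕ Fin m) F)) hPP
    apply Subtype.ext
    apply Units.ext
    apply Matrix.toLin'.injective
    apply LinearMap.ext
    intro u
    have h2 := congrArg (fun M => φ (M *ᵥ φ.symm u)) h1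
    simp only [cubeMat_mulVec, LinearEquiv.apply_symm_apply] at h2
    rw [Matrix.toLin'_apply, Matrix.toLin'_apply]
    exact h2
  · rintro ⟨⟨A, hA⟩, hAc⟩
    have hAx : (x : Matrix (Fin m ⊕ Fin m) (Fin m ⊕ Fin m) F) * A
        = A * (x : Matrix (Fin m ⊕ Fin m) (Fin m ⊕ Fin m) F) := by
      have h1 := (Subgroup.mem_centralizer_iff.mp hAc) x (Set.mem_singleton x)
      have h2 := congrArg (fun z : Matrix.symplecticGroup (Fin m) F =>
        (z : Matrix (Fin m ⊕ Fin m) (Fin m ⊕ Fin m) F)) h1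
      simpa only [Submonoid.coe_mul] using h2
    obtain ⟨T₀, hT₀⟩ : ∃ T₀ : Module.End F (Fin m → K), ∀ u, T₀ u = φ (A *ᵥ φ.symm u) :=
      ⟨φ.toLinearMap ∘ₗ Matrix.toLin' A ∘ₗ φ.symm.toLinearMap, fun u => rfl⟩
    have hsymm : ∀ u, φ.symm (ω • u)
        = (x : Matrix (Fin m ⊕ Fin m) (Fin m ⊕ Fin m) F) *ᵥ φ.symm u := by
      intro u
      apply φ.injective
      rw [hφg, LinearEquiv.apply_symm_apply, LinearEquiv.apply_symm_apply]
    have hT₀ω : ∀ u, T₀ (ω • u) = ω • T₀ u := by
      intro u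
      rw [hT₀, hT₀, hsymm, Matrix.mulVec_mulVec, ← hAx, ← Matrix.mulVec_mulVec, hφg]
    have hT₀iso : ∀ u v, cubeForm m q τ (T₀ u) (T₀ v) = cubeForm m q τ u v := by
      intro u v
      rw [hT₀, hT₀, hφB]
      have h1 := spForm_isometry hA (φ.symm u) (φ.symm v)
      rw [Matrix.toLin'_apply, Matrix.toLin'_apply] at h1
      rw [h1, ← hφB, LinearEquiv.apply_symm_apply, LinearEquiv.apply_symm_apply]
    obtain ⟨T₁, hT₁⟩ : ∃ T₁ : (Fin m → K) →ₗ[K] (Fin m → K), ∀ u, T₁ u = T₀ u := by
      refine ⟨{ toFun := T₀, map_add' := T₀.map_add, map_smul' := ?_ }, fun u => rfl⟩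
      intro z u
      obtain ⟨a, b, rfl⟩ := D.rep z
      simp only [RingHom.id_apply]
      rw [add_smul, mul_smul, algebraMap_smul, algebraMap_smul, map_add, map_smul, map_smul,
        hT₀ω, add_smul, mul_smul, algebraMap_smul, algebraMap_smul]
    obtain ⟨P, hP⟩ : ∃ P : Matrix (Fin m) (Fin m) K, ∀ u, P *ᵥ u = T₀ u := by
      refine ⟨LinearMap.toMatrix' T₁, fun u => ?_⟩
      rw [← Matrix.toLin'_apply, Matrix.toLin'_toMatrix', hT₁]
    have hPherm : ∀ u v, Cfsg.hermForm m K q (P *ᵥ u) (P *ᵥ v) = Cfsg.hermForm m K q u v := by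
      intro u v
      rw [← sub_eq_zero]
      apply D.eq_zero_of_tau
      intro c
      rw [mul_sub, ← Cfsg.Agent.Lib.Helper7.hf_smul_left, ← Cfsg.Agent.Lib.Helper7.hf_smul_left,
        ← Matrix.mulVec_smul, map_sub, sub_eq_zero, hP, hP]
      exact hT₀iso (c • u) v
    have hPinj : Function.Injective P.mulVec := by
      have key : ∀ u, P *ᵥ u = 0 → u = 0 := by
        intro u hu
        apply D.cubeForm_nondeg m u
        intro v
        rw [← hT₀iso u v, ← hP u, hu, (D.cubeForm_isSForm m).zero_left]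
      intro u u' h
      have h1 : P *ᵥ (u - u') = 0 := by
        rw [Matrix.mulVec_sub]
        exact sub_eq_zero.mpr h
      exact sub_eq_zero.mp (key _ h1)
    obtain ⟨Pu, hPu⟩ := Matrix.mulVec_injective_iff_isUnit.mp hPinj
    refine ⟨⟨Pu, (Cfsg.Agent.Lib.Helper7.mem_GU_iff Pu).mpr (by rw [hPu]; exact hPherm)⟩, ?_⟩
    apply Subtype.ext
    apply Subtype.ext
    show cubeMat φ ((Pu : GL (Fin m) K) : Matrix (Fin m) (Fin m) K) = A
    rw [hPu]
    apply Matrix.toLin'.injective
    apply LinearMap.ext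
    intro v
    rw [Matrix.toLin'_apply, Matrix.toLin'_apply, cubeMat_mulVec, hP, hT₀,
      LinearEquiv.symm_apply_apply, LinearEquiv.symm_apply_apply]

end Cent

end Model

section Concrete

variable {F : Type u} [Field F] [Fintype F] {q : ℕ}

lemma three_ne_zero_of_mod (hF : Fintype.card F = q) (hq : q % 3 = 2) : (3 : F) ≠ 0 := by
  intro h3
  have hq0 : (q : F) = 0 := by
    rw [← hF]
    exact FiniteField.cast_card_eq_zero F
  have hdm := Nat.div_add_mod q 3
  rw [hq] at hdm
  rw [← hdm] at hq0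
  push_cast at hq0
  rw [h3, zero_mul, zero_add] at hq0
  have : (1 : F) = 0 := by linear_combination h3 - hq0
  exact one_ne_zero this

lemma natDegree_cyc3 : (X ^ 2 + X + 1 : F[X]).natDegree = 2 := by
  compute_degree!

lemma monic_cyc3 : (X ^ 2 + X + 1 : F[X]).Monic := by
  monicity!

lemma irreducible_cyc3 (hF : Fintype.card F = q) (hq : q % 3 = 2) :
    Irreducible (X ^ 2 + X + 1 : F[X]) := by
  have h3 := three_ne_zero_of_mod hF hq
  apply Polynomial.irreducible_of_degree_le_three_of_not_isRoot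
  · rw [natDegree_cyc3]
    decide
  · intro a ha
    rw [IsRoot.def] at ha
    simp only [eval_add, eval_pow, eval_X, eval_one] at ha
    have ha3 : a ^ 3 = 1 := by linear_combination (a - 1) * ha
    have haq : a ^ q = a := by
      rw [← hF]
      exact FiniteField.pow_card a
    have hdm := Nat.div_add_mod q 3
    rw [hq] at hdm
    rw [← hdm, pow_add, pow_mul, ha3, one_pow, one_mul] at haq
    have h01 : a * (a - 1) = 0 := by linear_combination haq
    rcases mul_eq_zero.mp h01 with h0 | h1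
    · rw [h0] at ha
      simp at ha
    · have h1' : a = 1 := sub_eq_zero.mp h1
      rw [h1'] at ha
      apply h3
      linear_combination ha

/-- Existence of the quadratic extension data. -/
theorem exists_cubeData (hF : Fintype.card F = q) (hq : q % 3 = 2) :
    ∃ (K : Type u) (_ : Field K) (_ : Fintype K) (_ : Algebra F K) (ω : K) (τ : K →ₗ[F] F),
      CubeData F K q ω τ := by
  classical
  have hfi := irreducible_cyc3 hF hq
  have hfm : (X ^ 2 + X + 1 : F[X]).Monic := monic_cyc3
  have hfd : (X ^ 2 + X + 1 : F[X]).natDegree = 2 := natDegree_cyc3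
  have : Fact (Irreducible (X ^ 2 + X + 1 : F[X])) := ⟨hfi⟩
  have : Module.Finite F (AdjoinRoot (X ^ 2 + X + 1 : F[X])) :=
    (AdjoinRoot.powerBasis hfm.ne_zero).finite
  have : Finite (AdjoinRoot (X ^ 2 + X + 1 : F[X])) := Module.finite_of_finite F
  let _ : Fintype (AdjoinRoot (X ^ 2 + X + 1 : F[X])) := Fintype.ofFinite _
  have hroot : AdjoinRoot.root (X ^ 2 + X + 1 : F[X]) ^ 2 + AdjoinRoot.root (X ^ 2 + X + 1 : F[X])
      + 1 = 0 := by
    have h := AdjoinRoot.mk_self (f := (X ^ 2 + X + 1 : F[X]))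
    rw [map_add, map_add, map_pow, AdjoinRoot.mk_X, map_one] at h
    exact h
  have hmk : ∀ a b : F, algebraMap F (AdjoinRoot (X ^ 2 + X + 1 : F[X])) a
      + algebraMap F (AdjoinRoot (X ^ 2 + X + 1 : F[X])) b * AdjoinRoot.root (X ^ 2 + X + 1 : F[X])
      = AdjoinRoot.mk (X ^ 2 + X + 1 : F[X]) (C a + C b * X) := by
    intro a b
    rw [map_add, map_mul, AdjoinRoot.mk_X, AdjoinRoot.mk_C, AdjoinRoot.mk_C,
      AdjoinRoot.algebraMap_eq]
  refine ⟨AdjoinRoot (X ^ 2 + X + 1 : F[X]), inferInstance, inferInstance, inferInstance,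
    AdjoinRoot.root _, frobFun (X ^ 2 + X + 1 : F[X]) hfm, ?_⟩
  refine ⟨hF, ?_, hq, hroot, ?_, ?_⟩
  · rw [Module.card_eq_pow_finrank (K := F), hF, (AdjoinRoot.powerBasis hfm.ne_zero).finrank,
      AdjoinRoot.powerBasis_dim, hfd]
  · intro a b
    rw [hmk, frobFun, LinearMap.comp_apply, AdjoinRoot.modByMonicHom_mk, hfd]
    have hlt : (C a + C b * X : F[X]).degree < (X ^ 2 + X + 1 : F[X]).degree := by
      rw [degree_eq_natDegree hfm.ne_zero, hfd]
      have h1 : (C a + C b * X : F[X]).natDegree ≤ 1 := by compute_degree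
      refine lt_of_le_of_lt (degree_le_of_natDegree_le h1) ?_
      exact_mod_cast (by norm_num : (1 : ℕ) < 2)
    rw [(modByMonic_eq_self_iff hfm).mpr hlt, lcoeff_apply]
    simp
  · intro z
    obtain ⟨r, hr⟩ : ∃ r, r = AdjoinRoot.modByMonicHom hfm z := ⟨_, rfl⟩
    have hz : AdjoinRoot.mk (X ^ 2 + X + 1 : F[X]) r = z := by
      rw [hr]
      exact AdjoinRoot.mk_leftInverse hfm z
    have hdeg : r.natDegree ≤ 1 := by
      obtain ⟨p, rfl⟩ := AdjoinRoot.mk_surjective z
      rw [hr, AdjoinRoot.modByMonicHom_mk]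
      have h1 : (X ^ 2 + X + 1 : F[X]) ≠ 1 := by
        intro h
        have := congrArg natDegree h
        rw [hfd, natDegree_one] at this
        omega
      have := natDegree_modByMonic_lt p hfm h1
      rw [hfd] at this
      omega
    refine ⟨r.coeff 0, r.coeff 1, ?_⟩
    rw [hmk, ← hz]
    congr 1
    conv_lhs => rw [eq_X_add_C_of_natDegree_le_one hdeg]
    ring

/-- **Centraliser of a fixed-point-free element of order three in `Sp_{2m}(q)`,
`q ≡ 2 (mod 3)`**: it has the order of `GU_m(q)`. -/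
theorem sp_card_centralizer_order_three (hF : Fintype.card F = q) (hq : q % 3 = 2) {m : ℕ}
    (x : Matrix.symplecticGroup (Fin m) F) (hx3 : x ^ 3 = 1)
    (hfpf : IsUnit ((x : Matrix (Fin m ⊕ Fin m) (Fin m ⊕ Fin m) F) - 1)) :
    Nat.card (Subgroup.centralizer ({x} : Set (Matrix.symplecticGroup (Fin m) F)))
      = q ^ (m * (m - 1) / 2)
        * ∏ i ∈ Finset.range m, (if Even i then q ^ (i + 1) + 1 else q ^ (i + 1) - 1) := by
  classical
  obtain ⟨K, _, _, _, ω, τ, D⟩ := exists_cubeData hF hq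
  have hfi := irreducible_cyc3 hF hq
  have hfm : (X ^ 2 + X + 1 : F[X]).Monic := monic_cyc3
  have hfd : (X ^ 2 + X + 1 : F[X]).natDegree = 2 := natDegree_cyc3
  have hsep : (X ^ 2 + X + 1 : F[X]).Separable := PerfectField.separable_of_irreducible hfi
  obtain ⟨Y, hY⟩ : ∃ Y : Matrix (Fin m ⊕ Fin m) (Fin m ⊕ Fin m) F, Y = x := ⟨_, rfl⟩
  have hY3 : Y ^ 3 = 1 := by
    rw [hY, ← SubmonoidClass.coe_pow, hx3]
    rfl
  have hYf : Y ^ 2 + Y + 1 = 0 := by
    rw [← hY] at hfpf
    have h1 : (Y - 1) * (Y ^ 2 + Y + 1) = 0 := by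
      have : (Y - 1) * (Y ^ 2 + Y + 1) = Y ^ 3 - 1 := by noncomm_ring
      rw [this, hY3, sub_self]
    exact (hfpf.mul_right_eq_zero).mp h1
  have haevY : aeval (Matrix.toLin' Y) (X ^ 2 + X + 1 : F[X]) = 0 := by
    have h1 : (1 : Module.End F (Fin m ⊕ Fin m → F))
        = Matrix.toLin' (1 : Matrix (Fin m ⊕ Fin m) (Fin m ⊕ Fin m) F) := by
      rw [Matrix.toLin'_one]
      rfl
    rw [map_add, map_add, map_pow, aeval_X, map_one, ← Matrix.toLin'_pow, h1,
      ← map_add, ← map_add, hYf, map_zero]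
  obtain ⟨k, hk, hkd⟩ := charpoly_eq_pow_of_aeval (Fin m ⊕ Fin m → F) (Matrix.toLin' Y)
    (X ^ 2 + X + 1 : F[X]) hfm hfi hsep haevY
  obtain ⟨k', hk', hkd'⟩ := charpoly_eq_pow_of_aeval (Fin m → K) (cubeMul F m ω)
    (X ^ 2 + X + 1 : F[X]) hfm hfi hsep (D.cubeMul_aeval m)
  have hfin : finrank F (Fin m ⊕ Fin m → F) = 2 * m := by
    rw [Module.finrank_fintype_fun_eq_card, Fintype.card_sum, Fintype.card_fin]
    ring
  rw [hfin, hfd] at hkd
  rw [D.finrank_pi, hfd] at hkd'
  have hkk : k = k' := by omega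
  have hchar : (Matrix.toLin' Y).charpoly = (cubeMul F m ω).charpoly := by
    rw [hk, hk', hkk]
  obtain ⟨φ, hφg, hφB⟩ := exists_isometry_conj (σ := RingHom.id F) (ε := -1) (fun _ => rfl)
    (Or.inl ⟨rfl, rfl⟩) (2 * m) (Fin m ⊕ Fin m → F) (Fin m → K) (spForm (Fin m) F)
    (cubeForm m q τ) (Matrix.toLin' Y) (cubeMul F m ω) hfin spForm_isSForm (D.cubeForm_isSForm m)
    spForm_nondeg (D.cubeForm_nondeg m) (fun _ => spForm_alt) (fun _ => D.cubeForm_alt m)
    (Module.End.isSemisimple_of_squarefree_aeval_eq_zero hsep.squarefree haevY)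
    (Module.End.isSemisimple_of_squarefree_aeval_eq_zero hsep.squarefree (D.cubeMul_aeval m))
    (spForm_isometry (hY ▸ x.2)) (D.cubeMul_isometry m) hchar
  rw [card_centralizer_eq_card_GU φ D x (fun v => by rw [← hY]; exact hφg v) hφB,
    Cfsg.Agent.Lib.Helper7.card_GU D.cardK m]

end Concrete

end Cfsg.Agent.Lib.Helper47
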