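import Cfsg.Agent.Lib.Helper47.SemiConjMat
import Cfsg.Agent.Lib.Helper47.PGLPrime
import Cfsg.Agent.Lib.Helper47.Sp3Cent

/-!
# Elements of `SL_n(q)` with scalar square ("involutions of `PSL_n(q)`")

* number theory: `no_pow_eq_neg_one`, `exists_pow_eq_neg_one`;
* `charpoly_two_roots`: an endomorphism killed by `(X - r₁)(X - r₂)`, `r₁ ≠ r₂`;
* `inv_classes`: the three types of matrices `X` with `X * X = z • 1`;
* `sl_conj_of_gl_conj`: from `GL`-conjugacy into a subgroup to `SL`-conjugacy, given that the
  centraliser has all determinants.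
-/

set_option autoImplicit false
set_option linter.unusedSectionVars false

namespace Cfsg.Agent.Lib.Helper47

open Polynomial Module Matrix UniqueFactorizationMonoid

universe u

section NT

variable {F : Type*} [Field F] [Fintype F] {q n : ℕ}

lemma no_pow_eq_neg_one (hq : Fintype.card F = q) (h2 : (2 : F) ≠ 0)
    (hv : padicValNat 2 (q - 1) ≤ padicValNat 2 n) (c : F) (hc : c ^ n = -1) : False := by
  have hq2 : 1 < q := hq ▸ Fintype.one_lt_card
  have hq1 : q - 1 ≠ 0 := by omega
  have hc0 : c ≠ 0 := by
    rintro rfl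
    rcases Nat.eq_zero_or_pos n with h0 | h0
    · rw [h0, pow_zero] at hc
      apply h2
      linear_combination hc
    · rw [zero_pow h0.ne'] at hc
      exact one_ne_zero (neg_eq_zero.mp hc.symm)
  have hcq : c ^ (q - 1) = 1 := by
    rw [← hq]
    exact FiniteField.pow_card_sub_one_eq_one c hc0
  have hdecomp := Nat.ordProj_mul_ordCompl_eq_self (q - 1) 2
  rw [Nat.factorization_def (q - 1) Nat.prime_two] at hdecomp
  have hodd : Odd ((q - 1) / 2 ^ padicValNat 2 (q - 1)) := by
    have h := Nat.not_dvd_ordCompl Nat.prime_two hq1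
    rw [Nat.factorization_def (q - 1) Nat.prime_two] at h
    rw [← Nat.not_even_iff_odd, even_iff_two_dvd]
    exact h
  have hdvd : 2 ^ padicValNat 2 (q - 1) ∣ n :=
    (pow_dvd_pow 2 hv).trans pow_padicValNat_dvd
  obtain ⟨n₁, hn₁⟩ := hdvd
  have e1 : c ^ (n * ((q - 1) / 2 ^ padicValNat 2 (q - 1))) = -1 := by
    rw [pow_mul, hc, hodd.neg_one_pow]
  have e2 : c ^ (n * ((q - 1) / 2 ^ padicValNat 2 (q - 1))) = 1 := by
    have : n * ((q - 1) / 2 ^ padicValNat 2 (q - 1)) = (q - 1) * n₁ := by
      conv_lhs => rw [hn₁]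
      conv_rhs => rw [← hdecomp]
      ring
    rw [this, pow_mul, hcq, one_pow]
  apply h2
  rw [e1] at e2
  linear_combination -e2

lemma exists_pow_eq_neg_one (hq : Fintype.card F = q) (hn : n ≠ 0)
    (hv : padicValNat 2 n < padicValNat 2 (q - 1)) : ∃ c : F, c ^ n = -1 := by
  have hq2 : 1 < q := hq ▸ Fintype.one_lt_card
  have hdvd : 2 ^ (padicValNat 2 n + 1) ∣ q - 1 :=
    (pow_dvd_pow 2 (Nat.succ_le_of_lt hv)).trans pow_padicValNat_dvd
  obtain ⟨γ, m, -, -, -, -, hprim⟩ := exists_gen_root hq hdvd
  have hsq : ((γ ^ m) ^ 2 ^ padicValNat 2 n) ^ 2 = 1 := by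
    rw [← pow_mul, ← pow_succ]
    exact hprim.pow_eq_one
  have hne : (γ ^ m) ^ 2 ^ padicValNat 2 n ≠ 1 := by
    apply hprim.pow_ne_one_of_pos_of_lt (by positivity)
    exact Nat.pow_lt_pow_right (by norm_num) (Nat.lt_succ_self _)
  have hneg : (γ ^ m) ^ 2 ^ padicValNat 2 n = -1 := by
    have h1 : ((γ ^ m) ^ 2 ^ padicValNat 2 n - 1) * ((γ ^ m) ^ 2 ^ padicValNat 2 n + 1) = 0 := by
      linear_combination hsq
    rcases mul_eq_zero.mp h1 with h | h
    · exact absurd (sub_eq_zero.mp h) hne
    · exact eq_neg_of_add_eq_zero_left h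
  have hdecomp := Nat.ordProj_mul_ordCompl_eq_self n 2
  rw [Nat.factorization_def n Nat.prime_two] at hdecomp
  have hodd : Odd (n / 2 ^ padicValNat 2 n) := by
    have h := Nat.not_dvd_ordCompl Nat.prime_two hn
    rw [Nat.factorization_def n Nat.prime_two] at h
    rw [← Nat.not_even_iff_odd, even_iff_two_dvd]
    exact h
  refine ⟨γ ^ m, ?_⟩
  conv_lhs => rw [← hdecomp]
  rw [pow_mul, hneg, hodd.neg_one_pow]

end NT

section TwoRoots

/-- An endomorphism killed by `(X - r₁)(X - r₂)` with `r₁ ≠ r₂` is semisimple with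
characteristic polynomial `(X - r₁)^a (X - r₂)^b`. -/
theorem charpoly_two_roots {F : Type*} [Field F] (V : Type u) [AddCommGroup V] [Module F V]
    [FiniteDimensional F V] (g : Module.End F V) (r₁ r₂ : F) (hr : r₁ ≠ r₂)
    (haev : aeval g ((X - C r₁) * (X - C r₂) : F[X]) = 0) :
    g.IsSemisimple ∧ ∃ a b : ℕ, g.charpoly = (X - C r₁) ^ a * (X - C r₂) ^ b := by
  classical
  have hcop : IsCoprime (X - C r₁ : F[X]) (X - C r₂) :=
    isCoprime_X_sub_C_of_isUnit_sub (sub_ne_zero.mpr hr).isUnit
  have hsep : ((X - C r₁) * (X - C r₂) : F[X]).Separable :=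
    (separable_X_sub_C).mul (separable_X_sub_C) hcop
  have hs : g.IsSemisimple :=
    Module.End.isSemisimple_of_squarefree_aeval_eq_zero hsep.squarefree haev
  refine ⟨hs, ?_⟩
  have hχ0 : g.charpoly ≠ 0 := (LinearMap.charpoly_monic g).ne_zero
  obtain ⟨m, hm⟩ : ∃ m, m = normalizedFactors g.charpoly := ⟨_, rfl⟩
  have hall : ∀ f' ∈ m, f' = X - C r₁ ∨ f' = X - C r₂ := by
    intro f' hf
    rw [hm] at hf
    have hfirr : Irreducible f' := irreducible_of_normalized_factor f' hf
    have hfmonic : f'.Monic := by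
      have h1 := normalize_normalized_factor f' hf
      rw [← h1]
      exact monic_normalize hfirr.ne_zero
    have hfdvd : f' ∣ g.charpoly := dvd_of_mem_normalizedFactors hf
    obtain ⟨w, hw, hfw⟩ :=
      exists_ker_of_dvd_charpoly (finrank F V) V g rfl hs f' hfmonic hfirr hfdvd
    have hdvd : f' ∣ (X - C r₁) * (X - C r₂) := by
      obtain ⟨Q, hQ⟩ : ∃ Q : F[X], Q = (X - C r₁) * (X - C r₂) := ⟨_, rfl⟩
      rw [← hQ] at haev ⊢
      by_contra hnd
      have hcop : IsCoprime f' Q := (hfirr.coprime_iff_not_dvd).mpr hnd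
      obtain ⟨a, b, hab⟩ := hcop
      have h2 := congrArg (fun P => aeval g P w) hab
      simp only [map_add, map_mul, LinearMap.add_apply, Module.End.mul_apply] at h2
      rw [hfw, map_zero, haev] at h2
      simp at h2
      exact hw h2.symm
    rcases hfirr.prime.dvd_or_dvd hdvd with h | h
    · left
      exact eq_of_monic_of_associated hfmonic (monic_X_sub_C r₁)
        (hfirr.associated_of_dvd (irreducible_X_sub_C r₁) h)
    · right
      exact eq_of_monic_of_associated hfmonic (monic_X_sub_C r₂)
        (hfirr.associated_of_dvd (irreducible_X_sub_C r₂) h)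
  have hprod : m.prod = g.charpoly := by
    have h1 : Associated m.prod g.charpoly := hm ▸ prod_normalizedFactors hχ0
    have h2 : m.prod.Monic := by
      have := monic_multiset_prod_of_monic m id (fun f' hf => by
        rcases hall f' hf with h | h <;> rw [id, h] <;> exact monic_X_sub_C _)
      simpa using this
    exact eq_of_monic_of_associated h2 (LinearMap.charpoly_monic g) h1
  have h1 : m.filter (· = X - C r₁) = Multiset.replicate (m.count (X - C r₁)) (X - C r₁) :=
    Multiset.filter_eq' m _
  have h2 : m.filter (fun f' => ¬ f' = X - C r₁)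
      = Multiset.replicate (Multiset.card (m.filter (fun f' => ¬ f' = X - C r₁))) (X - C r₂) := by
    apply Multiset.eq_replicate_card.mpr
    intro f' hf
    rw [Multiset.mem_filter] at hf
    rcases hall f' hf.1 with h | h
    · exact absurd h hf.2
    · exact h
  refine ⟨m.count (X - C r₁), Multiset.card (m.filter (fun f' => ¬ f' = X - C r₁)), ?_⟩
  rw [← hprod]
  conv_lhs => rw [← Multiset.filter_add_not (· = X - C r₁) m, h1, h2]
  rw [Multiset.prod_add, Multiset.prod_replicate, Multiset.prod_replicate]

end TwoRoots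

section Classes

variable {F : Type u} [Field F] [Fintype F] {n : ℕ}

lemma exists_sqrt_of_two_eq_zero (h2 : (2 : F) = 0) (z : F) : ∃ c : F, z = c ^ 2 := by
  have hinj : Function.Injective (fun a : F => a ^ 2) := by
    intro a b hab
    simp only at hab
    have h1 : (a - b) ^ 2 = 0 := by linear_combination hab + (b ^ 2 - a * b) * h2
    exact sub_eq_zero.mp ((pow_eq_zero_iff two_ne_zero).mp h1)
  obtain ⟨c, hc⟩ := (Finite.injective_iff_surjective.mp hinj) z
  exact ⟨c, hc.symm⟩

/-- The three types of matrices with scalar square over a finite field. -/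
theorem inv_classes (M : Matrix (Fin n) (Fin n) F) (z : F) (hz : z ≠ 0)
    (hM : M * M = z • (1 : Matrix (Fin n) (Fin n) F)) :
    ((2 : F) ≠ 0 ∧ Module.End.IsSemisimple (toLin' M) ∧
      ((∃ c : F, ∃ a b : ℕ, z = c ^ 2 ∧ a + b = n ∧
          M.charpoly = (X - C c) ^ a * (X - C (-c)) ^ b) ∨
       ((∀ c : F, c ^ 2 ≠ z) ∧ ∃ m : ℕ, n = 2 * m ∧ M.charpoly = (X ^ 2 - C z) ^ m))) ∨
    ((2 : F) = 0 ∧ ∃ c : F, z = c ^ 2 ∧ (M - c • 1) * (M - c • 1) = 0) := by
  have haevz : aeval (toLin' M) (X ^ 2 - C z : F[X]) = 0 := by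
    rw [map_sub, map_pow, aeval_X, aeval_C, ← Matrix.toLin'_pow, pow_two, hM]
    apply LinearMap.ext
    intro v
    simp [Algebra.algebraMap_eq_smul_one]
  by_cases h2 : (2 : F) = 0
  · right
    obtain ⟨c, hc⟩ := exists_sqrt_of_two_eq_zero h2 z
    refine ⟨h2, c, hc, ?_⟩
    have e1 : (M - c • (1 : Matrix (Fin n) (Fin n) F)) * (M - c • 1)
        = M * M - (2 * c) • M + (c ^ 2) • (1 : Matrix (Fin n) (Fin n) F) := by
      rw [sub_mul, mul_sub, mul_sub, Matrix.mul_smul, Matrix.smul_mul, Matrix.smul_mul,
        Matrix.mul_smul, Matrix.mul_one, Matrix.one_mul, Matrix.mul_one, smul_smul, two_mul,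
        add_smul, pow_two]
      abel
    rw [e1, hM, ← hc, h2, zero_mul, zero_smul, sub_zero, ← add_smul, ← two_mul, h2, zero_mul,
      zero_smul]
  · left
    by_cases hsq : ∃ c : F, c ^ 2 = z
    · obtain ⟨c, hc⟩ := hsq
      have hc0 : c ≠ 0 := by
        rintro rfl
        apply hz
        rw [← hc]
        ring
      have hcc : c ≠ -c := by
        intro h
        have : (2 : F) * c = 0 := by linear_combination h
        rcases mul_eq_zero.mp this with h' | h'
        · exact h2 h'
        · exact hc0 h'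
      have haev : aeval (toLin' M) ((X - C c) * (X - C (-c)) : F[X]) = 0 := by
        have e : ((X - C c) * (X - C (-c)) : F[X]) = X ^ 2 - C z := by
          rw [← hc, map_neg, map_pow]
          ring
        rw [e]
        exact haevz
      obtain ⟨hs, a, b, hab⟩ := charpoly_two_roots (Fin n → F) (toLin' M) c (-c) hcc haev
      refine ⟨h2, hs, Or.inl ⟨c, a, b, hc.symm, ?_, ?_⟩⟩
      · have h := congrArg natDegree hab
        rw [LinearMap.charpoly_natDegree, Module.finrank_fintype_fun_eq_card, Fintype.card_fin,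
          natDegree_mul (pow_ne_zero _ (X_sub_C_ne_zero c)) (pow_ne_zero _ (X_sub_C_ne_zero (-c))),
          natDegree_pow, natDegree_pow, natDegree_X_sub_C, natDegree_X_sub_C] at h
        omega
      · rw [← Matrix.charpoly_toLin']
        exact hab
    · push Not at hsq
      have hirr : Irreducible (X ^ 2 - C z : F[X]) :=
        (X_pow_sub_C_irreducible_iff_of_prime Nat.prime_two).mpr hsq
      have hmon : (X ^ 2 - C z : F[X]).Monic := monic_X_pow_sub_C z two_ne_zero
      have hsep : (X ^ 2 - C z : F[X]).Separable :=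
        separable_X_pow_sub_C z (by exact_mod_cast h2) hz
      obtain ⟨k, hk, hkd⟩ := charpoly_eq_pow_of_aeval (Fin n → F) (toLin' M) _ hmon hirr hsep haevz
      refine ⟨h2, Module.End.isSemisimple_of_squarefree_aeval_eq_zero hsep.squarefree haevz,
        Or.inr ⟨hsq, k, ?_, ?_⟩⟩
      · rw [Module.finrank_fintype_fun_eq_card, Fintype.card_fin, natDegree_X_pow_sub_C] at hkd
        exact hkd
      · rw [← Matrix.charpoly_toLin']
        exact hk

/-- From `GL`-conjugacy into a subgroup to `SL`-conjugacy, when the centraliser has all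
determinants. -/
theorem sl_conj_of_gl_conj {H : Subgroup (GL (Fin n) F)}
    (x : Matrix.SpecialLinearGroup (Fin n) F) (A : GL (Fin n) F)
    (hA : A * Matrix.SpecialLinearGroup.toGL x * A⁻¹ ∈ H)
    (hD : ∀ δ : F, δ ≠ 0 → ∃ Cm : Matrix (Fin n) (Fin n) F,
      Cm * (x : Matrix (Fin n) (Fin n) F) = (x : Matrix (Fin n) (Fin n) F) * Cm ∧ Cm.det = δ) :
    ∃ P : Matrix.SpecialLinearGroup (Fin n) F, P⁻¹ * x * P ∈ H.comap
      (Matrix.SpecialLinearGroup.toGL : Matrix.SpecialLinearGroup (Fin n) F →* GL (Fin n) F) := by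
  have hAdet : (A : Matrix (Fin n) (Fin n) F).det ≠ 0 :=
    ((Matrix.isUnit_iff_isUnit_det _).mp A.isUnit).ne_zero
  obtain ⟨Cm, hcomm, hdet⟩ := hD ((A : Matrix (Fin n) (Fin n) F).det)⁻¹ (inv_ne_zero hAdet)
  have hCunit : IsUnit Cm := by
    rw [Matrix.isUnit_iff_isUnit_det, hdet]
    exact (inv_ne_zero hAdet).isUnit
  obtain ⟨Cu, hCu⟩ := hCunit
  have hQdet : ((A * Cu : GL (Fin n) F) : Matrix (Fin n) (Fin n) F).det = 1 := by
    rw [Units.val_mul, Matrix.det_mul, hCu, hdet, mul_inv_cancel₀ hAdet]
  obtain ⟨Qs, hQs⟩ : ∃ Qs : Matrix.SpecialLinearGroup (Fin n) F,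
      Matrix.SpecialLinearGroup.toGL Qs = A * Cu :=
    ⟨⟨((A * Cu : GL (Fin n) F) : Matrix (Fin n) (Fin n) F), hQdet⟩, Units.ext rfl⟩
  have hcu : Cu * Matrix.SpecialLinearGroup.toGL x = Matrix.SpecialLinearGroup.toGL x * Cu := by
    apply Units.ext
    rw [Units.val_mul, Units.val_mul, hCu]
    exact hcomm
  refine ⟨Qs⁻¹, ?_⟩
  rw [Subgroup.mem_comap, inv_inv, map_mul, map_mul, map_inv, hQs]
  have : A * Cu * Matrix.SpecialLinearGroup.toGL x * (A * Cu)⁻¹
      = A * Matrix.SpecialLinearGroup.toGL x * A⁻¹ := by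
    rw [mul_assoc A Cu, hcu]
    group
  rw [this]
  exact hA

end Classes

section NilSq

variable {F : Type*} [Field F] {V : Type*} [AddCommGroup V] [Module F V] [FiniteDimensional F V]

/-- A functional dual to a Jordan block of a nil-square endomorphism. -/
lemma nilsq_exists_dual (N : Module.End F V) (hN : ∀ u, N (N u) = 0) (v : V) (hv : N v ≠ 0) :
    ∃ B : V →ₗ[F] F, B (N v) = 1 ∧ B v = 0 := by
  have hnot : N v ∉ Submodule.span F {v} := by
    intro hmem
    obtain ⟨α, hα⟩ := Submodule.mem_span_singleton.mp hmem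
    have h1 : α • N v = 0 := by rw [← map_smul, hα, hN]
    rcases smul_eq_zero.mp h1 with h | h
    · rw [h, zero_smul] at hα
      exact hv hα.symm
    · exact hv h
  obtain ⟨B₀, hB₀, hmap⟩ := Submodule.exists_dual_map_eq_bot_of_notMem hnot inferInstance
  refine ⟨(B₀ (N v))⁻¹ • B₀, ?_, ?_⟩
  · rw [LinearMap.smul_apply, smul_eq_mul, inv_mul_cancel₀ hB₀]
  · have : B₀ v ∈ (Submodule.span F {v}).map B₀ :=
      Submodule.mem_map_of_mem (Submodule.mem_span_singleton_self v)
    rw [hmap, Submodule.mem_bot] at this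
    rw [LinearMap.smul_apply, this, smul_zero]

/-- Splitting off a Jordan block of a nil-square endomorphism. -/
lemma nilsq_split (N : Module.End F V) (hN : ∀ u, N (N u) = 0) (v : V) (B : V →ₗ[F] F)
    (hB1 : B (N v) = 1) (hB0 : B v = 0) :
    Submodule.span F (Set.range ![v, N v]) ∈ Module.End.invtSubmodule N ∧
    (LinearMap.ker (B.comp N) ⊓ LinearMap.ker B) ∈ Module.End.invtSubmodule N ∧
    IsCompl (Submodule.span F (Set.range ![v, N v])) (LinearMap.ker (B.comp N) ⊓ LinearMap.ker B) ∧
    finrank F (Submodule.span F (Set.range ![v, N v])) = 2 := by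
  have hmemL : ∀ u, u ∈ Submodule.span F (Set.range ![v, N v]) ↔ ∃ α β : F, u = α • v + β • N v := by
    intro u
    rw [Submodule.mem_span_range_iff_exists_fun]
    constructor
    · rintro ⟨c, hc⟩
      refine ⟨c 0, c 1, ?_⟩
      rw [← hc, Fin.sum_univ_two]
      rfl
    · rintro ⟨α, β, rfl⟩
      refine ⟨![α, β], ?_⟩
      rw [Fin.sum_univ_two]
      rfl
  refine ⟨?_, ?_, ?_, ?_⟩
  · rw [Module.End.mem_invtSubmodule_iff_forall_mem_of_mem]
    intro u hu
    obtain ⟨α, β, rfl⟩ := (hmemL u).mp hu
    rw [hmemL]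
    refine ⟨0, α, ?_⟩
    rw [map_add, map_smul, map_smul, hN, smul_zero, add_zero, zero_smul, zero_add]
  · rw [Module.End.mem_invtSubmodule_iff_forall_mem_of_mem]
    intro u hu
    rw [Submodule.mem_inf, LinearMap.mem_ker, LinearMap.mem_ker, LinearMap.comp_apply] at hu ⊢
    rw [hN, map_zero]
    exact ⟨rfl, hu.1⟩
  · constructor
    · rw [Submodule.disjoint_def]
      intro u hu hu'
      obtain ⟨α, β, rfl⟩ := (hmemL u).mp hu
      rw [Submodule.mem_inf, LinearMap.mem_ker, LinearMap.mem_ker, LinearMap.comp_apply] at hu'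
      obtain ⟨h1, h2⟩ := hu'
      rw [map_add, map_smul, map_smul, hN, smul_zero, add_zero, map_smul, hB1, smul_eq_mul,
        mul_one] at h1
      rw [map_add, map_smul, map_smul, hB0, hB1, smul_eq_mul, smul_eq_mul, mul_zero, mul_one,
        zero_add] at h2
      rw [h1, h2, zero_smul, zero_smul, add_zero]
    · rw [codisjoint_iff, eq_top_iff]
      intro u _
      have hdec : u = (B (N u) • v + B u • N v) + (u - B (N u) • v - B u • N v) := by abel
      rw [hdec]
      apply Submodule.add_mem_sup
      · exact (hmemL _).mpr ⟨_, _, rfl⟩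
      · rw [Submodule.mem_inf, LinearMap.mem_ker, LinearMap.mem_ker, LinearMap.comp_apply]
        constructor
        · simp only [map_sub, map_smul, hN, hB1, map_zero, smul_eq_mul, mul_one, mul_zero,
            sub_self]
        · simp only [map_sub, map_smul, hB1, hB0, smul_eq_mul, mul_one, mul_zero, sub_zero,
            sub_self]
  · have hli : LinearIndependent F ![v, N v] := by
      rw [LinearIndependent.pair_iff]
      intro s t hst
      have h1 := congrArg (fun u => B (N u)) hst
      simp only [map_add, map_smul, hN, map_zero, smul_zero, add_zero, hB1, smul_eq_mul,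
        mul_one] at h1
      have h2 := congrArg B hst
      rw [map_add, map_smul, map_smul, hB0, hB1, smul_eq_mul, smul_eq_mul, mul_zero, mul_one,
        zero_add, map_zero] at h2
      exact ⟨h1, h2⟩
    rw [finrank_span_eq_card hli, Fintype.card_fin]

end NilSq

section NilSqDet

variable {F : Type u} [Field F] [Fintype F]

/-- In characteristic 2, the centraliser of a nil-square endomorphism has all determinants. -/
theorem nilsq_exists_commute_det {V : Type*} [AddCommGroup V] [Module F V] [FiniteDimensional F V]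
    [Nontrivial V] (h2 : (2 : F) = 0) (N : Module.End F V) (hN : ∀ u, N (N u) = 0) (δ : F) :
    ∃ c : Module.End F V, (∀ u, c (N u) = N (c u)) ∧ LinearMap.det c = δ := by
  by_cases h0 : ∀ u, N u = 0
  · obtain ⟨c, -, hc⟩ := exists_commute_det_eq (LinearMap.id : Module.End F V)
      Module.End.isSemisimple_id δ
    refine ⟨c, fun u => ?_, hc⟩
    rw [h0, h0, map_zero]
  · push Not at h0
    obtain ⟨v, hv⟩ := h0
    obtain ⟨B, hB1, hB0⟩ := nilsq_exists_dual N hN v hv
    obtain ⟨hL, hL', hcompl, hfr⟩ := nilsq_split N hN v B hB1 hB0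
    obtain ⟨δ', hδ'⟩ := exists_sqrt_of_two_eq_zero h2 δ
    refine ⟨(Submodule.prodEquivOfIsCompl _ _ hcompl).conj
      ((δ' • LinearMap.id).prodMap LinearMap.id), fun x => ?_, ?_⟩
    · obtain ⟨⟨a, b⟩, rfl⟩ := (Submodule.prodEquivOfIsCompl _ _ hcompl).surjective x
      have e1 : N (Submodule.prodEquivOfIsCompl _ _ hcompl (a, b))
          = Submodule.prodEquivOfIsCompl _ _ hcompl (resInv N hL a, resInv N hL' b) := by
        simp [resInv_apply]
      rw [e1]
      simp only [LinearEquiv.conj_apply_apply, LinearEquiv.symm_apply_apply,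
        LinearMap.prodMap_apply, LinearMap.id_apply, LinearMap.smul_apply]
      simp only [Submodule.coe_prodEquivOfIsCompl', resInv_apply, map_add, Submodule.coe_smul,
        map_smul]
    · rw [LinearEquiv.conj_apply, LinearMap.comp_assoc, LinearMap.det_conj, LinearMap.det_prodMap,
        LinearMap.det_smul, hfr, LinearMap.det_id, LinearMap.det_id, mul_one, mul_one, hδ']

/-- Over a finite field, the centraliser of a matrix with scalar square has all determinants. -/
theorem exists_commute_det_of_sq {n : ℕ} [NeZero n] (M : Matrix (Fin n) (Fin n) F) (z : F)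
    (hz : z ≠ 0) (hM : M * M = z • (1 : Matrix (Fin n) (Fin n) F)) (δ : F) :
    ∃ Cm : Matrix (Fin n) (Fin n) F, Cm * M = M * Cm ∧ Cm.det = δ := by
  have hne : Nonempty (Fin n) := ⟨⟨0, Nat.pos_of_ne_zero (NeZero.ne n)⟩⟩
  rcases inv_classes M z hz hM with ⟨-, hs, -⟩ | ⟨h2, c, -, hN⟩
  · exact exists_commute_matrix_det M hs δ
  · have hN' : ∀ u, toLin' (M - c • (1 : Matrix (Fin n) (Fin n) F))
        (toLin' (M - c • (1 : Matrix (Fin n) (Fin n) F)) u) = 0 := by
      intro u
      rw [← LinearMap.comp_apply, ← Matrix.toLin'_mul, hN, map_zero, LinearMap.zero_apply]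
    obtain ⟨cl, hcl, hdet⟩ := nilsq_exists_commute_det h2 _ hN' δ
    refine ⟨LinearMap.toMatrix' cl, ?_, by rw [← hdet, LinearMap.det_toMatrix']⟩
    have h1 : LinearMap.toMatrix' cl * (M - c • (1 : Matrix (Fin n) (Fin n) F))
        = (M - c • (1 : Matrix (Fin n) (Fin n) F)) * LinearMap.toMatrix' cl := by
      apply Matrix.toLin'.injective
      rw [Matrix.toLin'_mul, Matrix.toLin'_mul, Matrix.toLin'_toMatrix']
      apply LinearMap.ext
      intro x
      rw [LinearMap.comp_apply, LinearMap.comp_apply]
      exact hcl x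
    rw [mul_sub, sub_mul, Matrix.mul_smul, Matrix.smul_mul, Matrix.mul_one, Matrix.one_mul] at h1
    exact sub_left_injective h1

end NilSqDet

section NilSqForm

/-- A nil-square endomorphism `N` of an even-dimensional space: `c + N` is a similarity, with
multiplier `c²`, of some nondegenerate alternating form. -/
theorem exists_form_nilsq {F : Type*} [Field F] :
    ∀ (m : ℕ) (V : Type u) [AddCommGroup V] [Module F V] [FiniteDimensional F V]
      (N : Module.End F V) (c : F), finrank F V = 2 * m → (∀ u, N (N u) = 0) →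
      ∃ f : V → V → F, IsSForm (RingHom.id F) (-1) f ∧ Nondeg f ∧ (∀ u, f u u = 0) ∧
        ∀ u w, f (c • u + N u) (c • w + N w) = c ^ 2 * f u w := by
  intro m
  induction m with
  | zero =>
    intro V _ _ _ N c hfin hN
    have : Subsingleton V := Module.finrank_zero_iff.mp (by simpa using hfin)
    exact ⟨fun _ _ => 0, ⟨by simp, by simp, by simp⟩, fun x _ => Subsingleton.elim _ _,
      fun _ => rfl, by simp⟩
  | succ m ih =>
    intro V _ _ _ N c hfin hN
    by_cases h0 : ∀ u, N u = 0
    · have hfr : finrank F V = finrank F (Fin (m + 1) ⊕ Fin (m + 1) → F) := by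
        rw [hfin, Module.finrank_fintype_fun_eq_card, Fintype.card_sum, Fintype.card_fin]
        ring
      obtain ⟨e⟩ := FiniteDimensional.nonempty_linearEquiv_of_finrank_eq hfr
      refine ⟨fun u w => spForm (Fin (m + 1)) F (e u) (e w), ?_, ?_, ?_, ?_⟩
      · exact ⟨fun x y z => by rw [map_add]; exact spForm_isSForm.add_left _ _ _,
          fun a x y => by rw [map_smul]; exact spForm_isSForm.smul_left _ _ _,
          fun x y => spForm_isSForm.symm _ _⟩
      · intro x hx
        have := spForm_nondeg (e x) (fun y => by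
          obtain ⟨y', rfl⟩ := e.surjective y
          exact hx y')
        exact (LinearEquiv.map_eq_zero_iff e).mp this
      · intro u
        exact spForm_alt _
      · intro u w
        show spForm (Fin (m + 1)) F (e (c • u + N u)) (e (c • w + N w))
          = c ^ 2 * spForm (Fin (m + 1)) F (e u) (e w)
        rw [h0, h0, add_zero, add_zero, map_smul, map_smul, spForm_isSForm.smul_left,
          spForm_isSForm.smul_right, RingHom.id_apply]
        ring
    · push Not at h0
      obtain ⟨v, hv⟩ := h0
      obtain ⟨B, hB1, hB0⟩ := nilsq_exists_dual N hN v hv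
      obtain ⟨hL, hL', hcompl, hfr⟩ := nilsq_split N hN v B hB1 hB0
      have hfr' : finrank F ↥(LinearMap.ker (B.comp N) ⊓ LinearMap.ker B) = 2 * m := by
        have := Submodule.finrank_add_eq_of_isCompl hcompl
        rw [hfr, hfin] at this
        omega
      obtain ⟨f'', hf'', hnd'', halt'', hsim''⟩ :=
        ih (↥(LinearMap.ker (B.comp N) ⊓ LinearMap.ker B)) (resInv N hL') c hfr' (fun u => by
          apply Subtype.ext
          rw [resInv_apply, resInv_apply, hN]
          rfl)
      have hmemπ : ∀ u, u - B (N u) • v - B u • N v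
          ∈ LinearMap.ker (B.comp N) ⊓ LinearMap.ker B := by
        intro u
        rw [Submodule.mem_inf, LinearMap.mem_ker, LinearMap.mem_ker, LinearMap.comp_apply]
        constructor
        · simp only [map_sub, map_smul, hN, hB1, map_zero, smul_eq_mul, mul_one, mul_zero,
            sub_self]
        · simp only [map_sub, map_smul, hB1, hB0, smul_eq_mul, mul_one, mul_zero, sub_zero,
            sub_self]
      obtain ⟨π, hπ⟩ : ∃ π : V →ₗ[F] ↥(LinearMap.ker (B.comp N) ⊓ LinearMap.ker B),
          ∀ u, (π u : V) = u - B (N u) • v - B u • N v :=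
        ⟨LinearMap.codRestrict _
          (LinearMap.id - (B.comp N).smulRight v - B.smulRight (N v)) hmemπ, fun u => rfl⟩
      have hπL : ∀ w : ↥(LinearMap.ker (B.comp N) ⊓ LinearMap.ker B), π (w : V) = w := by
        intro w
        have hw := w.2
        rw [Submodule.mem_inf, LinearMap.mem_ker, LinearMap.mem_ker, LinearMap.comp_apply] at hw
        apply Subtype.ext
        rw [hπ, hw.1, hw.2, zero_smul, zero_smul, sub_zero, sub_zero]
      have hπM : ∀ u, π (c • u + N u) = c • π u + resInv N hL' (π u) := by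
        intro u
        apply Subtype.ext
        rw [hπ, Submodule.coe_add, Submodule.coe_smul, resInv_apply, hπ]
        simp only [map_add, map_sub, map_smul, hN, smul_eq_mul, add_zero, smul_zero, sub_zero,
          smul_sub, smul_smul, add_smul]
        abel
      refine ⟨fun u w => B (N u) * B w - B u * B (N w) + f'' (π u) (π w), ?_, ?_, ?_, ?_⟩
      · refine ⟨fun x y z => ?_, fun a x y => ?_, fun x y => ?_⟩
        · simp only [map_add, hf''.add_left]
          ring
        · simp only [map_smul, smul_eq_mul, hf''.smul_left]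
          ring
        · simp only [RingHom.id_apply]
          rw [hf''.symm (π x) (π y)]
          simp only [RingHom.id_apply]
          ring
      · intro u hu
        have h1 : π u = 0 := by
          apply hnd''
          intro w
          have := hu (w : V)
          have hw := w.2
          rw [Submodule.mem_inf, LinearMap.mem_ker, LinearMap.mem_ker, LinearMap.comp_apply] at hw
          simp only at this
          rw [hw.1, hw.2, mul_zero, mul_zero, sub_zero, zero_add, hπL] at this
          exact this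
        have h2 := hu v
        have h3 := hu (N v)
        have hπv : π v = 0 := by
          apply Subtype.ext
          rw [hπ, hB1, hB0, one_smul, zero_smul, sub_self, sub_zero]
          rfl
        have hπNv : π (N v) = 0 := by
          apply Subtype.ext
          rw [hπ, hN, map_zero, hB1, zero_smul, one_smul, sub_zero, sub_self]
          rfl
        simp only at h2 h3
        rw [hπv, hf''.zero_right, hB0, hB1, mul_zero, mul_one, zero_sub, add_zero,
          neg_eq_zero] at h2
        rw [hπNv, hf''.zero_right, hN, map_zero, hB1, mul_zero, mul_one, sub_zero, add_zero] at h3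
        have h4 := congrArg Subtype.val h1
        rw [hπ, h2, h3, zero_smul, zero_smul, sub_zero, sub_zero] at h4
        exact h4
      · intro u
        simp only
        rw [halt'']
        ring
      · intro u w
        simp only
        rw [hπM, hπM, hsim'']
        simp only [map_add, map_smul, hN, map_zero, smul_eq_mul, add_zero]
        ring

end NilSqForm

end Cfsg.Agent.Lib.Helper47
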