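import Cfsg.Agent.Lib.Helper47.SymForm
import Cfsg.Agent.Lib.Helper47.FormConj

/-!
# Isometries of odd order of a symmetric space

Fixed space / moved space decomposition, the twisted alternating form `B ((g - g⁻¹) x) y`,
conjugacy of isometries of odd order with the same characteristic polynomial, and extension of
an isometry of an embedded nondegenerate subspace.
-/

set_option autoImplicit false

namespace Cfsg.Agent.Lib.Helper47

open Polynomial Module

universe u

section FixMov

variable {F : Type*} [Field F] {V : Type*} [AddCommGroup V] [Module F V]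

lemma pow_apply_of_fix (g : Module.End F V) (x : V) (hx : g x = x) (k : ℕ) : (g ^ k) x = x := by
  induction k with
  | zero => rw [pow_zero, Module.End.one_apply]
  | succ k ih => rw [pow_succ, Module.End.mul_apply, hx, ih]

lemma mem_ker_sub_one (g : Module.End F V) (x : V) : x ∈ LinearMap.ker (g - 1) ↔ g x = x := by
  rw [LinearMap.mem_ker, LinearMap.sub_apply, Module.End.one_apply, sub_eq_zero]

lemma ker_sub_one_invt (g : Module.End F V) :
    LinearMap.ker (g - 1) ∈ Module.End.invtSubmodule g := by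
  rw [Module.End.mem_invtSubmodule_iff_forall_mem_of_mem]
  intro x hx
  rw [mem_ker_sub_one] at hx ⊢
  rw [hx, hx]

lemma range_sub_one_invt (g : Module.End F V) :
    LinearMap.range (g - 1) ∈ Module.End.invtSubmodule g := by
  rw [Module.End.mem_invtSubmodule_iff_forall_mem_of_mem]
  rintro _ ⟨z, rfl⟩
  refine ⟨g z, ?_⟩
  simp only [LinearMap.sub_apply, Module.End.one_apply, map_sub]

lemma resInv_pow_apply (g : Module.End F V) {p : Submodule F V}
    (hp : p ∈ Module.End.invtSubmodule g) (k : ℕ) (x : p) :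
    (((resInv g hp) ^ k) x : V) = (g ^ k) (x : V) := by
  induction k generalizing x with
  | zero => rw [pow_zero, pow_zero, Module.End.one_apply, Module.End.one_apply]
  | succ k ih =>
    rw [pow_succ, Module.End.mul_apply, ih, resInv_apply, pow_succ, Module.End.mul_apply]

lemma coe_sub_inv (g : Module.End F V) {p : Submodule F V}
    (hp : p ∈ Module.End.invtSubmodule g) (r : ℕ) (x : p) :
    (((resInv g hp - (resInv g hp) ^ (r - 1)) x : p) : V) = (g - g ^ (r - 1)) (x : V) := by
  rw [LinearMap.sub_apply, Submodule.coe_sub, resInv_apply, resInv_pow_apply, LinearMap.sub_apply]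

lemma geom_apply_fix (g : Module.End F V) (r : ℕ) (x : V) (hx : g x = x) :
    (∑ j ∈ Finset.range r, g ^ j) x = (r : F) • x := by
  rw [LinearMap.sum_apply, Finset.sum_congr rfl (fun j _ => pow_apply_of_fix g x hx j),
    Finset.sum_const, Finset.card_range, Nat.cast_smul_eq_nsmul]

lemma disjoint_ker_range (g : Module.End F V) (r : ℕ) (hrF : (r : F) ≠ 0) (hg : g ^ r = 1) :
    Disjoint (LinearMap.ker (g - 1)) (LinearMap.range (g - 1)) := by
  rw [Submodule.disjoint_def]
  rintro x hx ⟨z, rfl⟩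
  rw [mem_ker_sub_one] at hx
  have h1 := geom_apply_fix g r _ hx
  have h2 : (∑ j ∈ Finset.range r, g ^ j) * (g - 1) = 0 := by rw [geom_sum_mul, hg, sub_self]
  have h3 : (∑ j ∈ Finset.range r, g ^ j) ((g - 1) z) = 0 := by
    rw [← Module.End.mul_apply, h2, LinearMap.zero_apply]
  rw [h3] at h1
  exact (smul_eq_zero.mp h1.symm).resolve_left hrF

lemma eq_zero_of_fix_of_mem_range (g : Module.End F V) (r : ℕ) (hrF : (r : F) ≠ 0)
    (hg : g ^ r = 1) (x : V) (hx : g x = x) (hx' : x ∈ LinearMap.range (g - 1)) : x = 0 := by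
  have hmem : x ∈ LinearMap.ker (g - 1) ⊓ LinearMap.range (g - 1) :=
    ⟨(mem_ker_sub_one g x).mpr hx, hx'⟩
  rw [(disjoint_ker_range g r hrF hg).eq_bot] at hmem
  exact (Submodule.mem_bot F).mp hmem

lemma isCompl_ker_range [FiniteDimensional F V] (g : Module.End F V) (r : ℕ) (hrF : (r : F) ≠ 0)
    (hg : g ^ r = 1) : IsCompl (LinearMap.ker (g - 1)) (LinearMap.range (g - 1)) := by
  rw [Submodule.isCompl_iff_disjoint _ _
    (by rw [add_comm, LinearMap.finrank_range_add_finrank_ker])]
  exact disjoint_ker_range g r hrF hg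

/-- Decomposition of a vector along `ker (g - 1) ⊕ range (g - 1)`. -/
lemma exists_fix_decomp [FiniteDimensional F V] (g : Module.End F V) (r : ℕ) (hrF : (r : F) ≠ 0)
    (hg : g ^ r = 1) (x : V) :
    ∃ k w : V, g k = k ∧ w ∈ LinearMap.range (g - 1) ∧ x = k + w := by
  have h := (isCompl_ker_range g r hrF hg).sup_eq_top
  have hx : x ∈ LinearMap.ker (g - 1) ⊔ LinearMap.range (g - 1) := by rw [h]; trivial
  obtain ⟨k, hk, w, hw, rfl⟩ := Submodule.mem_sup.mp hx
  exact ⟨k, w, (mem_ker_sub_one g k).mp hk, hw, rfl⟩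

lemma fix_of_sub_inv (g : Module.End F V) (r : ℕ) (hodd : Odd r) (hg : g ^ r = 1) (x : V)
    (h : (g - g ^ (r - 1)) x = 0) : g x = x := by
  obtain ⟨k, hk⟩ := hodd
  have hr : 0 < r := by omega
  have h1 : g x = (g ^ (r - 1)) x := by
    rwa [LinearMap.sub_apply, sub_eq_zero] at h
  have h2 : (g ^ 2) x = x := by
    rw [pow_two, Module.End.mul_apply, h1, ← Module.End.mul_apply, ← pow_succ',
      Nat.sub_add_cancel hr, hg, Module.End.one_apply]
  have h3 : (g ^ (2 * k)) x = x := by
    rw [pow_mul]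
    exact pow_apply_of_fix (g ^ 2) x h2 k
  have h4 : (g ^ r) x = g x := by
    rw [hk, pow_succ', Module.End.mul_apply, h3]
  rw [← h4, hg, Module.End.one_apply]

lemma exists_sub_inv_eq [FiniteDimensional F V] (g : Module.End F V) (r : ℕ) (hodd : Odd r)
    (hrF : (r : F) ≠ 0) (hg : g ^ r = 1) (u : LinearMap.range (g - 1)) :
    ∃ x : LinearMap.range (g - 1),
      u = (resInv g (range_sub_one_invt g) - (resInv g (range_sub_one_invt g)) ^ (r - 1)) x := by
  have hinj : Function.Injective
      (resInv g (range_sub_one_invt g) - (resInv g (range_sub_one_invt g)) ^ (r - 1)) := by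
    rw [← LinearMap.ker_eq_bot, LinearMap.ker_eq_bot']
    intro x hx
    have h1 : (g - g ^ (r - 1)) (x : V) = 0 := by
      rw [← coe_sub_inv g (range_sub_one_invt g) r x, hx]
      rfl
    exact Subtype.ext (eq_zero_of_fix_of_mem_range g r hrF hg x
      (fix_of_sub_inv g r hodd hg x h1) x.2)
  obtain ⟨x, hx⟩ := (LinearMap.injective_iff_surjective.mp hinj) u
  exact ⟨x, hx.symm⟩

lemma charpoly_resInv_ker [FiniteDimensional F V] (g : Module.End F V) :
    (resInv g (ker_sub_one_invt g)).charpoly = (X - 1) ^ finrank F (LinearMap.ker (g - 1)) := by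
  have : resInv g (ker_sub_one_invt g) = 1 := by
    apply LinearMap.ext
    intro x
    apply Subtype.ext
    rw [resInv_apply, Module.End.one_apply]
    exact (mem_ker_sub_one g x).mp x.2
  rw [this, LinearMap.charpoly_one]

lemma eval_one_charpoly_resInv_range [FiniteDimensional F V] (g : Module.End F V) (r : ℕ)
    (hrF : (r : F) ≠ 0) (hg : g ^ r = 1) :
    (resInv g (range_sub_one_invt g)).charpoly.eval 1 ≠ 0 := by
  intro h0
  have hroot : (resInv g (range_sub_one_invt g)).charpoly.IsRoot 1 := h0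
  rw [← Module.End.hasEigenvalue_iff_isRoot_charpoly] at hroot
  obtain ⟨x, hx⟩ := hroot.exists_hasEigenvector
  have hx1 : resInv g (range_sub_one_invt g) x = x := by
    have := hx.apply_eq_smul
    rwa [one_smul] at this
  have hx2 : g (x : V) = x := by
    have := congrArg Subtype.val hx1
    rwa [resInv_apply] at this
  exact hx.2 (Subtype.ext (eq_zero_of_fix_of_mem_range g r hrF hg x hx2 x.2))

omit [AddCommGroup V] [Module F V] in
lemma pow_mul_cancel_of_eval_ne {a b : ℕ} {P Q : F[X]}
    (h : (X - 1 : F[X]) ^ a * P = (X - 1) ^ b * Q) (hP : P.eval 1 ≠ 0) (hQ : Q.eval 1 ≠ 0) :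
    a = b ∧ P = Q := by
  have hX : (X - 1 : F[X]) ≠ 0 := by
    have := X_sub_C_ne_zero (1 : F)
    rwa [C_1] at this
  have key : ∀ (a b : ℕ) (P Q : F[X]), a ≤ b → (X - 1 : F[X]) ^ a * P = (X - 1) ^ b * Q →
      P.eval 1 ≠ 0 → a = b ∧ P = Q := by
    intro a b P Q hab h hP
    obtain ⟨d, rfl⟩ := Nat.exists_eq_add_of_le hab
    rw [pow_add, mul_assoc] at h
    have h1 : P = (X - 1) ^ d * Q := mul_left_cancel₀ (pow_ne_zero a hX) h
    rcases Nat.eq_zero_or_pos d with h0 | hpos
    · subst h0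
      rw [pow_zero, one_mul] at h1
      exact ⟨rfl, h1⟩
    · exfalso
      apply hP
      rw [h1, eval_mul, eval_pow, eval_sub, eval_X, eval_one, sub_self, zero_pow hpos.ne',
        zero_mul]
  rcases le_total a b with hab | hab
  · exact key a b P Q hab h hP
  · obtain ⟨h1, h2⟩ := key b a Q P hab h.symm hQ
    exact ⟨h1.symm, h2.symm⟩

variable {B : V → V → F} {ε : F}

lemma fix_orth_range (hB : IsSForm (RingHom.id F) ε B) (g : Module.End F V)
    (hgi : ∀ x y, B (g x) (g y) = B x y) (x : V) (hx : g x = x) (w : V)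
    (hw : w ∈ LinearMap.range (g - 1)) : B x w = 0 := by
  obtain ⟨z, rfl⟩ := hw
  have h1 : B x (g z) = B (g x) (g z) := by rw [hx]
  rw [LinearMap.sub_apply, Module.End.one_apply, hB.sub_right, h1, hgi, sub_self]

lemma form_inv_left (g : Module.End F V)
    (hgi : ∀ x y, B (g x) (g y) = B x y) (r : ℕ) (hr : 0 < r) (hg : g ^ r = 1) (x y : V) :
    B ((g ^ (r - 1)) x) y = B x (g y) := by
  have h1 : g ((g ^ (r - 1)) x) = x := by
    rw [← Module.End.mul_apply, ← pow_succ', Nat.sub_add_cancel hr, hg, Module.End.one_apply]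
  rw [← hgi ((g ^ (r - 1)) x) y, h1]

lemma form_inv_right (g : Module.End F V)
    (hgi : ∀ x y, B (g x) (g y) = B x y) (r : ℕ) (hr : 0 < r) (hg : g ^ r = 1) (x y : V) :
    B x ((g ^ (r - 1)) y) = B (g x) y := by
  have h1 : g ((g ^ (r - 1)) y) = y := by
    rw [← Module.End.mul_apply, ← pow_succ', Nat.sub_add_cancel hr, hg, Module.End.one_apply]
  rw [← hgi x ((g ^ (r - 1)) y), h1]

/-- The twisted form `B ((g - g⁻¹) x) y`. -/
def dForm (B : V → V → F) (g : Module.End F V) (r : ℕ) (x y : V) : F :=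
  B ((g - g ^ (r - 1)) x) y

lemma dForm_eq (hB : IsSForm (RingHom.id F) ε B) (g : Module.End F V) (r : ℕ) (x y : V) :
    dForm B g r x y = B (g x) y - B ((g ^ (r - 1)) x) y := by
  rw [dForm, LinearMap.sub_apply, hB.sub_left]

lemma dForm_isSForm (hB : IsSForm (RingHom.id F) ε B) (g : Module.End F V)
    (hgi : ∀ x y, B (g x) (g y) = B x y) (r : ℕ) (hr : 0 < r) (hg : g ^ r = 1) :
    IsSForm (RingHom.id F) (-ε) (dForm B g r) where
  add_left x y z := by simp only [dForm, map_add, hB.add_left]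
  smul_left c x y := by simp only [dForm, map_smul, hB.smul_left]
  symm x y := by
    rw [dForm_eq hB, dForm_eq hB, hB.symm x (g y), hB.symm x ((g ^ (r - 1)) y),
      form_inv_right g hgi r hr hg x y, ← form_inv_left g hgi r hr hg x y]
    simp only [RingHom.id_apply]
    ring

lemma dForm_alt (hB : IsSForm (RingHom.id F) 1 B) (g : Module.End F V)
    (hgi : ∀ x y, B (g x) (g y) = B x y) (r : ℕ) (hr : 0 < r) (hg : g ^ r = 1) (x : V) :
    dForm B g r x x = 0 := by
  rw [dForm_eq hB, form_inv_left g hgi r hr hg x x, sym_comm hB x (g x), sub_self]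

lemma dForm_isometry (g : Module.End F V) (hgi : ∀ x y, B (g x) (g y) = B x y) (r : ℕ)
    (x y : V) : dForm B g r (g x) (g y) = dForm B g r x y := by
  have h1 : (g - g ^ (r - 1)) (g x) = g ((g - g ^ (r - 1)) x) := by
    rw [← Module.End.mul_apply, ← Module.End.mul_apply]
    congr 1
    rw [sub_mul, mul_sub, ← pow_succ, ← pow_succ']
  rw [dForm, h1, hgi]
  rfl

lemma nondeg_res_range [FiniteDimensional F V] (hB : IsSForm (RingHom.id F) ε B)
    (hnd : Nondeg B) (g : Module.End F V) (hgi : ∀ x y, B (g x) (g y) = B x y) (r : ℕ)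
    (hrF : (r : F) ≠ 0) (hg : g ^ r = 1) : Nondeg (resForm B (LinearMap.range (g - 1))) := by
  intro x hx
  apply Subtype.ext
  apply hnd
  intro y
  obtain ⟨k, w, hk, hw, rfl⟩ := exists_fix_decomp g r hrF hg y
  rw [hB.add_right]
  have h1 : B (x : V) k = 0 := hB.refl (fix_orth_range hB g hgi k hk x x.2)
  have h2 : B (x : V) w = 0 := hx ⟨w, hw⟩
  rw [h1, h2, add_zero]

lemma fix_of_orth_range [FiniteDimensional F V] (hB : IsSForm (RingHom.id F) ε B)
    (hnd : Nondeg B) (g : Module.End F V) (hgi : ∀ x y, B (g x) (g y) = B x y) (r : ℕ)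
    (hrF : (r : F) ≠ 0) (hg : g ^ r = 1) (y : V)
    (hy : ∀ w ∈ LinearMap.range (g - 1), B y w = 0) : g y = y := by
  obtain ⟨k, w, hk, hw, rfl⟩ := exists_fix_decomp g r hrF hg y
  have hw0 : (⟨w, hw⟩ : LinearMap.range (g - 1)) = 0 := by
    apply nondeg_res_range hB hnd g hgi r hrF hg
    intro z
    rw [resForm_apply]
    have h1 := hy z z.2
    rw [hB.add_left, fix_orth_range hB g hgi k hk z z.2, zero_add] at h1
    exact h1
  have hw0' : w = 0 := congrArg Subtype.val hw0
  rw [hw0', add_zero, hk]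

lemma nondeg_dForm_range [FiniteDimensional F V] (hB : IsSForm (RingHom.id F) ε B)
    (hnd : Nondeg B) (g : Module.End F V) (hgi : ∀ x y, B (g x) (g y) = B x y) (r : ℕ)
    (hodd : Odd r) (hrF : (r : F) ≠ 0) (hg : g ^ r = 1) :
    Nondeg (resForm (dForm B g r) (LinearMap.range (g - 1))) := by
  have hr : 0 < r := hodd.pos
  intro x hx
  have hDx : (g - g ^ (r - 1)) (x : V) = 0 := by
    apply hnd
    intro y
    obtain ⟨k, w, hk, hw, rfl⟩ := exists_fix_decomp g r hrF hg y
    rw [hB.add_right]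
    have h2 : B ((g - g ^ (r - 1)) (x : V)) w = 0 := hx ⟨w, hw⟩
    have h1 : B ((g - g ^ (r - 1)) (x : V)) k = 0 := by
      have e : B (g (x : V)) k = B (g (x : V)) (g k) := by rw [hk]
      rw [LinearMap.sub_apply, hB.sub_left, form_inv_left g hgi r hr hg, hk, e, hgi, sub_self]
    rw [h1, h2, add_zero]
  exact Subtype.ext (eq_zero_of_fix_of_mem_range g r hrF hg x
    (fix_of_sub_inv g r hodd hg x hDx) x.2)

end FixMov

end Cfsg.Agent.Lib.Helper47
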