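import Cfsg.Agent.Lib.Helper47.InvSp
import Cfsg.Agent.Lib.Helper47.SylowSL
import Cfsg.Prelude.Def_GeometricClasses

/-!
# Involutions of `PSL_n(q)` and subfield subgroups

Conjugacy of elements with scalar square into the subfield group `GL_n(F₀)·Z`, the
involutions with non-square scalar square, and the parity of the index of the subfield group.
-/

set_option autoImplicit false

namespace Cfsg.Agent.Lib.Helper47

open Polynomial Module Matrix
open scoped Pointwise

universe u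

section NT2

variable {F : Type*} [Field F] [Fintype F] {q : ℕ}

/-- A non-square `w` with `w^m = 1` forces `v₂(q-1) < v₂(2m)`. -/
lemma nonsq_pow_ne_one (hq : Fintype.card F = q) (w : F) (hw : ∀ c : F, c ^ 2 ≠ w)
    (m : ℕ) (hm : m ≠ 0) (hv : padicValNat 2 (2 * m) ≤ padicValNat 2 (q - 1)) : w ^ m ≠ 1 := by
  intro hwm
  have hq2 : 1 < q := hq ▸ Fintype.one_lt_card
  have hq1 : q - 1 ≠ 0 := by omega
  obtain ⟨γ, t, hγ0, hgen, ht, hγq, hprim⟩ := exists_gen_root hq (dvd_refl (q - 1))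
  have ht1 : t = 1 := by
    have : (q - 1) * t = (q - 1) * 1 := by rw [← ht, mul_one]
    exact Nat.eq_of_mul_eq_mul_left (by omega) this
  rw [ht1, pow_one] at hprim
  have hw0 : w ≠ 0 := by
    rintro rfl
    exact hw 0 (by ring)
  obtain ⟨a, ha⟩ := hgen w hw0
  have hodd : ¬ 2 ∣ a := by
    rintro ⟨b, rfl⟩
    apply hw (γ ^ b)
    rw [ha, ← pow_mul, mul_comm]
  have hdvd : q - 1 ∣ a * m := by
    rw [← hprim.pow_eq_one_iff_dvd, pow_mul, ← ha]
    exact hwm
  have h2dvd : 2 ^ padicValNat 2 (q - 1) ∣ m := by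
    have h1 : 2 ^ padicValNat 2 (q - 1) ∣ a * m := pow_padicValNat_dvd.trans hdvd
    have hcop : Nat.Coprime (2 ^ padicValNat 2 (q - 1)) a := by
      apply Nat.Coprime.pow_left
      exact (Nat.Prime.coprime_iff_not_dvd Nat.prime_two).mpr hodd
    exact hcop.dvd_of_dvd_mul_left h1
  have h3 : padicValNat 2 (q - 1) ≤ padicValNat 2 m :=
    (padicValNat_dvd_iff_le hm).mp h2dvd
  have h4 : padicValNat 2 (2 * m) = padicValNat 2 m + 1 := by
    rw [padicValNat.mul (by norm_num) hm, padicValNat_self, add_comm]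
  omega

/-- If `v₂(q-1) < v₂(2m)` and `q` is odd there is a non-square `w` with `w^m = 1`. -/
lemma exists_nonsq_pow_eq_one (hq : Fintype.card F = q) (hodd : Odd q) (m : ℕ)
    (hv : padicValNat 2 (q - 1) < padicValNat 2 (2 * m)) :
    ∃ w : F, (∀ c : F, c ^ 2 ≠ w) ∧ w ^ m = 1 := by
  have hq2 : 1 < q := hq ▸ Fintype.one_lt_card
  have hq1 : q - 1 ≠ 0 := by omega
  have hm : m ≠ 0 := by
    rintro rfl
    simp at hv
  obtain ⟨γ, t, hγ0, hgen, ht, hγq, hprim⟩ :=
    exists_gen_root hq (pow_padicValNat_dvd : 2 ^ padicValNat 2 (q - 1) ∣ q - 1)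
  have h4 : padicValNat 2 (2 * m) = padicValNat 2 m + 1 := by
    rw [padicValNat.mul (by norm_num) hm, padicValNat_self, add_comm]
  have h2dvd : 2 ^ padicValNat 2 (q - 1) ∣ m :=
    (padicValNat_dvd_iff_le hm).mpr (by omega)
  refine ⟨γ ^ t, ?_, ?_⟩
  · intro c hc
    obtain ⟨s, hs⟩ := hodd
    have hc0 : c ≠ 0 := by
      rintro rfl
      rw [zero_pow two_ne_zero] at hc
      exact pow_ne_zero _ hγ0 hc.symm
    have hcq : c ^ (q - 1) = 1 := by
      rw [← hq]
      exact FiniteField.pow_card_sub_one_eq_one c hc0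
    have h1 : (γ ^ t) ^ s = 1 := by
      rw [← hc, ← pow_mul, ← hcq]
      congr 1
      omega
    have h5 : 2 ^ padicValNat 2 (q - 1) ∣ s := hprim.dvd_of_pow_eq_one _ h1
    have h6 : 2 ^ (padicValNat 2 (q - 1) + 1) ∣ q - 1 := by
      have h7 : 2 ^ padicValNat 2 (q - 1) * 2 ∣ s * 2 := Nat.mul_dvd_mul h5 (dvd_refl 2)
      have h8 : s * 2 = q - 1 := by omega
      rw [h8] at h7
      rw [pow_succ]
      exact h7
    exact pow_succ_padicValNat_not_dvd hq1 h6
  · obtain ⟨m', rfl⟩ := h2dvd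
    rw [pow_mul, hprim.pow_eq_one, one_pow]

end NT2


section Sub

variable {F : Type*} [Field F] {n : ℕ}

/-- A scalar multiple of an invertible matrix with entries in `F₀` lies in the subfield group. -/
lemma mem_subfieldSubgroup_one (F₀ : Subfield F) (Y : GL (Fin n) F) (c : F) (hc : c ≠ 0)
    (Y' : Matrix (Fin n) (Fin n) F) (hY : (Y : Matrix (Fin n) (Fin n) F) = c • Y')
    (hent : ∀ i j, Y' i j ∈ F₀) : Y ∈ Cfsg.Geo.subfieldSubgroup F₀ 1 := by
  unfold Cfsg.Geo.subfieldSubgroup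
  have hdetY : (Y : Matrix (Fin n) (Fin n) F).det ≠ 0 := (Matrix.isUnits_det_units Y).ne_zero
  have hmap : (F₀.subtype : F₀ →+* F).mapMatrix
      (Matrix.of fun i j => (⟨Y' i j, hent i j⟩ : F₀)) = Y' := by
    ext i j
    rfl
  have hne : (Matrix.of fun i j => (⟨Y' i j, hent i j⟩ : F₀)).det ≠ 0 := by
    intro h0
    have h1 := RingHom.map_det (F₀.subtype : F₀ →+* F)
      (Matrix.of fun i j => (⟨Y' i j, hent i j⟩ : F₀))
    rw [h0, map_zero, hmap] at h1
    apply hdetY
    rw [hY, Matrix.det_smul, ← h1, mul_zero]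
  obtain ⟨s, hs⟩ : ∃ s : GL (Fin n) F,
      (s : Matrix (Fin n) (Fin n) F) = c • (1 : Matrix (Fin n) (Fin n) F) :=
    ⟨⟨c • 1, c⁻¹ • 1, by
        rw [Matrix.smul_mul, Matrix.mul_smul, Matrix.one_mul, smul_smul, mul_inv_cancel₀ hc,
          one_smul], by
        rw [Matrix.smul_mul, Matrix.mul_smul, Matrix.one_mul, smul_smul, inv_mul_cancel₀ hc,
          one_smul]⟩, rfl⟩
  refine Subgroup.mem_map.mpr ⟨Y, ?_, ?_⟩
  · have hYe : Y = Matrix.GeneralLinearGroup.map (F₀.subtype : F₀ →+* F)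
        (Matrix.GeneralLinearGroup.mkOfDetNeZero _ hne) * s := by
      apply Units.ext
      rw [Units.val_mul, hs, hY, Matrix.mul_smul, Matrix.mul_one]
      congr 1
    rw [hYe]
    exact Subgroup.mul_mem_sup ⟨_, rfl⟩ ((Cfsg.Geo.mem_scalars_iff s).mpr ⟨Units.mk0 c hc, hs⟩)
  · show (1 : GL (Fin n) F) * Y * 1⁻¹ = Y
    group

/-- Elements of the subfield group are scalar multiples of matrices over `F₀`. -/
lemma exists_of_mem_subfieldSubgroup_one (F₀ : Subfield F) (Y : GL (Fin n) F)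
    (hY : Y ∈ Cfsg.Geo.subfieldSubgroup F₀ 1) :
    ∃ (c : F) (Y₀ : Matrix (Fin n) (Fin n) F₀), c ≠ 0 ∧
      (Y : Matrix (Fin n) (Fin n) F) = c • Y₀.map (F₀.subtype : F₀ →+* F) := by
  unfold Cfsg.Geo.subfieldSubgroup at hY
  obtain ⟨h, hh, rfl⟩ := Subgroup.mem_map.mp hY
  have hmem : h ∈ (((Matrix.GeneralLinearGroup.map (F₀.subtype : F₀ →+* F)).range :
      Subgroup (GL (Fin n) F)) : Set (GL (Fin n) F))
      * ((Cfsg.Geo.scalars (Fin n) F : Subgroup (GL (Fin n) F)) : Set (GL (Fin n) F)) := by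
    rw [← Subgroup.mul_normal]
    exact hh
  obtain ⟨g, ⟨g₀, rfl⟩, s, hs, rfl⟩ := Set.mem_mul.mp hmem
  obtain ⟨c, hc⟩ := (Cfsg.Geo.mem_scalars_iff s).mp hs
  refine ⟨c, (g₀ : Matrix (Fin n) (Fin n) F₀), c.ne_zero, ?_⟩
  show (((1 : GL (Fin n) F) * (Matrix.GeneralLinearGroup.map (F₀.subtype : F₀ →+* F) g₀ * s)
    * 1⁻¹ : GL (Fin n) F) : Matrix (Fin n) (Fin n) F) = _
  rw [one_mul, inv_one, mul_one, Units.val_mul, hc, Matrix.mul_smul, Matrix.mul_one]
  congr 1

end Sub

section SubSq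

variable {F : Type*} [Field F] [Fintype F] {n : ℕ}

/-- Elements of the index-two subfield are squares (odd characteristic). -/
lemma subfield_two_isSquare {q q₀ : ℕ} (hq : Fintype.card F = q) (F₀ : Subfield F)
    (hF₀ : Nat.card ↥F₀ = q₀) (hqk : q = q₀ ^ 2) (hodd : Odd q) (a : F) (ha : a ∈ F₀) :
    ∃ c : F, c ^ 2 = a := by
  classical
  by_cases ha0 : a = 0
  · exact ⟨0, by rw [ha0]; ring⟩
  have hq2 : 1 < q := hq ▸ Fintype.one_lt_card
  have hq₀2 : 1 < q₀ := by
    by_contra hlt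
    have : q₀ = 0 ∨ q₀ = 1 := by omega
    rcases this with h | h <;> rw [h] at hqk <;> simp at hqk <;> omega
  have hodd₀ : Odd q₀ := by
    rw [hqk] at hodd
    exact (Nat.odd_pow_iff two_ne_zero).mp hodd
  have : Fintype ↥F₀ := Fintype.ofFinite _
  have hcard : Fintype.card ↥F₀ = q₀ := by rw [← Nat.card_eq_fintype_card, hF₀]
  have ha1 : a ^ (q₀ - 1) = 1 := by
    have h1 := FiniteField.pow_card_sub_one_eq_one (⟨a, ha⟩ : ↥F₀)
      (fun h => ha0 (congrArg Subtype.val h))
    rw [hcard] at h1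
    have h2 := congrArg (F₀.subtype : F₀ →+* F) h1
    rw [map_pow, map_one] at h2
    exact h2
  obtain ⟨γ, t, hγ0, hgen, ht, hγq, hprim⟩ := exists_gen_root hq (dvd_refl (q - 1))
  have ht1 : t = 1 := by
    have : (q - 1) * t = (q - 1) * 1 := by rw [← ht, mul_one]
    exact Nat.eq_of_mul_eq_mul_left (by omega) this
  rw [ht1, pow_one] at hprim
  obtain ⟨j, hj⟩ := hgen a ha0
  have hdvd : q - 1 ∣ j * (q₀ - 1) := by
    rw [← hprim.pow_eq_one_iff_dvd, pow_mul, ← hj]
    exact ha1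
  have hfac : q - 1 = (q₀ + 1) * (q₀ - 1) := by
    rw [hqk]
    obtain ⟨b, rfl⟩ : ∃ b, q₀ = b + 1 := ⟨q₀ - 1, by omega⟩
    simp only [Nat.add_sub_cancel]
    have : (b + 1) ^ 2 = (b + 1 + 1) * b + 1 := by ring
    omega
  rw [hfac] at hdvd
  have h3 : q₀ + 1 ∣ j := Nat.dvd_of_mul_dvd_mul_right (by omega) hdvd
  have h4 : 2 ∣ j := by
    obtain ⟨s, hs⟩ := hodd₀
    exact (Dvd.intro (s + 1) (by omega)).trans h3
  obtain ⟨j', rfl⟩ := h4
  exact ⟨γ ^ j', by rw [hj, ← pow_mul, mul_comm]⟩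

end SubSq


section NilBasis

/-- A nil-square endomorphism has a basis which it maps into the basis or to zero. -/
theorem nilsq_basis {F : Type*} [Field F] :
    ∀ (d : ℕ) (V : Type u) [AddCommGroup V] [Module F V] [FiniteDimensional F V]
      (N : Module.End F V), finrank F V = d → (∀ u, N (N u) = 0) →
      ∃ (ι : Type) (_ : Fintype ι) (b : Basis ι F V),
        ∀ j, N (b j) = 0 ∨ ∃ j', N (b j) = b j' := by
  intro d
  induction d using Nat.strong_induction_on with
  | _ d ih =>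
    intro V _ _ _ N hd hN
    by_cases h0 : ∀ u, N u = 0
    · exact ⟨Fin d, inferInstance, Module.finBasisOfFinrankEq F V hd, fun j => Or.inl (h0 _)⟩
    · push Not at h0
      obtain ⟨v, hv⟩ := h0
      obtain ⟨B, hB1, hB0⟩ := nilsq_exists_dual N hN v hv
      obtain ⟨hL, hL', hcompl, hfr⟩ := nilsq_split N hN v B hB1 hB0
      have hsum := Submodule.finrank_add_eq_of_isCompl hcompl
      have hli : LinearIndependent F ![v, N v] := by
        rw [LinearIndependent.pair_iff]
        intro s t hst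
        have h1 := congrArg (fun u => B (N u)) hst
        simp only [map_add, map_smul, hN, map_zero, smul_zero, add_zero, hB1, smul_eq_mul,
          mul_one] at h1
        have h2 := congrArg B hst
        rw [map_add, map_smul, map_smul, hB0, hB1, smul_eq_mul, smul_eq_mul, mul_zero, mul_one,
          zero_add, map_zero] at h2
        exact ⟨h1, h2⟩
      obtain ⟨ι', hι', b', hb'⟩ := ih (d - 2) (by omega)
        ↥(LinearMap.ker (B.comp N) ⊓ LinearMap.ker B) (resInv N hL') (by omega)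
        (fun u => by
          apply Subtype.ext
          rw [resInv_apply, resInv_apply, hN]
          rfl)
      refine ⟨Fin 2 ⊕ ι', inferInstance,
        ((Basis.span hli).prod b').map (Submodule.prodEquivOfIsCompl _ _ hcompl), ?_⟩
      have eL : ∀ j : Fin 2, (((Basis.span hli).prod b').map
          (Submodule.prodEquivOfIsCompl _ _ hcompl)) (Sum.inl j) = ![v, N v] j := by
        intro j
        rw [Basis.map_apply, Submodule.coe_prodEquivOfIsCompl']
        simp [Basis.span_apply]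
      have eR : ∀ j : ι', (((Basis.span hli).prod b').map
          (Submodule.prodEquivOfIsCompl _ _ hcompl)) (Sum.inr j) = (b' j : V) := by
        intro j
        rw [Basis.map_apply, Submodule.coe_prodEquivOfIsCompl']
        simp
      rintro (j | j)
      · rw [eL]
        fin_cases j
        · right
          refine ⟨Sum.inl 1, ?_⟩
          rw [eL]
          rfl
        · left
          exact hN v
      · rw [eR]
        rcases hb' j with h | ⟨j', h⟩
        · left
          have h1 := congrArg Subtype.val h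
          rw [resInv_apply] at h1
          exact h1
        · right
          refine ⟨Sum.inr j', ?_⟩
          rw [eR]
          have h1 := congrArg Subtype.val h
          rw [resInv_apply] at h1
          exact h1

end NilBasis

section NilMat

variable {F : Type u} [Field F] {n : ℕ}

/-- A nil-square matrix is conjugate to a matrix with entries in `{0,1}`. -/
theorem nilsq_conj_zero_one (N : Matrix (Fin n) (Fin n) F) (hN : N * N = 0) :
    ∃ (P N₀ : Matrix (Fin n) (Fin n) F), IsUnit P.det ∧ P * N = N₀ * P ∧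
      ∀ i j, N₀ i j = 0 ∨ N₀ i j = 1 := by
  classical
  have hN' : ∀ u, toLin' N (toLin' N u) = 0 := by
    intro u
    rw [← LinearMap.comp_apply, ← Matrix.toLin'_mul, hN, map_zero, LinearMap.zero_apply]
  obtain ⟨ι, hι, b, hb⟩ := nilsq_basis n (Fin n → F) (toLin' N) (by simp) hN'
  have hcard : Fintype.card ι = n := by
    rw [← Module.finrank_eq_card_basis b]
    simp
  obtain ⟨e, -⟩ : ∃ e : ι ≃ Fin n, e = e := ⟨Fintype.equivFinOfCardEq hcard, rfl⟩
  obtain ⟨φ, hφ⟩ : ∃ φ : (Fin n → F) ≃ₗ[F] (Fin n → F), φ = (b.reindex e).equivFun := ⟨_, rfl⟩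
  have hφb : ∀ j : ι, φ (b j) = Pi.single (e j) 1 := by
    intro j
    funext i
    have h1 := Basis.equivFun_self (b.reindex e) (e j) i
    rw [Basis.reindex_apply, Equiv.symm_apply_apply] at h1
    rw [hφ, h1, Pi.single_apply]
    by_cases h : e j = i
    · rw [if_pos h, if_pos h.symm]
    · rw [if_neg h, if_neg (fun h' => h h'.symm)]
  refine ⟨LinearMap.toMatrix' φ.toLinearMap,
    LinearMap.toMatrix' (φ.toLinearMap ∘ₗ toLin' N ∘ₗ φ.symm.toLinearMap), ?_, ?_, ?_⟩
  · have : LinearMap.toMatrix' φ.toLinearMap * LinearMap.toMatrix' φ.symm.toLinearMap = 1 := by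
      rw [← LinearMap.toMatrix'_comp]; simp
    exact Matrix.isUnit_det_of_right_inverse this
  · apply Matrix.toLin'.injective
    rw [Matrix.toLin'_mul, Matrix.toLin'_mul, Matrix.toLin'_toMatrix', Matrix.toLin'_toMatrix']
    apply LinearMap.ext
    intro x
    simp
  · intro i j
    rw [LinearMap.toMatrix'_apply]
    have h1 : (Pi.single j 1 : Fin n → F) = φ (b (e.symm j)) := by
      rw [hφb, Equiv.apply_symm_apply]
    rw [h1]
    simp only [LinearMap.comp_apply, LinearEquiv.coe_coe, LinearEquiv.symm_apply_apply]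
    rcases hb (e.symm j) with h | ⟨j', h⟩
    · left
      rw [h, map_zero]
      rfl
    · rw [h, hφb, Pi.single_apply]
      by_cases h' : i = e j'
      · right; rw [if_pos h']
      · left; rw [if_neg h']

omit [Field F] in
lemma conj_val_eq {F : Type*} [Field F] (A X : GL (Fin n) F) (Y : Matrix (Fin n) (Fin n) F)
    (h : (A : Matrix (Fin n) (Fin n) F) * (X : Matrix (Fin n) (Fin n) F)
      = Y * (A : Matrix (Fin n) (Fin n) F)) :
    ((A * X * A⁻¹ : GL (Fin n) F) : Matrix (Fin n) (Fin n) F) = Y := by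
  rw [Units.val_mul, Units.val_mul, h, Matrix.mul_assoc, ← Units.val_mul, mul_inv_cancel,
    Units.val_one, Matrix.mul_one]

end NilMat

section Good

variable {F : Type u} [Field F] [Fintype F] {n : ℕ}

/-- The determinant of a matrix whose square is a non-square scalar. -/
lemma det_of_sq_nonsq (M : Matrix (Fin n) (Fin n) F) (z : F) (hz : z ≠ 0)
    (hM : M * M = z • (1 : Matrix (Fin n) (Fin n) F)) (hns : ∀ c : F, c ^ 2 ≠ z) :
    ∃ m : ℕ, n = 2 * m ∧ M.det = (-z) ^ m := by
  rcases inv_classes M z hz hM with ⟨-, -, ⟨c, -, -, hc, -, -⟩ | ⟨-, m, hm, hcp⟩⟩ | ⟨-, c, hc, -⟩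
  · exact absurd hc.symm (hns c)
  · refine ⟨m, hm, ?_⟩
    rw [Matrix.det_eq_sign_charpoly_coeff, hcp, Fintype.card_fin, hm, pow_mul, neg_one_sq, one_pow,
      one_mul, coeff_zero_eq_eval_zero, eval_pow, eval_sub, eval_pow, eval_X, eval_C]
    congr 1
    ring
  · exact absurd hc.symm (hns c)

/-- Involutions of `PSL_n` whose square is a square scalar are conjugate into any subfield
group. -/
theorem subfield_inv_conj (hn : n ≠ 0) (F₀ : Subfield F)
    (x : Matrix.SpecialLinearGroup (Fin n) F) (z : F)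
    (hz : ((x ^ 2 : Matrix.SpecialLinearGroup (Fin n) F) : Matrix (Fin n) (Fin n) F)
      = z • (1 : Matrix (Fin n) (Fin n) F))
    (hsq : (2 : F) ≠ 0 → ∃ c : F, c ^ 2 = z) :
    ∃ P : Matrix.SpecialLinearGroup (Fin n) F, P⁻¹ * x * P ∈
      (Cfsg.Geo.subfieldSubgroup F₀ 1).comap
      (Matrix.SpecialLinearGroup.toGL : Matrix.SpecialLinearGroup (Fin n) F →* GL (Fin n) F) := by
  classical
  have : NeZero n := ⟨hn⟩
  have : Nonempty (Fin n) := ⟨⟨0, Nat.pos_of_ne_zero hn⟩⟩
  obtain ⟨M, hMx⟩ : ∃ M : Matrix (Fin n) (Fin n) F, M = (x : Matrix (Fin n) (Fin n) F) :=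
    ⟨_, rfl⟩
  have hM : M * M = z • (1 : Matrix (Fin n) (Fin n) F) := by
    rw [hMx, ← hz, pow_two, Matrix.SpecialLinearGroup.coe_mul]
  have hz0 : z ≠ 0 := by
    rintro rfl
    have h1 := congrArg Matrix.det hM
    rw [Matrix.det_mul, hMx, x.det_coe, zero_smul, Matrix.det_zero] at h1
    rw [mul_one] at h1
    exact one_ne_zero h1
  have hxM : ((Matrix.SpecialLinearGroup.toGL x : GL (Fin n) F) : Matrix (Fin n) (Fin n) F) = M := by
    rw [hMx]
    rfl
  have key : ∃ A : GL (Fin n) F, A * Matrix.SpecialLinearGroup.toGL x * A⁻¹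
      ∈ Cfsg.Geo.subfieldSubgroup F₀ 1 := by
    rcases inv_classes M z hz0 hM with ⟨h2, hs, ⟨c, a, b, hc, hab, hcp⟩ | ⟨hns, -⟩⟩ | ⟨h2, c, hc, hN⟩
    · -- split semisimple case
      have hc0 : c ≠ 0 := by
        rintro rfl
        apply hz0
        rw [hc]
        ring
      obtain ⟨d, hd⟩ : ∃ d : Fin n → F,
          d = fun i : Fin n => if (i : ℕ) < a then (1 : F) else -1 := ⟨_, rfl⟩
      have hdd : ∀ i, d i * d i = 1 := by
        intro i
        rw [hd]
        by_cases h : (i : ℕ) < a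
        · simp [h]
        · simp [h]
      have hYY : (c • Matrix.diagonal d) * (c • Matrix.diagonal d)
          = z • (1 : Matrix (Fin n) (Fin n) F) := by
        rw [Matrix.smul_mul, Matrix.mul_smul, smul_smul, Matrix.diagonal_mul_diagonal, ← pow_two,
          ← hc]
        congr 1
        rw [← Matrix.diagonal_one]
        congr 1
        funext i
        exact hdd i
      have hYs : Module.End.IsSemisimple (toLin' (c • Matrix.diagonal d)) := by
        rcases inv_classes (c • Matrix.diagonal d) z hz0 hYY with ⟨-, hs', -⟩ | ⟨h2', -⟩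
        · exact hs'
        · exact absurd h2' h2
      have hYc : (c • Matrix.diagonal d).charpoly = (X - C c) ^ a * (X - C (-c)) ^ b := by
        rw [← Matrix.diagonal_smul, Matrix.charpoly_diagonal]
        have e1 : ∀ i : Fin n, (X - C ((c • d) i) : F[X])
            = (fun k : ℕ => if k < a then (X - C c : F[X]) else X - C (-c)) (i : ℕ) := by
          intro i
          rw [hd]
          show (X - C (c • (if (i : ℕ) < a then (1 : F) else -1)) : F[X]) = _
          by_cases h : (i : ℕ) < a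
          · simp [h]
          · simp [h]
        rw [Finset.prod_congr rfl (fun i _ => e1 i),
          Fin.prod_univ_eq_prod_range (fun k : ℕ => if k < a then (X - C c : F[X]) else X - C (-c)) n,
          ← hab, Finset.prod_range_add]
        congr 1
        · rw [Finset.prod_congr rfl (fun k hk => if_pos (Finset.mem_range.mp hk)),
            Finset.prod_const, Finset.card_range]
        · rw [Finset.prod_congr rfl (fun k _ => if_neg (by omega)),
            Finset.prod_const, Finset.card_range]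
      obtain ⟨P, hPu, hP⟩ := exists_conj_matrix M (c • Matrix.diagonal d) hs hYs (by rw [hcp, hYc])
      obtain ⟨A, hA⟩ : ∃ A : GL (Fin n) F, (A : Matrix (Fin n) (Fin n) F) = P :=
        ⟨Matrix.GeneralLinearGroup.mkOfDetNeZero P hPu.ne_zero, rfl⟩
      refine ⟨A, mem_subfieldSubgroup_one F₀ _ c hc0 (Matrix.diagonal d) ?_ ?_⟩
      · apply conj_val_eq
        rw [hA, hxM]
        exact hP
      · intro i j
        rw [Matrix.diagonal_apply, hd]
        by_cases hij : i = j
        · rw [if_pos hij]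
          show (if (i : ℕ) < a then (1 : F) else -1) ∈ F₀
          by_cases h : (i : ℕ) < a
          · rw [if_pos h]; exact one_mem _
          · rw [if_neg h]; exact neg_mem (one_mem _)
        · rw [if_neg hij]; exact zero_mem _
    · obtain ⟨c, hc⟩ := hsq h2
      exact absurd hc (hns c)
    · -- characteristic two
      have hc0 : c ≠ 0 := by
        rintro rfl
        apply hz0
        rw [hc]
        ring
      have hNN : (c⁻¹ • (M - c • (1 : Matrix (Fin n) (Fin n) F)))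
          * (c⁻¹ • (M - c • (1 : Matrix (Fin n) (Fin n) F))) = 0 := by
        rw [Matrix.smul_mul, Matrix.mul_smul, hN, smul_zero, smul_zero]
      obtain ⟨P, N₀, hPu, hP, hN₀⟩ := nilsq_conj_zero_one _ hNN
      obtain ⟨A, hA⟩ : ∃ A : GL (Fin n) F, (A : Matrix (Fin n) (Fin n) F) = P :=
        ⟨Matrix.GeneralLinearGroup.mkOfDetNeZero P hPu.ne_zero, rfl⟩
      refine ⟨A, mem_subfieldSubgroup_one F₀ _ c hc0 (1 + N₀) ?_ ?_⟩
      · apply conj_val_eq
        rw [hA, hxM]
        have hMe : M = c • (1 + c⁻¹ • (M - c • (1 : Matrix (Fin n) (Fin n) F))) := by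
          rw [smul_add, smul_smul, mul_inv_cancel₀ hc0, one_smul]
          abel
        conv_lhs => rw [hMe]
        rw [Matrix.mul_smul, Matrix.mul_add, Matrix.mul_one, hP, Matrix.smul_mul, Matrix.add_mul,
          Matrix.one_mul]
      · intro i j
        rw [Matrix.add_apply]
        apply add_mem
        · rw [Matrix.one_apply]
          split_ifs
          · exact one_mem _
          · exact zero_mem _
        · rcases hN₀ i j with h | h
          · rw [h]; exact zero_mem _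
          · rw [h]; exact one_mem _
  obtain ⟨A, hA⟩ := key
  exact sl_conj_of_gl_conj x A hA (fun δ _ => by
    rw [← hMx]
    exact exists_commute_det_of_sq M z hz0 hM δ)

end Good

section Bad

variable {F : Type u} [Field F] [Fintype F] {n : ℕ}

/-- For `q = q₀²` odd and `v₂(n) ≤ v₂(q-1)`, the scalar square of an element of `SL_n(q)` is a
square. -/
theorem subfield_sq_of_sl {q q₀ : ℕ} (hq : Fintype.card F = q) (hn : n ≠ 0) (F₀ : Subfield F)
    (hF₀ : Nat.card ↥F₀ = q₀) (hqk : q = q₀ ^ 2) (hodd : Odd q)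
    (hv : padicValNat 2 n ≤ padicValNat 2 (q - 1))
    (x : Matrix.SpecialLinearGroup (Fin n) F) (z : F)
    (hz : ((x ^ 2 : Matrix.SpecialLinearGroup (Fin n) F) : Matrix (Fin n) (Fin n) F)
      = z • (1 : Matrix (Fin n) (Fin n) F)) : ∃ c : F, c ^ 2 = z := by
  by_contra hns
  push Not at hns
  have hM : (x : Matrix (Fin n) (Fin n) F) * (x : Matrix (Fin n) (Fin n) F)
      = z • (1 : Matrix (Fin n) (Fin n) F) := by
    rw [← hz, pow_two, Matrix.SpecialLinearGroup.coe_mul]
  have hz0 : z ≠ 0 := by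
    rintro rfl
    exact hns 0 (by ring)
  obtain ⟨m, hm, hdet⟩ := det_of_sq_nonsq _ z hz0 hM hns
  rw [x.det_coe] at hdet
  obtain ⟨i, hi⟩ := subfield_two_isSquare hq F₀ hF₀ hqk hodd (-1) (neg_mem (one_mem _))
  have hw : ∀ c : F, c ^ 2 ≠ -z := by
    intro c hc
    apply hns (c * i)
    rw [mul_pow, hc, hi]
    ring
  have hm0 : m ≠ 0 := by omega
  exact nonsq_pow_ne_one hq (-z) hw m hm0 (by rw [← hm]; exact hv) hdet.symm

/-- For `q = q₀²` odd and `v₂(q-1) < v₂(n)` there is an involution of `PSL_n(q)` not conjugate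
into the subfield group. -/
theorem subfield_inv_bad {q q₀ : ℕ} (hq : Fintype.card F = q) (F₀ : Subfield F)
    (hF₀ : Nat.card ↥F₀ = q₀) (hqk : q = q₀ ^ 2) (hodd : Odd q)
    (hv : padicValNat 2 (q - 1) < padicValNat 2 n) :
    ∃ x : Matrix.SpecialLinearGroup (Fin n) F,
      (∃ z : F, ((x ^ 2 : Matrix.SpecialLinearGroup (Fin n) F) : Matrix (Fin n) (Fin n) F)
        = z • (1 : Matrix (Fin n) (Fin n) F)) ∧
      (∀ z : F, (x : Matrix (Fin n) (Fin n) F) ≠ z • (1 : Matrix (Fin n) (Fin n) F)) ∧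
      ¬ ∃ P : Matrix.SpecialLinearGroup (Fin n) F, P⁻¹ * x * P ∈
        (Cfsg.Geo.subfieldSubgroup F₀ 1).comap
        (Matrix.SpecialLinearGroup.toGL : Matrix.SpecialLinearGroup (Fin n) F →* GL (Fin n) F) := by
  classical
  have hn2 : 2 ∣ n := dvd_of_one_le_padicValNat (by omega)
  obtain ⟨m, hm⟩ := hn2
  have hn0 : n ≠ 0 := by
    rintro rfl
    simp at hv
  obtain ⟨i₀⟩ : Nonempty (Fin n) := ⟨⟨0, Nat.pos_of_ne_zero hn0⟩⟩
  obtain ⟨w, hw, hwm⟩ := exists_nonsq_pow_eq_one (F := F) hq hodd m (by rw [← hm]; exact hv)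
  obtain ⟨i, hi⟩ := subfield_two_isSquare hq F₀ hF₀ hqk hodd (-1) (neg_mem (one_mem _))
  have hz : ∀ c : F, c ^ 2 ≠ -w := by
    intro c hc
    apply hw (c * i)
    rw [mul_pow, hc, hi]
    ring
  have hz0 : -w ≠ 0 := by
    intro h
    exact hz 0 (by rw [h]; ring)
  obtain ⟨e, -⟩ : ∃ e : Fin m ⊕ Fin m ≃ Fin n, e = e :=
    ⟨finSumFinEquiv.trans (finCongr (by omega)), rfl⟩
  obtain ⟨M, hM⟩ : ∃ M : Matrix (Fin n) (Fin n) F,
      M = (Matrix.fromBlocks 0 ((-w) • (1 : Matrix (Fin m) (Fin m) F)) 1 0 :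
        Matrix (Fin m ⊕ Fin m) (Fin m ⊕ Fin m) F).submatrix e.symm e.symm := ⟨_, rfl⟩
  have hMM : M * M = (-w) • (1 : Matrix (Fin n) (Fin n) F) := by
    rw [hM, Matrix.submatrix_mul_equiv, Matrix.fromBlocks_multiply]
    simp only [Matrix.zero_mul, Matrix.mul_zero, Matrix.mul_one, Matrix.one_mul, zero_add,
      add_zero]
    have e1 : (Matrix.fromBlocks ((-w) • (1 : Matrix (Fin m) (Fin m) F)) 0 0
        ((-w) • (1 : Matrix (Fin m) (Fin m) F)) : Matrix (Fin m ⊕ Fin m) (Fin m ⊕ Fin m) F)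
        = (-w) • (1 : Matrix (Fin m ⊕ Fin m) (Fin m ⊕ Fin m) F) := by
      rw [← Matrix.fromBlocks_one, Matrix.fromBlocks_smul, smul_zero]
    rw [e1, Matrix.submatrix_smul]
    show (-w) • ((1 : Matrix (Fin m ⊕ Fin m) (Fin m ⊕ Fin m) F).submatrix e.symm e.symm) = _
    rw [Matrix.submatrix_one_equiv]
  obtain ⟨m', hm', hdet⟩ := det_of_sq_nonsq M (-w) hz0 hMM hz
  have hmm : m' = m := by omega
  have hdet1 : M.det = 1 := by rw [hdet, hmm, neg_neg, hwm]
  obtain ⟨x, hx⟩ : ∃ x : Matrix.SpecialLinearGroup (Fin n) F,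
      (x : Matrix (Fin n) (Fin n) F) = M := ⟨⟨M, hdet1⟩, rfl⟩
  refine ⟨x, ⟨-w, ?_⟩, ?_, ?_⟩
  · rw [pow_two, Matrix.SpecialLinearGroup.coe_mul, hx]
    exact hMM
  · intro μ hμ
    rw [hx] at hμ
    apply hz μ
    have h1 := hMM
    rw [hμ, Matrix.smul_mul, Matrix.mul_smul, Matrix.one_mul, smul_smul] at h1
    have h2 := congrFun (congrFun h1 i₀) i₀
    rw [Matrix.smul_apply, Matrix.smul_apply, Matrix.one_apply_eq, smul_eq_mul, smul_eq_mul,
      mul_one, mul_one] at h2
    rw [← h2, pow_two]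
  · rintro ⟨P, hP⟩
    rw [Subgroup.mem_comap] at hP
    obtain ⟨c, Y₀, hc0, hY⟩ := exists_of_mem_subfieldSubgroup_one F₀ _ hP
    have hsq : ((Matrix.SpecialLinearGroup.toGL (P⁻¹ * x * P) : GL (Fin n) F) :
          Matrix (Fin n) (Fin n) F)
        * ((Matrix.SpecialLinearGroup.toGL (P⁻¹ * x * P) : GL (Fin n) F) :
          Matrix (Fin n) (Fin n) F) = (-w) • (1 : Matrix (Fin n) (Fin n) F) := by
      rw [Matrix.SpecialLinearGroup.coe_GL_coe_matrix, ← Matrix.SpecialLinearGroup.coe_mul]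
      have e1 : (P⁻¹ * x * P) * (P⁻¹ * x * P) = P⁻¹ * (x * x) * P := by group
      rw [e1, Matrix.SpecialLinearGroup.coe_mul, Matrix.SpecialLinearGroup.coe_mul,
        Matrix.SpecialLinearGroup.coe_mul, hx, hMM, Matrix.mul_smul, Matrix.mul_one,
        Matrix.smul_mul, ← Matrix.SpecialLinearGroup.coe_mul, inv_mul_cancel,
        Matrix.SpecialLinearGroup.coe_one]
    rw [hY, Matrix.smul_mul, Matrix.mul_smul, smul_smul, ← Matrix.map_mul] at hsq
    have h00 := congrFun (congrFun hsq i₀) i₀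
    rw [Matrix.smul_apply, Matrix.smul_apply, Matrix.one_apply_eq, smul_eq_mul, smul_eq_mul,
      mul_one, Matrix.map_apply] at h00
    obtain ⟨d, hd⟩ := subfield_two_isSquare hq F₀ hF₀ hqk hodd
      ((F₀.subtype : F₀ →+* F) ((Y₀ * Y₀) i₀ i₀)) (Subtype.property _)
    apply hz (c * d)
    rw [mul_pow, hd, ← h00, pow_two]

end Bad

section IndexOdd

/-- `X^k - Y^k = (X - Y) * (odd)` for odd `X`, `Y`, `k`. -/
lemma pow_sub_pow_odd_factor (X Y k : ℕ) (hXY : Y ≤ X) (hX : Odd X) (hY : Odd Y) (hk : Odd k) :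
    ∃ c : ℕ, Odd c ∧ X ^ k - Y ^ k = (X - Y) * c := by
  refine ⟨∑ t ∈ Finset.range k, X ^ t * Y ^ (k - 1 - t), ?_, ?_⟩
  · rw [Finset.odd_sum_iff_odd_card_odd, Finset.filter_true_of_mem, Finset.card_range]
    · exact hk
    · intro t _
      exact (hX.pow).mul (hY.pow)
  · have h1 : Y ^ k ≤ X ^ k := Nat.pow_le_pow_left hXY k
    zify [h1, hXY]
    rw [mul_comm]
    exact (geom_sum₂_mul (X : ℤ) (Y : ℤ) k).symm

variable {F : Type u} [Field F] [Fintype F] {n : ℕ}

/-- For `q = q₀^k` with `q` and `k` odd, the subfield group has odd index in `SL_n(q)`. -/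
theorem subfield_index_odd {q q₀ k : ℕ} (hq : Fintype.card F = q) (hn : n ≠ 0) (F₀ : Subfield F)
    (hF₀ : Nat.card ↥F₀ = q₀) (hqk : q = q₀ ^ k) (hodd : Odd q) (hk : Odd k) :
    ¬ 2 ∣ ((Cfsg.Geo.subfieldSubgroup F₀ 1).comap
      (Matrix.SpecialLinearGroup.toGL : Matrix.SpecialLinearGroup (Fin n) F →* GL (Fin n) F)).index := by
  classical
  have hfin : Fintype ↥F₀ := Fintype.ofFinite _
  have hcard₀ : Fintype.card ↥F₀ = q₀ := by rw [← Nat.card_eq_fintype_card, hF₀]
  have hk0 : k ≠ 0 := by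
    rintro rfl
    exact absurd hk (by decide)
  have hodd₀ : Odd q₀ := by
    rw [hqk] at hodd
    exact (Nat.odd_pow_iff hk0).mp hodd
  have hq₀2 : 2 ≤ q₀ := hcard₀ ▸ Fintype.one_lt_card
  obtain ⟨f, hf⟩ : ∃ f : Matrix.SpecialLinearGroup (Fin n) ↥F₀ →* Matrix.SpecialLinearGroup (Fin n) F,
      f = Matrix.SpecialLinearGroup.map (F₀.subtype : F₀ →+* F) := ⟨_, rfl⟩
  have hle : f.range ≤ (Cfsg.Geo.subfieldSubgroup F₀ 1).comap
      (Matrix.SpecialLinearGroup.toGL : Matrix.SpecialLinearGroup (Fin n) F →* GL (Fin n) F) := by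
    rintro _ ⟨g₀, rfl⟩
    rw [Subgroup.mem_comap]
    refine mem_subfieldSubgroup_one F₀ _ 1 one_ne_zero
      ((g₀ : Matrix (Fin n) (Fin n) F₀).map (F₀.subtype : F₀ →+* F)) ?_ (fun i j => Subtype.property _)
    rw [one_smul, hf]
    rfl
  intro h2
  have h2' : 2 ∣ f.range.index := h2.trans (Subgroup.index_dvd_of_le hle)
  have hinj : Function.Injective f := by
    intro g g' h
    apply Subtype.ext
    ext i j
    have h1 := congrArg (fun y : Matrix.SpecialLinearGroup (Fin n) F =>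
      (y : Matrix (Fin n) (Fin n) F) i j) h
    rw [hf] at h1
    exact h1
  have hcardR : Nat.card f.range = Nat.card (Matrix.SpecialLinearGroup (Fin n) ↥F₀) :=
    Nat.card_range_of_injective hinj
  have h3 := Subgroup.card_mul_index f.range
  rw [hcardR] at h3
  have hG := card_GL_eq_card_SL_mul F n (Nat.pos_of_ne_zero hn)
  have hG₀ := card_GL_eq_card_SL_mul ↥F₀ n (Nat.pos_of_ne_zero hn)
  rw [Matrix.card_GL_field, hq] at hG
  rw [Matrix.card_GL_field, hcard₀] at hG₀
  obtain ⟨C, hCodd, hC⟩ : ∃ C : ℕ, Odd C ∧ ∏ i : Fin n, (q ^ n - q ^ (i : ℕ))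
      = (∏ i : Fin n, (q₀ ^ n - q₀ ^ (i : ℕ))) * C := by
    have hfac : ∀ i : Fin n, ∃ c : ℕ, Odd c ∧ q ^ n - q ^ (i : ℕ) = (q₀ ^ n - q₀ ^ (i : ℕ)) * c := by
      intro i
      have e1 : q ^ n = (q₀ ^ n) ^ k := by rw [hqk, ← pow_mul, ← pow_mul, mul_comm]
      have e2 : q ^ (i : ℕ) = (q₀ ^ (i : ℕ)) ^ k := by rw [hqk, ← pow_mul, ← pow_mul, mul_comm]
      rw [e1, e2]
      exact pow_sub_pow_odd_factor _ _ k (Nat.pow_le_pow_right (by omega) i.isLt.le)
        hodd₀.pow hodd₀.pow hk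
    choose c hc1 hc2 using hfac
    refine ⟨∏ i : Fin n, c i, ?_, ?_⟩
    · exact Finset.prod_induction c Odd (fun a b ha hb => ha.mul hb) odd_one (fun i _ => hc1 i)
    · rw [← Finset.prod_mul_distrib]
      exact Finset.prod_congr rfl (fun i _ => hc2 i)
  obtain ⟨S, hS⟩ : ∃ S : ℕ, q - 1 = (q₀ - 1) * S := by
    have h := Nat.sub_dvd_pow_sub_pow q₀ 1 k
    rw [one_pow, ← hqk] at h
    exact h
  have hpos : 0 < Nat.card (Matrix.SpecialLinearGroup (Fin n) ↥F₀) * (q₀ - 1) :=
    Nat.mul_pos Nat.card_pos (by omega)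
  have hkey : f.range.index * S = C := by
    apply Nat.eq_of_mul_eq_mul_left hpos
    calc Nat.card (Matrix.SpecialLinearGroup (Fin n) ↥F₀) * (q₀ - 1) * (f.range.index * S)
        = (Nat.card (Matrix.SpecialLinearGroup (Fin n) ↥F₀) * f.range.index) * ((q₀ - 1) * S) := by
          ring
      _ = ∏ i : Fin n, (q ^ n - q ^ (i : ℕ)) := by rw [h3, ← hS, hG]
      _ = Nat.card (Matrix.SpecialLinearGroup (Fin n) ↥F₀) * (q₀ - 1) * C := by rw [hC, hG₀]
  have h4 : 2 ∣ C := by
    rw [← hkey]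
    exact Dvd.dvd.mul_right h2' S
  exact (Nat.not_even_iff_odd.mpr hCodd) (even_iff_two_dvd.mpr h4)

end IndexOdd

end Cfsg.Agent.Lib.Helper47
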