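import Mathlib
import Cfsg.Prelude.Def_GeometricClasses
import Cfsg.Prelude.Def_LieClassical

/-! Project SPG (helper71), sub-project TIF, piece T6m (helper47): a quadratic form in rectangular
coordinates with polar form `f`, vanishing on a spanning set stable under `H`, is `H`-invariant. -/

set_option autoImplicit false

namespace Cfsg.Agent.Lib.Helper47.TIFT6m

open Matrix Cfsg.Geo

variable {n : ℕ} {F : Type*} [Field F] [Fintype F]

/-- T6m: a quadratic form in rectangular coordinates with polar form `f`, vanishing on a spanning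
set stable under `H`, is `H`-invariant. -/
theorem T6m (f : (Fin n → F) → (Fin n → F) → F) (hf : IsSymplecticForm f)
    (H : Subgroup (GL (Fin n) F)) (hfix : FixesForm (matrixSet H) f) {I : Type} [Fintype I]
    [DecidableEq I] (P : Matrix (Fin n) I F) (Q : Matrix I (Fin n) F) (hPQ : P * Q = 1)
    (hQP : Q * P = 1) (G : Matrix I I F)
    (hform : ∀ x y : I → F, f (P *ᵥ x) (P *ᵥ y) = ∑ a, ∑ b, x a * G a b * y b)
    (q₀ : (I → F) → F) (hq1 : ∀ (t : F) x, q₀ (t • x) = t ^ 2 * q₀ x)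
    (hq2 : ∀ x y, q₀ (x + y) = q₀ x + q₀ y + ∑ a, ∑ b, x a * G a b * y b)
    (S : Set (I → F)) (hS : Submodule.span F S = ⊤) (hq3 : ∀ w ∈ S, q₀ w = 0)
    (hH : ∀ h ∈ H, ∀ w ∈ S, (Q * h.1 * P) *ᵥ w ∈ S) :
    ∃ Qf : (Fin n → F) → F, IsNondegenerateQuadraticForm Qf ∧
      (∀ u v : Fin n → F, QuadraticMap.polar Qf u v = f u v) ∧ H ≤ quadSimilarityGroup Qf := by
  classical
  obtain ⟨Qf, hQf⟩ : ∃ Qf : (Fin n → F) → F, ∀ v, Qf v = q₀ (Q *ᵥ v) :=
    ⟨fun v => q₀ (Q *ᵥ v), fun v => rfl⟩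
  have hPQv : ∀ u : Fin n → F, P *ᵥ (Q *ᵥ u) = u := by
    intro u
    rw [Matrix.mulVec_mulVec, hPQ, Matrix.one_mulVec]
  have hQPv : ∀ w : I → F, Q *ᵥ (P *ᵥ w) = w := by
    intro w
    rw [Matrix.mulVec_mulVec, hQP, Matrix.one_mulVec]
  have hadd : ∀ x y : Fin n → F, Qf (x + y) = Qf x + Qf y + f x y := by
    intro x y
    have h3 := hform (Q *ᵥ x) (Q *ᵥ y)
    rw [hPQv, hPQv] at h3
    rw [hQf, hQf, hQf, Matrix.mulVec_add, hq2, h3]
  have hsmul : ∀ (t : F) (x : Fin n → F), Qf (t • x) = t ^ 2 * Qf x := by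
    intro t x
    rw [hQf, hQf, Matrix.mulVec_smul, hq1]
  have hpol : ∀ u v : Fin n → F, QuadraticMap.polar Qf u v = f u v := by
    intro u v
    show Qf (u + v) - Qf u - Qf v = f u v
    rw [hadd]
    ring
  have hpolfun : QuadraticMap.polar Qf = f := funext (fun u => funext (fun v => hpol u v))
  refine ⟨Qf, ⟨hsmul, ?_, ?_⟩, hpol, ?_⟩
  · rw [hpolfun]
    exact hf.bilinear
  · rw [hpolfun]
    exact hf.nondegenerate
  · intro h hh
    show ∃ c : Fˣ, ∀ v, Qf ((h : Matrix (Fin n) (Fin n) F) *ᵥ v) = (c : F) * Qf v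
    refine ⟨1, fun v => ?_⟩
    rw [Units.val_one, one_mul]
    have hfixh : ∀ u v : Fin n → F, f (h.1 *ᵥ u) (h.1 *ᵥ v) = f u v :=
      hfix h.1 ⟨h, hh, rfl⟩
    have key : ∀ x ∈ Submodule.span F S, Qf (h.1 *ᵥ (P *ᵥ x)) = Qf (P *ᵥ x) := by
      intro x hx
      induction hx using Submodule.span_induction with
      | mem w hw =>
        have e1 : Q *ᵥ (h.1 *ᵥ (P *ᵥ w)) = (Q * h.1 * P) *ᵥ w := by
          simp only [Matrix.mulVec_mulVec, Matrix.mul_assoc]
        rw [hQf, hQf, hQPv, e1, hq3 w hw, hq3 _ (hH h hh w hw)]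
      | zero =>
        rw [Matrix.mulVec_zero, Matrix.mulVec_zero]
      | add x y _ _ ihx ihy =>
        rw [Matrix.mulVec_add, Matrix.mulVec_add, hadd, hadd, ihx, ihy, hfixh]
      | smul t x _ ih =>
        rw [Matrix.mulVec_smul, Matrix.mulVec_smul, hsmul, hsmul, ih]
    have hv := key (Q *ᵥ v) (by rw [hS]; exact Submodule.mem_top)
    rw [hPQv] at hv
    exact hv

end Cfsg.Agent.Lib.Helper47.TIFT6m
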