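import Mathlib
import Cfsg.Prelude.Def_GeometricClasses
import Cfsg.Prelude.Def_ClassicalGeometry
import Cfsg.Agent.Lib.Helper98.F75Defs

/-!
S5975 piece F75-YINV: the semilinear involution (coordinatewise Frobenius in a hyperbolic
`L`-basis) of `Sp_4(F)` normalising a quadratic field `L`.
-/

set_option autoImplicit false

namespace Cfsg.Agent.Lib.Helper98.F75

open Matrix Polynomial

/-- the standard form takes the value `-1` on a pair of standard basis vectors -/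
theorem f75yinv_form_basis {F : Type*} [Field F] :
    Cfsg.sympForm 2 F (Pi.single (Sum.inl 0) 1) (Pi.single (Sum.inr 0) 1) = -1 := by
  unfold Cfsg.sympForm
  rw [Matrix.mulVec_single_one, single_one_dotProduct]
  simp [Matrix.J, Matrix.fromBlocks]

theorem exists_semilinear_invol {F : Type*} [Field F] [Fintype F] {q : ℕ}
    (hq : Fintype.card F = q) {L : Type*} [Field L] [Fintype L] [Algebra F L]
    (hL : Module.finrank F L = 2)
    (ρ : L →ₐ[F] Matrix (Fin 2 ⊕ Fin 2) (Fin 2 ⊕ Fin 2) F) (φ : L →ₗ[F] F) (hφ : φ ≠ 0)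
    (hφσ : ∀ c : L, φ (c ^ q) = φ c)
    (B : (Fin 2 ⊕ Fin 2 → F) → (Fin 2 ⊕ Fin 2 → F) → L) (hB : IsLForm ρ φ B) :
    ∃ y : GL (Fin 2 ⊕ Fin 2) F, y ∈ Cfsg.spGL 2 F ∧
      (∀ c : L, (y : Matrix (Fin 2 ⊕ Fin 2) (Fin 2 ⊕ Fin 2) F) * ρ c =
        ρ (c ^ q) * (y : Matrix (Fin 2 ⊕ Fin 2) (Fin 2 ⊕ Fin 2) F)) ∧
      (y : Matrix (Fin 2 ⊕ Fin 2) (Fin 2 ⊕ Fin 2) F) *
        (y : Matrix (Fin 2 ⊕ Fin 2) (Fin 2 ⊕ Fin 2) F) = 1 := by
  classical
  subst hq
  -- the Frobenius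
  obtain ⟨σ, hσ⟩ : ∃ σ : L →ₐ[F] L, ∀ c : L, σ c = c ^ Fintype.card F :=
    ⟨FiniteField.frobeniusAlgHom F L, fun c => rfl⟩
  have hcardL : Fintype.card L = Fintype.card F ^ 2 := by
    have h := Module.card_eq_pow_finrank (K := F) (V := L)
    rw [hL] at h
    simpa [Nat.card_eq_fintype_card] using h
  have hσσ : ∀ c : L, σ (σ c) = c := by
    intro c
    rw [hσ, hσ, ← pow_mul, ← pow_two, ← hcardL]
    exact FiniteField.pow_card c
  -- the action of `ρ`
  have hρalg : ∀ (a : F) (v : Fin 2 ⊕ Fin 2 → F), ρ (algebraMap F L a) *ᵥ v = a • v := by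
    intro a v
    rw [AlgHom.commutes, Algebra.algebraMap_eq_smul_one, Matrix.smul_mulVec, Matrix.one_mulVec]
  have hρmul : ∀ (a b : L) (v : Fin 2 ⊕ Fin 2 → F), ρ (a * b) *ᵥ v = ρ a *ᵥ (ρ b *ᵥ v) := by
    intro a b v
    rw [map_mul, Matrix.mulVec_mulVec]
  have hρadd : ∀ (a b : L) (v : Fin 2 ⊕ Fin 2 → F), ρ (a + b) *ᵥ v = ρ a *ᵥ v + ρ b *ᵥ v := by
    intro a b v
    rw [map_add, Matrix.add_mulVec]
  have hρzero : ∀ v : Fin 2 ⊕ Fin 2 → F, ρ 0 *ᵥ v = 0 := by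
    intro v
    rw [map_zero, Matrix.zero_mulVec]
  -- the form `B`
  have hskew : ∀ u v, B u v = - B v u := by
    intro u v
    have h := hB.alt (u + v)
    rw [hB.add_left, hB.add_right, hB.add_right, hB.alt, hB.alt] at h
    linear_combination h
  have hφ0 : ∀ c : L, φ c ≠ 0 → c ≠ 0 := by
    rintro c h rfl
    exact h (map_zero φ)
  -- a hyperbolic pair
  obtain ⟨w, hw⟩ : ∃ w : Fin 2 ⊕ Fin 2 → F, w = Pi.single (Sum.inl 0) 1 := ⟨_, rfl⟩
  obtain ⟨u₀, hu₀⟩ : ∃ u₀ : Fin 2 ⊕ Fin 2 → F, u₀ = Pi.single (Sum.inr 0) 1 := ⟨_, rfl⟩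
  have hα₀ : B w u₀ ≠ 0 := by
    apply hφ0
    rw [hB.form, hw, hu₀, f75yinv_form_basis]
    exact neg_ne_zero.mpr one_ne_zero
  obtain ⟨u, hu⟩ : ∃ u : Fin 2 ⊕ Fin 2 → F, u = ρ (B w u₀)⁻¹ *ᵥ u₀ := ⟨_, rfl⟩
  have hwu : B w u = 1 := by
    rw [hu, hB.smul_right, inv_mul_cancel₀ hα₀]
  have huw : B u w = -1 := by rw [hskew, hwu]
  have hww : B w w = 0 := hB.alt w
  have huu : B u u = 0 := hB.alt u
  -- coordinates
  have hcoord : ∀ (a b : L), B (ρ a *ᵥ w + ρ b *ᵥ u) u = a ∧ B (ρ a *ᵥ w + ρ b *ᵥ u) w = -b := by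
    intro a b
    constructor
    · rw [hB.add_left, hB.smul_left, hB.smul_left, hwu, huu, mul_one, mul_zero, add_zero]
    · rw [hB.add_left, hB.smul_left, hB.smul_left, hww, huw, mul_zero, zero_add, mul_neg, mul_one]
  -- every vector is a combination
  have hspan : ∀ v : Fin 2 ⊕ Fin 2 → F, v = ρ (B v u) *ᵥ w + ρ (-(B v w)) *ᵥ u := by
    let Ξ : (L × L) →ₗ[F] (Fin 2 ⊕ Fin 2 → F) :=
      { toFun := fun ab => ρ ab.1 *ᵥ w + ρ ab.2 *ᵥ u
        map_add' := by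
          intro x y
          simp only [Prod.fst_add, Prod.snd_add]
          rw [hρadd, hρadd]
          abel
        map_smul' := by
          intro c x
          simp only [Prod.smul_fst, Prod.smul_snd, RingHom.id_apply]
          rw [map_smul, map_smul, Matrix.smul_mulVec, Matrix.smul_mulVec, smul_add] }
    have hΞ : ∀ a b : L, Ξ (a, b) = ρ a *ᵥ w + ρ b *ᵥ u := fun a b => rfl
    have hinj : Function.Injective Ξ := by
      rw [injective_iff_map_eq_zero]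
      rintro ⟨a, b⟩ hab
      rw [hΞ] at hab
      obtain ⟨h1, h2⟩ := hcoord a b
      rw [hab] at h1 h2
      have hz : ∀ x, B 0 x = 0 := by
        intro x
        have h := hB.add_left 0 0 x
        rw [add_zero] at h
        exact left_eq_add.mp h
      rw [hz] at h1 h2
      have hb : b = 0 := by
        have := h2.symm
        rwa [neg_eq_zero] at this
      rw [← h1, hb]
      rfl
    have : Module.Finite F L := Module.finite_of_finrank_pos (by rw [hL]; norm_num)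
    have hfr : Module.finrank F (L × L) = Module.finrank F (Fin 2 ⊕ Fin 2 → F) := by
      rw [Module.finrank_prod, hL, Module.finrank_fintype_fun_eq_card]
      simp
    have hsurj : Function.Surjective Ξ :=
      (LinearMap.injective_iff_surjective_of_finrank_eq_finrank hfr).mp hinj
    intro v
    obtain ⟨⟨a, b⟩, hab⟩ := hsurj v
    rw [hΞ] at hab
    obtain ⟨h1, h2⟩ := hcoord a b
    rw [hab] at h1 h2
    rw [h1, h2, neg_neg]
    exact hab.symm
  -- the map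
  let Y : (Fin 2 ⊕ Fin 2 → F) →ₗ[F] (Fin 2 ⊕ Fin 2 → F) :=
    { toFun := fun v => ρ (σ (B v u)) *ᵥ w + ρ (-(σ (B v w))) *ᵥ u
      map_add' := by
        intro x y
        have e1 : σ (B (x + y) u) = σ (B x u) + σ (B y u) := by rw [hB.add_left, map_add]
        have e2 : -(σ (B (x + y) w)) = -(σ (B x w)) + -(σ (B y w)) := by
          rw [hB.add_left, map_add, neg_add]
        show ρ (σ (B (x + y) u)) *ᵥ w + ρ (-(σ (B (x + y) w))) *ᵥ u
          = (ρ (σ (B x u)) *ᵥ w + ρ (-(σ (B x w))) *ᵥ u)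
            + (ρ (σ (B y u)) *ᵥ w + ρ (-(σ (B y w))) *ᵥ u)
        rw [e1, e2, hρadd, hρadd]
        abel
      map_smul' := by
        intro c x
        have e : c • x = ρ (algebraMap F L c) *ᵥ x := (hρalg c x).symm
        have e1 : σ (B (c • x) u) = algebraMap F L c * σ (B x u) := by
          rw [e, hB.smul_left, map_mul, AlgHom.commutes]
        have e2 : -(σ (B (c • x) w)) = algebraMap F L c * -(σ (B x w)) := by
          rw [e, hB.smul_left, map_mul, AlgHom.commutes, mul_neg]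
        show ρ (σ (B (c • x) u)) *ᵥ w + ρ (-(σ (B (c • x) w))) *ᵥ u
          = c • (ρ (σ (B x u)) *ᵥ w + ρ (-(σ (B x w))) *ᵥ u)
        rw [e1, e2, hρmul, hρmul, hρalg, hρalg, smul_add] }
  have hY : ∀ v, Y v = ρ (σ (B v u)) *ᵥ w + ρ (-(σ (B v w))) *ᵥ u := fun v => rfl
  have hYB : ∀ v, B (Y v) u = σ (B v u) ∧ B (Y v) w = σ (B v w) := by
    intro v
    obtain ⟨h1, h2⟩ := hcoord (σ (B v u)) (-(σ (B v w)))
    rw [← hY] at h1 h2
    exact ⟨h1, by rw [h2, neg_neg]⟩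
  have hYY : ∀ v, Y (Y v) = v := by
    intro v
    rw [hY (Y v), (hYB v).1, (hYB v).2, hσσ, hσσ]
    exact (hspan v).symm
  have hBexp : ∀ v v', B v v' = - (B v u * B v' w) + B v w * B v' u := by
    intro v v'
    conv_lhs => rw [hspan v']
    rw [hB.add_right, hB.smul_right, hB.smul_right]
    ring
  have hYform : ∀ v v', B (Y v) (Y v') = σ (B v v') := by
    intro v v'
    rw [hBexp (Y v) (Y v'), (hYB v).1, (hYB v).2, (hYB v').1, (hYB v').2, hBexp v v', map_add,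
      map_neg, map_mul, map_mul]
  have hYρ : ∀ (c : L) v, Y (ρ c *ᵥ v) = ρ (σ c) *ᵥ Y v := by
    intro c v
    have e1 : σ (B (ρ c *ᵥ v) u) = σ c * σ (B v u) := by rw [hB.smul_left, map_mul]
    have e2 : -(σ (B (ρ c *ᵥ v) w)) = σ c * -(σ (B v w)) := by
      rw [hB.smul_left, map_mul, mul_neg]
    rw [hY, hY, e1, e2, hρmul, hρmul, Matrix.mulVec_add]
  -- the matrix
  obtain ⟨M, hM⟩ : ∃ M : Matrix (Fin 2 ⊕ Fin 2) (Fin 2 ⊕ Fin 2) F, M = LinearMap.toMatrix' Y :=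
    ⟨_, rfl⟩
  have hMv : ∀ v, M *ᵥ v = Y v := by
    intro v
    rw [hM, ← Matrix.toLin'_apply, Matrix.toLin'_toMatrix']
  have hext : ∀ A A' : Matrix (Fin 2 ⊕ Fin 2) (Fin 2 ⊕ Fin 2) F, (∀ v, A *ᵥ v = A' *ᵥ v) →
      A = A' := by
    intro A A' h
    apply Matrix.toLin'.injective
    apply LinearMap.ext
    intro v
    rw [Matrix.toLin'_apply, Matrix.toLin'_apply, h]
  have hMM : M * M = 1 := by
    apply hext
    intro v
    rw [← Matrix.mulVec_mulVec, hMv, hMv, hYY, Matrix.one_mulVec]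
  refine ⟨⟨M, M, hMM, hMM⟩, ?_, ?_, hMM⟩
  · show ∀ x y : Fin 2 ⊕ Fin 2 → F,
      Cfsg.sympForm 2 F (M *ᵥ x) (M *ᵥ y) = Cfsg.sympForm 2 F x y
    intro x y
    rw [hMv, hMv, ← hB.form, ← hB.form, hYform, hσ, hφσ]
  · intro c
    show M * ρ c = ρ (c ^ Fintype.card F) * M
    apply hext
    intro v
    rw [← Matrix.mulVec_mulVec, ← Matrix.mulVec_mulVec, hMv, hMv, hYρ, hσ]

end Cfsg.Agent.Lib.Helper98.F75
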