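import Mathlib
import Cfsg.Agent.Lib.Helper47.DualPoly

/-!
# Self-dual irreducible polynomials over a field of order `q²`

For a monic irreducible polynomial `g` over `K` (`|K| = q²`) which is self-dual for the unitary
duality `λ ↦ λ^(-q)`, the root field `AdjoinRoot g` gives relations on a root `λ`
(`selfdual_root_data`).  Consequences: `g` cannot be quadratic (`selfdual_quadratic_false`), and
a cubic `g` with constant term `-1` divides `X^(q²-q+1) - 1` (`selfdual_cubic_dvd`).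
-/

set_option autoImplicit false

namespace Cfsg.Agent.Lib.Helper47

open Polynomial

section FinExt

universe u

variable {K : Type u} [Field K] [Fintype K] {q : ℕ}

/-- `q` is a power of the characteristic. -/
lemma exists_q_eq_pow (p : ℕ) [Fact p.Prime] [CharP K p] (hK : Fintype.card K = q ^ 2) :
    ∃ j, q = p ^ j := by
  have hp : p.Prime := Fact.out
  obtain ⟨n, -, hn⟩ := FiniteField.card K p
  have h1 : q ∣ p ^ (n : ℕ) := by
    rw [← hn, hK]
    exact Dvd.intro_left _ (sq q).symm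
  obtain ⟨k, -, hk⟩ := (Nat.dvd_prime_pow hp).mp h1
  exact ⟨k, hk⟩

/-- Root data for a root field of an irreducible polynomial over `K`. -/
theorem root_field_data (p : ℕ) [Fact p.Prime] [CharP K p] (hK : Fintype.card K = q ^ 2)
    (g : K[X]) (hgm : g.Monic) (hgi : Irreducible g) :
    ∃ (L : Type u) (_ : Field L) (_ : Algebra K L) (_ : Finite L) (lam : L),
      (∀ P : K[X], aeval lam P = 0 ↔ g ∣ P) ∧
      (∀ μ : L, aeval μ g = 0 → ∃ j < g.natDegree, μ = lam ^ ((q ^ 2) ^ j)) ∧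
      lam ^ ((q ^ 2) ^ g.natDegree) = lam ∧
      algebraMap K L ((-1) ^ g.natDegree * g.coeff 0)
        = lam ^ (∑ i ∈ Finset.range g.natDegree, (q ^ 2) ^ i) ∧
      (∀ x : L, x ^ q = 1 → x = 1) ∧
      (∀ (σ : K →+* K), (∀ c, σ c = c ^ q) → ∀ (x : L) (P : K[X]),
        aeval (x ^ q) (P.map σ) = (aeval x P) ^ q) := by
  have hp : p.Prime := Fact.out
  have : Fact (Irreducible g) := ⟨hgi⟩
  have hg0 : g ≠ 0 := hgm.ne_zero
  have hfinM : Module.Finite K (AdjoinRoot g) := (AdjoinRoot.powerBasis hg0).finite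
  have hfin : Finite (AdjoinRoot g) := Module.finite_of_finite K
  have hrank : Module.finrank K (AdjoinRoot g) = g.natDegree :=
    finrank_quotient_span_eq_natDegree
  have hcardK : Nat.card K = q ^ 2 := by rw [Nat.card_eq_fintype_card, hK]
  have hchar : CharP (AdjoinRoot g) p :=
    charP_of_injective_algebraMap (algebraMap K (AdjoinRoot g)).injective p
  obtain ⟨j₀, hj₀⟩ := exists_q_eq_pow p hK
  refine ⟨AdjoinRoot g, inferInstance, inferInstance, hfin, AdjoinRoot.root g, ?_, ?_, ?_, ?_,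
    ?_, ?_⟩
  · intro P
    rw [AdjoinRoot.aeval_eq, AdjoinRoot.mk_eq_zero]
  · intro μ hμ
    obtain ⟨τ, hτ⟩ : ∃ τ : AdjoinRoot g →ₐ[K] AdjoinRoot g, τ (AdjoinRoot.root g) = μ :=
      ⟨AdjoinRoot.liftAlgHom g (Algebra.ofId K (AdjoinRoot g)) μ hμ,
        AdjoinRoot.liftAlgHom_root _ _ _ _⟩
    obtain ⟨n, hn⟩ := (FiniteField.bijective_frobeniusAlgHom_pow K (AdjoinRoot g)).2 τ
    refine ⟨n.1, by rw [← hrank]; exact n.2, ?_⟩
    rw [← hτ, ← hn]
    simp only [AlgHom.coe_pow, FiniteField.coe_frobeniusAlgHom, pow_iterate, hK]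
  · have hfinT : Fintype (AdjoinRoot g) := Fintype.ofFinite _
    have h1 : Fintype.card (AdjoinRoot g) = (q ^ 2) ^ g.natDegree := by
      rw [← Nat.card_eq_fintype_card, Module.natCard_eq_pow_finrank (K := K), hcardK, hrank]
    rw [← h1]
    exact FiniteField.pow_card _
  · have h1 := FiniteField.algebraMap_norm_eq_pow_sum K (AdjoinRoot g) (AdjoinRoot.root g)
    rw [hrank, hcardK] at h1
    rw [← h1]
    congr 1
    have h2 := Algebra.PowerBasis.norm_gen_eq_coeff_zero_minpoly (AdjoinRoot.powerBasis hg0)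
    rw [AdjoinRoot.powerBasis_gen, AdjoinRoot.powerBasis_dim, AdjoinRoot.minpoly_root hg0,
      hgm.leadingCoeff, inv_one, C_1, mul_one] at h2
    exact h2.symm
  · intro x hx
    have h1 : iterateFrobenius (AdjoinRoot g) p j₀ x = iterateFrobenius (AdjoinRoot g) p j₀ 1 := by
      rw [iterateFrobenius_def, iterateFrobenius_def, ← hj₀, hx, one_pow]
    exact iterateFrobenius_inj (AdjoinRoot g) p j₀ h1
  · intro σ hσq x P
    have h1 : (iterateFrobenius (AdjoinRoot g) p j₀).comp (algebraMap K (AdjoinRoot g))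
        = (algebraMap K (AdjoinRoot g)).comp σ := by
      apply RingHom.ext
      intro c
      rw [RingHom.comp_apply, RingHom.comp_apply, iterateFrobenius_def, ← hj₀, hσq, map_pow]
    have h2 := hom_eval₂ P (algebraMap K (AdjoinRoot g)) (iterateFrobenius (AdjoinRoot g) p j₀) x
    rw [h1, iterateFrobenius_def, iterateFrobenius_def, ← hj₀] at h2
    rw [aeval_def, aeval_def, eval₂_map]
    exact h2.symm

/-- For a self-dual `g`, the inverse `q`-th power of a root is a root. -/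
lemma selfdual_root {L : Type*} [Field L] [Algebra K L] {σ : K →+* K} {g : K[X]}
    (hdual : dualP σ g = g) (hg0 : g ≠ 0) (lam : L) (hlam : aeval lam g = 0)
    (hfrob : ∀ (x : L) (P : K[X]), aeval (x ^ q) (P.map σ) = (aeval x P) ^ q) (hq : q ≠ 0) :
    lam ≠ 0 ∧ aeval ((lam ^ q)⁻¹) g = 0 := by
  have hc0 : g.coeff 0 ≠ 0 := by
    intro h0
    apply hg0
    rw [← hdual]
    unfold dualP
    rw [h0, map_zero, inv_zero, C_0, zero_mul]
  have hlam0 : lam ≠ 0 := by
    rintro rfl
    rw [aeval_def, eval₂_at_zero] at hlam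
    exact hc0 ((map_eq_zero (algebraMap K L)).mp hlam)
  refine ⟨hlam0, ?_⟩
  have hx0 : lam ^ q ≠ 0 := pow_ne_zero _ hlam0
  have h1 : aeval (lam ^ q) (g.map σ) = 0 := by rw [hfrob, hlam, zero_pow hq]
  have : Invertible (lam ^ q) := invertibleOfNonzero hx0
  have h2 := eval₂_reverse_mul_pow (algebraMap K L) (lam ^ q) (g.map σ)
  rw [← aeval_def, ← aeval_def, h1, invOf_eq_inv] at h2
  have h3 : aeval ((lam ^ q)⁻¹) (g.map σ).reverse = 0 := by
    rcases mul_eq_zero.mp h2 with h | h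
    · exact h
    · exact absurd h (pow_ne_zero _ hx0)
  rw [← hdual]
  unfold dualP
  rw [map_mul, h3, mul_zero]

/-- A self-dual monic irreducible polynomial over `K` is not quadratic. -/
theorem selfdual_quadratic_false (p : ℕ) [Fact p.Prime] [CharP K p]
    (hK : Fintype.card K = q ^ 2) {σ : K →+* K}
    (hσq : ∀ c, σ c = c ^ q) (g : K[X]) (hgm : g.Monic) (hgi : Irreducible g)
    (hdeg : g.natDegree = 2) (hdual : dualP σ g = g) : False := by
  have hq0 : q ≠ 0 := by
    rintro rfl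
    have := Fintype.one_lt_card (α := K)
    rw [hK] at this
    omega
  have hcardK : Nat.card K = q ^ 2 := by rw [Nat.card_eq_fintype_card, hK]
  obtain ⟨L, _, _, _, lam, hdvd, hroots, hcard, -, hinj, hfrob⟩ :=
    root_field_data p hK g hgm hgi
  have hlam : aeval lam g = 0 := (hdvd g).mpr dvd_rfl
  obtain ⟨hlam0, hμ⟩ := selfdual_root hdual hgm.ne_zero lam hlam (hfrob σ hσq) hq0
  have hne : lam ^ (q ^ 2) ≠ lam := by
    intro h
    have h1 : aeval lam (X ^ Nat.card K ^ 1 - X : K[X]) = 0 := by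
      rw [map_sub, map_pow, aeval_X, pow_one, hcardK, h, sub_self]
    have h2 := hgi.natDegree_dvd_of_dvd_X_pow_card_pow_sub_X ((hdvd _).mp h1)
    rw [hdeg] at h2
    omega
  have hkey : lam ^ (q + 1) = 1 → False := by
    intro h
    apply hne
    have h1 : lam ^ (q ^ 2) = lam ^ ((q + 1) * (q - 1)) * lam := by
      rw [← pow_succ]
      congr 1
      obtain ⟨t, rfl⟩ : ∃ t, q = t + 1 := ⟨q - 1, by omega⟩
      simp only [Nat.add_sub_cancel]
      ring
    rw [h1, pow_mul, h, one_pow, one_mul]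
  obtain ⟨j, hj, hjμ⟩ := hroots _ hμ
  have h1 : lam ^ ((q ^ 2) ^ j) * lam ^ q = 1 := by
    rw [← hjμ, inv_mul_cancel₀ (pow_ne_zero _ hlam0)]
  rw [hdeg] at hj
  interval_cases j
  · apply hkey
    rw [pow_zero, pow_one] at h1
    rw [pow_succ, mul_comm]
    exact h1
  · apply hkey
    apply hinj
    rw [pow_one] at h1
    rw [← h1, ← pow_mul, ← pow_add]
    congr 1
    ring

/-- A self-dual monic irreducible cubic over `K` with constant term `-1` divides
`X^(q²-q+1) - 1`. -/
theorem selfdual_cubic_dvd (p : ℕ) [Fact p.Prime] [CharP K p]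
    (hK : Fintype.card K = q ^ 2) {σ : K →+* K}
    (hσq : ∀ c, σ c = c ^ q) (g : K[X]) (hgm : g.Monic) (hgi : Irreducible g)
    (hdeg : g.natDegree = 3) (hdual : dualP σ g = g) (hc0 : g.coeff 0 = -1) :
    g ∣ X ^ (q ^ 2 - q + 1) - 1 := by
  have hq0 : q ≠ 0 := by
    rintro rfl
    have := Fintype.one_lt_card (α := K)
    rw [hK] at this
    omega
  have hcardK : Nat.card K = q ^ 2 := by rw [Nat.card_eq_fintype_card, hK]
  obtain ⟨L, _, _, _, lam, hdvd, hroots, hcard, hnorm, hinj, hfrob⟩ :=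
    root_field_data p hK g hgm hgi
  have hlam : aeval lam g = 0 := (hdvd g).mpr dvd_rfl
  obtain ⟨hlam0, hμ⟩ := selfdual_root hdual hgm.ne_zero lam hlam (hfrob σ hσq) hq0
  have hne : lam ^ (q ^ 2) ≠ lam := by
    intro h
    have h1 : aeval lam (X ^ Nat.card K ^ 1 - X : K[X]) = 0 := by
      rw [map_sub, map_pow, aeval_X, pow_one, hcardK, h, sub_self]
    have h2 := hgi.natDegree_dvd_of_dvd_X_pow_card_pow_sub_X ((hdvd _).mp h1)
    rw [hdeg] at h2
    omega
  have hkey : lam ^ (q + 1) = 1 → False := by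
    intro h
    apply hne
    have h1 : lam ^ (q ^ 2) = lam ^ ((q + 1) * (q - 1)) * lam := by
      rw [← pow_succ]
      congr 1
      obtain ⟨t, rfl⟩ : ∃ t, q = t + 1 := ⟨q - 1, by omega⟩
      simp only [Nat.add_sub_cancel]
      ring
    rw [h1, pow_mul, h, one_pow, one_mul]
  obtain ⟨t, rfl⟩ : ∃ t, q = t + 1 := ⟨q - 1, by omega⟩
  have hN : (t + 1) ^ 2 - (t + 1) + 1 = t ^ 2 + t + 1 := by
    have : (t + 1) ^ 2 - (t + 1) = t ^ 2 + t := Nat.sub_eq_of_eq_add (by ring)
    rw [this]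
  rw [hN]
  obtain ⟨j, hj, hjμ⟩ := hroots _ hμ
  have h1 : lam ^ (((t + 1) ^ 2) ^ j) * lam ^ (t + 1) = 1 := by
    rw [← hjμ, inv_mul_cancel₀ (pow_ne_zero _ hlam0)]
  rw [hdeg] at hj
  have h3 : lam ^ ((t + 1) ^ 3 + 1) = 1 := by
    interval_cases j
    · exfalso
      apply hkey
      rw [pow_zero, pow_one] at h1
      rw [pow_succ, mul_comm]
      exact h1
    · exfalso
      apply hkey
      apply hinj
      rw [pow_one] at h1
      rw [← h1, ← pow_mul, ← pow_add]
      congr 1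
      ring
    · apply hinj
      rw [← h1, ← pow_mul, ← pow_add]
      congr 1
      ring
  have h4 : lam ^ (1 + (t + 1) ^ 2 + (t + 1) ^ 4) = 1 := by
    rw [hdeg, hc0] at hnorm
    have h5 : ∑ i ∈ Finset.range 3, ((t + 1) ^ 2) ^ i = 1 + (t + 1) ^ 2 + (t + 1) ^ 4 := by
      rw [Finset.sum_range_succ, Finset.sum_range_succ, Finset.sum_range_one]
      ring
    rw [h5] at hnorm
    rw [← hnorm]
    norm_num
  obtain ⟨θ, hθ⟩ : ∃ θ : L, θ = lam ^ (t ^ 2 + t + 1) := ⟨_, rfl⟩
  have hθ1 : θ ^ (t + 1 + 1) = 1 := by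
    rw [hθ, ← pow_mul, ← h3]
    congr 1
    ring
  have hθ2 : θ ^ ((t + 1) * (t + 1 + 1) + 1) = 1 := by
    rw [hθ, ← pow_mul, ← h4]
    congr 1
    ring
  have hθ3 : θ = 1 := by
    rw [pow_succ, mul_comm (t + 1), pow_mul, hθ1, one_pow, one_mul] at hθ2
    exact hθ2
  apply (hdvd _).mp
  rw [map_sub, map_pow, aeval_X, map_one, ← hθ, hθ3, sub_self]

end FinExt

end Cfsg.Agent.Lib.Helper47
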