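import Mathlib
import Cfsg.Agent.Lib.Helper53.GT6Def

/-!
# GT6 piece M4 (for helper53): every invertible symmetric or skew matrix over the fixed field
arises as a descent datum of a unitary matrix
-/

set_option autoImplicit false

namespace Cfsg.Agent.Lib.Helper47.GT6M4
open Matrix Cfsg.Agent.Lib.Helper53 Cfsg.Agent.Lib.Helper53.GT6
variable {F : Type*} [Field F] {F₀ : Type*} [Field F₀] {n : ℕ}

/-- M4: every invertible symmetric or skew `g₀` over `F₀` arises from a unitary `g` -/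
theorem desc_surj [Fintype F] (σ : F ≃+* F) (hord : orderOf σ = 2) (j : F₀ →+* F)
    (hj : ∀ a : F, σ a = a ↔ a ∈ Set.range j) (hn : 0 < n)
    (g₀ : Matrix (Fin n) (Fin n) F₀) (hdet : g₀.det ≠ 0)
    (hs : g₀.transpose = g₀ ∨ g₀.transpose = -g₀) :
    ∃ (g B : Matrix (Fin n) (Fin n) F), g.transpose * g.map σ = 1 ∧ Desc σ j g B g₀ := by
  classical
  have hσ2 : ∀ x, σ (σ x) = x := SUGO.sigma_sigma σ hord
  have hσ1 : σ ≠ 1 := by
    intro h
    rw [h, orderOf_one] at hord
    exact absurd hord (by norm_num)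
  obtain ⟨ε, hεε, hεg⟩ : ∃ ε : F₀, ε * ε = 1 ∧ g₀.transpose = ε • g₀ := by
    rcases hs with h | h
    · exact ⟨1, by ring, by rw [h, one_smul]⟩
    · exact ⟨-1, by ring, by rw [h, neg_one_smul]⟩
  have hjε : j ε * j ε = 1 := by rw [← map_mul, hεε, map_one]
  have hσj : ∀ a : F₀, σ (j a) = j a := fun a => (hj _).2 ⟨a, rfl⟩
  have hjε0 : j ε ≠ 0 := by
    intro h
    rw [h, mul_zero] at hjε
    exact zero_ne_one hjε
  obtain ⟨ω, hω0, hω⟩ := H90.exists_fixed_scalar σ 2 (by norm_num) hord (j ε)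
    (by rw [Herm.nrm_two, hσj, hjε])
  have hσω : σ ω = j ε * ω := by
    calc σ ω = (j ε * j ε) * σ ω := by rw [hjε, one_mul]
      _ = j ε * (j ε * σ ω) := by ring
      _ = j ε * ω := by rw [hω]
  obtain ⟨c', hc'⟩ := H90.norm_surj σ 2 (by norm_num) hord (j ε) hjε0 (hσj ε)
  rw [Herm.nrm_two] at hc'
  have hc'0 : c' ≠ 0 := by
    intro h
    rw [h, zero_mul] at hc'
    exact hjε0 hc'.symm
  have hu : IsUnit g₀.det := isUnit_iff_ne_zero.mpr hdet
  obtain ⟨G₁, hG₁⟩ : ∃ G₁ : Matrix (Fin n) (Fin n) F₀, G₁ = g₀⁻¹ := ⟨_, rfl⟩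
  have hG1 : G₁ * g₀ = 1 := by
    rw [hG₁]
    exact Matrix.nonsing_inv_mul _ hu
  have hG2 : g₀ * G₁ = 1 := by
    rw [hG₁]
    exact Matrix.mul_nonsing_inv _ hu
  have hGt : G₁.transpose = ε • G₁ := by
    have h1 : G₁.transpose * g₀.transpose = 1 := by
      rw [← Matrix.transpose_mul, hG2, Matrix.transpose_one]
    rw [hεg, Matrix.mul_smul] at h1
    have h2 : G₁.transpose * g₀ = ε • (1 : Matrix (Fin n) (Fin n) F₀) := by
      have h3 := congrArg (fun M : Matrix (Fin n) (Fin n) F₀ => ε • M) h1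
      simp only [smul_smul, hεε, one_smul] at h3
      exact h3
    calc G₁.transpose = G₁.transpose * (g₀ * G₁) := by rw [hG2, Matrix.mul_one]
      _ = (G₁.transpose * g₀) * G₁ := by rw [Matrix.mul_assoc]
      _ = ε • G₁ := by rw [h2, Matrix.smul_mul, Matrix.one_mul]
  obtain ⟨M, hM⟩ : ∃ M : Matrix (Fin n) (Fin n) F, M = ω • G₁.map j := ⟨_, rfl⟩
  have hMg : M * g₀.map j = ω • (1 : Matrix (Fin n) (Fin n) F) := by
    rw [hM, Matrix.smul_mul, ← Matrix.map_mul, hG1, Matrix.map_one _ (map_zero j) (map_one j)]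
  have hMab : ∀ a b, M a b = j ε * M b a := by
    intro a b
    have h1 : G₁ b a = ε * G₁ a b := by
      have h2 := congrFun (congrFun hGt a) b
      rw [Matrix.transpose_apply, Matrix.smul_apply, smul_eq_mul] at h2
      exact h2
    have h3 : G₁ a b = ε * G₁ b a := by
      rw [h1, ← mul_assoc, hεε, one_mul]
    rw [hM, Matrix.smul_apply, Matrix.smul_apply, Matrix.map_apply, Matrix.map_apply, smul_eq_mul,
      smul_eq_mul, h3, map_mul]
    ring
  have hMt : M.transpose = j ε • M := by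
    ext a b
    rw [Matrix.transpose_apply, Matrix.smul_apply, smul_eq_mul]
    exact hMab b a
  have hMσ : ∀ a b, σ (M b a) = M a b := by
    intro a b
    rw [hMab a b, hM, Matrix.smul_apply, Matrix.map_apply, smul_eq_mul, map_mul, hσj, hσω]
    ring
  have hMdet : M.det ≠ 0 := by
    have h1 : M * (ω⁻¹ • g₀.map j) = 1 := by
      rw [Matrix.mul_smul, hMg, smul_smul, inv_mul_cancel₀ hω0, one_smul]
    exact Matrix.det_ne_zero_of_right_inverse h1
  obtain ⟨B₁, hB₁u, hB₁⟩ := Herm.exists_factor σ hσ1 hσ2 M hMσ hMdet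
  obtain ⟨B, hB⟩ : ∃ B : Matrix (Fin n) (Fin n) F, B = B₁.transpose := ⟨_, rfl⟩
  have hBM : B.transpose * B.map σ = M := by
    rw [hB, Matrix.transpose_transpose, hB₁, Matrix.transpose_map]
  have hBu : IsUnit B.det := by
    rw [hB, Matrix.det_transpose]
    exact hB₁u
  obtain ⟨C, hC⟩ : ∃ C : Matrix (Fin n) (Fin n) F, C = B⁻¹ := ⟨_, rfl⟩
  have hBC : B * C = 1 := by
    rw [hC]
    exact Matrix.mul_nonsing_inv _ hBu
  have hCB : C * B = 1 := by
    rw [hC]
    exact Matrix.nonsing_inv_mul _ hBu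
  have hσone : (1 : Matrix (Fin n) (Fin n) F).map σ = 1 :=
    Matrix.map_one _ (map_zero σ) (map_one σ)
  have hσBC : B.map σ * C.map σ = 1 := by
    rw [← map_sigma_mul, hBC, hσone]
  have hσCB : C.map σ * B.map σ = 1 := by
    rw [← map_sigma_mul, hCB, hσone]
  refine ⟨c' • (B * C.map σ), B, ?_, isUnit_iff_ne_zero.mp hBu, ⟨c', hc'0, ?_⟩, ω, hω0, ?_⟩
  · have hM2 : M = j ε • ((B.map σ).transpose * B) := by
      have h1 : M.transpose = (B.map σ).transpose * B := by
        rw [← hBM, Matrix.transpose_mul, Matrix.transpose_transpose]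
      have h2 : M = j ε • M.transpose := by
        rw [hMt, smul_smul, hjε, one_smul]
      rw [h2, h1]
    have h3 : (C.map σ).transpose * B.transpose * (B.map σ * C)
        = j ε • (1 : Matrix (Fin n) (Fin n) F) := by
      calc (C.map σ).transpose * B.transpose * (B.map σ * C)
          = (C.map σ).transpose * (B.transpose * B.map σ) * C := by
            simp only [Matrix.mul_assoc]
        _ = (C.map σ).transpose * M * C := by rw [hBM]
        _ = j ε • ((C.map σ).transpose * (B.map σ).transpose * (B * C)) := by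
            rw [hM2]
            simp only [Matrix.mul_smul, Matrix.smul_mul, Matrix.mul_assoc]
        _ = j ε • 1 := by
            rw [← Matrix.transpose_mul, hσBC, hBC, Matrix.transpose_one, Matrix.mul_one]
    rw [Matrix.transpose_smul, map_sigma_smul, map_sigma_mul, map_map_sigma σ hσ2,
      Matrix.transpose_mul, Matrix.smul_mul, Matrix.mul_smul, smul_smul, h3, smul_smul]
    have h4 : c' * σ c' * j ε = 1 := by rw [hc', hjε]
    rw [h4, one_smul]
  · rw [Matrix.smul_mul, Matrix.mul_assoc, hσCB, Matrix.mul_one]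
  · rw [hBM, hMg]

end Cfsg.Agent.Lib.Helper47.GT6M4
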