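import Cfsg.Agent.Lib.Helper47.H74K4b
import Cfsg.Agent.Lib.Helper77.H74HYPTYP
import Cfsg.Agent.Lib.Helper40.H74COMPL

/-!
# Project H74 (S5974), piece K4 (backup, helper47): `k4` with only the sibling SUM
(`subtyp_sup`) left as a hypothesis; HYPTYP and COMPL are imported.
-/

set_option autoImplicit false

namespace Cfsg.Agent.Lib.Helper98.H74

open Cfsg.Agent.Lib.Helper47 Cfsg.Agent.Lib.Helper98.T73 Module Polynomial

universe u

variable {F : Type u} [Field F] [Fintype F] {V : Type u} [AddCommGroup V] [Module F V]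
  [FiniteDimensional F V] {Q : V → F} {B : V → V → F}

/-- K4 from SUM -/
theorem k4_of_sum (hf : QFacts F) [CharP F 2] (hQ : IsQuad Q B) (hnd : Nondeg B) (n : ℕ)
    (hn : 1 ≤ n) (hdim : finrank F V = 2 * n + 2) (htyp : IsTyp Q n 1) (g : Module.End F V)
    (hgQ : QI Q g) (hg : g * g = 1)
    (hsum : ∀ (X Y : Submodule F V), (∀ x ∈ X, ∀ y ∈ Y, B x y = 0) → ∀ (k₁ k₂ : ℕ)
      (ε₁ ε₂ : ℤ), SubTyp Q B X k₁ ε₁ → SubTyp Q B Y k₂ ε₂ →
      SubTyp Q B (X ⊔ Y) (k₁ + k₂ + 1) (ε₁ * ε₂)) :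
    ∃ H : Submodule F V, H.map g ≤ H ∧ SubTyp Q B H 1 1 := by
  haveI : Fact (Nat.Prime 2) := ⟨Nat.prime_two⟩
  refine k4_of hf hQ hnd n hn hdim htyp g hgQ hg
    (fun W hW => (hyp_iff hf hQ 2 W 1).mp hW)
    (fun X Y h e1 e2 hX hY => hsum X Y h 0 0 e1 e2 hX hY)
    (fun X k τ hX hk => ?_)
  have hdim' : finrank F V = 2 * (n + 1) := by rw [hdim]; ring
  have htyp' : IsTyp Q (n + 1 - 1) 1 := by simpa using htyp
  exact subtyp_compl hf hQ hnd (n + 1) hdim' 1 htyp' X k τ hX hk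

end Cfsg.Agent.Lib.Helper98.H74
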