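import Cfsg.Agent.Lib.Helper96.HyDefs
import Cfsg.Agent.Lib.Helper51.HypPairs
import Cfsg.Prelude.Def_GeometricClasses
import Cfsg.Prelude.Def_Classical

/-!
Project HY (S5992, helper96), piece GLUEA: the polar form of `quadFormOdd` is symmetric and
nondegenerate, and the Prelude notion "nondegenerate of plus type" is `Hyp`.
-/

set_option autoImplicit false
set_option linter.unusedSectionVars false
set_option linter.unusedVariables false

namespace Cfsg.Agent.Lib.Helper47.Hy

open Module Polynomial Cfsg.Agent.Lib.Helper96.Sp Cfsg.Agent.Lib.Helper96.Hy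
  Cfsg.Agent.Lib.Helper47

universe u

section Concrete

open Matrix
open scoped MatrixGroups

variable {F : Type u} [Field F] [Fintype F]

theorem gluea_polar (d : ℕ) (u v : Unit ⊕ (Fin d ⊕ Fin d) → F) :
    QuadraticMap.polarBilin (Cfsg.Agent.Lib.Helper51.QOdd d F) u v
      = QuadraticMap.polar (Cfsg.quadFormOdd d F) u v := by
  rw [QuadraticMap.polarBilin_apply_apply, Cfsg.Agent.Lib.Helper51.coe_QOdd]

theorem gluea_self (d : ℕ) (v : Unit ⊕ (Fin d ⊕ Fin d) → F) :
    QuadraticMap.polar (Cfsg.quadFormOdd d F) v v = 2 * Cfsg.quadFormOdd d F v := by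
  rw [← Cfsg.Agent.Lib.Helper51.coe_QOdd, QuadraticMap.polar_self, two_nsmul, two_mul]

theorem gluea_formula (d : ℕ) (u x : Unit ⊕ (Fin d ⊕ Fin d) → F) :
    QuadraticMap.polar (Cfsg.quadFormOdd d F) u x
      = 2 * u (Sum.inl ()) * x (Sum.inl ())
        + ∑ i : Fin d, (u (Sum.inr (Sum.inl i)) * x (Sum.inr (Sum.inr i))
          + x (Sum.inr (Sum.inl i)) * u (Sum.inr (Sum.inr i))) := by
  rw [← Cfsg.Agent.Lib.Helper51.coe_QOdd]
  exact Cfsg.Agent.Lib.Helper51.polar_QOdd d F u x

theorem gluea_nd (h2 : (2 : F) ≠ 0) (d : ℕ) (u : Unit ⊕ (Fin d ⊕ Fin d) → F)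
    (h : ∀ x, QuadraticMap.polar (Cfsg.quadFormOdd d F) u x = 0) : u = 0 := by
  classical
  funext j
  rcases j with ⟨⟩ | j | j
  · have h1 := h (Pi.single (Sum.inl ()) 1)
    rw [gluea_formula] at h1
    simp at h1
    rcases h1 with h1 | h1
    · exact absurd h1 h2
    · exact h1
  · have h1 := h (Pi.single (Sum.inr (Sum.inr j)) 1)
    rw [gluea_formula] at h1
    simpa [Pi.single_apply] using h1
  · have h1 := h (Pi.single (Sum.inr (Sum.inl j)) 1)
    rw [gluea_formula] at h1
    simpa [Pi.single_apply] using h1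

-- PIECE GLUEA
theorem glue_form (h2 : (2 : F) ≠ 0) (d : ℕ) :
    (QuadraticMap.polarBilin (Cfsg.Agent.Lib.Helper51.QOdd d F)).IsSymm ∧
    ND (QuadraticMap.polarBilin (Cfsg.Agent.Lib.Helper51.QOdd d F)) ⊤ ∧
    (∀ v, QuadraticMap.polarBilin (Cfsg.Agent.Lib.Helper51.QOdd d F) v v
      = 2 * Cfsg.quadFormOdd d F v) ∧
    ∀ W : Submodule F (Unit ⊕ (Fin d ⊕ Fin d) → F),
      (Cfsg.Geo.IsNondegenerateOn (QuadraticMap.polar (Cfsg.quadFormOdd d F)) W ∧
        Cfsg.Geo.IsPlusTypeOn (Cfsg.quadFormOdd d F) W) ↔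
      Hyp (QuadraticMap.polarBilin (Cfsg.Agent.Lib.Helper51.QOdd d F)) W := by
  refine ⟨⟨fun x y => ?_⟩, ?_, ?_, ?_⟩
  · show QuadraticMap.polarBilin (Cfsg.Agent.Lib.Helper51.QOdd d F) x y
      = QuadraticMap.polarBilin (Cfsg.Agent.Lib.Helper51.QOdd d F) y x
    rw [gluea_polar, gluea_polar, QuadraticMap.polar_comm]
  · intro u _ hu
    apply gluea_nd h2 d u
    intro x
    rw [← gluea_polar]
    exact hu x Submodule.mem_top
  · intro v
    rw [gluea_polar, gluea_self]
  · intro W
    have hND : Cfsg.Geo.IsNondegenerateOn (QuadraticMap.polar (Cfsg.quadFormOdd d F)) W ↔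
        ND (QuadraticMap.polarBilin (Cfsg.Agent.Lib.Helper51.QOdd d F)) W := by
      constructor
      · intro hnd u hu h
        by_contra hne
        obtain ⟨x, hx, hxne⟩ := (hnd u hu hne).2
        apply hxne
        rw [← gluea_polar]
        exact h x hx
      · intro hnd w hw hne
        have key : ∃ x ∈ W, QuadraticMap.polar (Cfsg.quadFormOdd d F) w x ≠ 0 := by
          by_contra hcon
          push Not at hcon
          apply hne
          apply hnd w hw
          intro v hv
          rw [gluea_polar]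
          exact hcon v hv
        obtain ⟨x, hx, hxne⟩ := key
        exact ⟨⟨x, hx, by rw [QuadraticMap.polar_comm]; exact hxne⟩, ⟨x, hx, hxne⟩⟩
    have hTS : ∀ U : Submodule F (Unit ⊕ (Fin d ⊕ Fin d) → F),
        Cfsg.Geo.IsTotallySingularQuad (Cfsg.quadFormOdd d F) U ↔
          Orth (QuadraticMap.polarBilin (Cfsg.Agent.Lib.Helper51.QOdd d F)) U U := by
      intro U
      constructor
      · intro hU u hu v hv
        rw [gluea_polar]
        unfold QuadraticMap.polar
        rw [hU _ (U.add_mem hu hv), hU u hu, hU v hv]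
        simp
      · intro hU w hw
        have h1 := hU w hw w hw
        rw [gluea_polar, gluea_self] at h1
        rcases mul_eq_zero.1 h1 with h1 | h1
        · exact absurd h1 h2
        · exact h1
    constructor
    · rintro ⟨h1, U, hUW, hU, hdim⟩
      exact ⟨hND.1 h1, U, hUW, (hTS U).1 hU, hdim⟩
    · rintro ⟨h1, U, hUW, hU, hdim⟩
      exact ⟨hND.2 h1, U, hUW, (hTS U).2 hU, hdim⟩

end Concrete

end Cfsg.Agent.Lib.Helper47.Hy
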