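import Cfsg.Agent.Lib.Helper47.InvSL
import Cfsg.Prelude.Def_GeometricClasses

/-!
# Involutions of `PSL_n(q)` and the symplectic-type subgroups

Every element of `SL_n(q)` (`n` even) with scalar square is `SL`-conjugate into the similarity
group of a symplectic form iff `(q - 1)_2 ≤ (n)_2`.
-/

set_option autoImplicit false
set_option linter.unusedSectionVars false

namespace Cfsg.Agent.Lib.Helper47

open Polynomial Module Matrix

universe u

section Forms

variable {F : Type*} [Field F]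

/-- Orthogonal sum of two forms. -/
lemma prodForm_isSForm {σ : F →+* F} {ε : F} {W₁ W₂ : Type*} [AddCommGroup W₁] [Module F W₁]
    [AddCommGroup W₂] [Module F W₂] {B₁ : W₁ → W₁ → F} {B₂ : W₂ → W₂ → F}
    (h₁ : IsSForm σ ε B₁) (h₂ : IsSForm σ ε B₂) :
    IsSForm σ ε (fun x y : W₁ × W₂ => B₁ x.1 y.1 + B₂ x.2 y.2) where
  add_left x y z := by
    simp only [Prod.fst_add, Prod.snd_add, h₁.add_left, h₂.add_left]
    ring
  smul_left c x y := by
    simp only [Prod.smul_fst, Prod.smul_snd, h₁.smul_left, h₂.smul_left]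
    ring
  symm x y := by
    show B₁ y.1 x.1 + B₂ y.2 x.2 = ε * σ (B₁ x.1 y.1 + B₂ x.2 y.2)
    rw [h₁.symm x.1 y.1, h₂.symm x.2 y.2, map_add]
    ring

lemma prodForm_nondeg {σ : F →+* F} {ε : F} {W₁ W₂ : Type*} [AddCommGroup W₁] [Module F W₁]
    [AddCommGroup W₂] [Module F W₂] {B₁ : W₁ → W₁ → F} {B₂ : W₂ → W₂ → F}
    (h₁ : IsSForm σ ε B₁) (h₂ : IsSForm σ ε B₂) (n₁ : Nondeg B₁) (n₂ : Nondeg B₂) :
    Nondeg (fun x y : W₁ × W₂ => B₁ x.1 y.1 + B₂ x.2 y.2) := by
  intro x hx
  have e1 : x.1 = 0 := by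
    apply n₁
    intro y
    have := hx (y, 0)
    simp only at this
    rwa [h₂.zero_right, add_zero] at this
  have e2 : x.2 = 0 := by
    apply n₂
    intro y
    have := hx (0, y)
    simp only at this
    rwa [h₁.zero_right, zero_add] at this
  exact Prod.ext e1 e2

/-- Transfer of a form with a similarity along a conjugating linear equivalence. -/
lemma exists_form_of_conj {V W : Type*} [AddCommGroup V] [Module F V] [AddCommGroup W]
    [Module F W] (g : Module.End F V) (y : Module.End F W) (ψ : V ≃ₗ[F] W)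
    (hψ : ∀ u, ψ (g u) = y (ψ u)) (fW : W → W → F) (hf : IsSForm (RingHom.id F) (-1) fW)
    (hnd : Nondeg fW) (halt : ∀ u, fW u u = 0) (μ : F)
    (hsim : ∀ a b, fW (y a) (y b) = μ * fW a b) :
    ∃ f : V → V → F, IsSForm (RingHom.id F) (-1) f ∧ Nondeg f ∧ (∀ u, f u u = 0) ∧
      ∀ u w, f (g u) (g w) = μ * f u w := by
  refine ⟨fun u w => fW (ψ u) (ψ w), ?_, ?_, fun u => halt _, fun u w => ?_⟩
  · exact ⟨fun x y z => by rw [map_add]; exact hf.add_left _ _ _,
      fun a x y => by rw [map_smul]; exact hf.smul_left _ _ _, fun x y => hf.symm _ _⟩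
  · intro x hx
    have := hnd (ψ x) (fun y => by
      obtain ⟨y', rfl⟩ := ψ.surjective y
      exact hx y')
    exact (LinearEquiv.map_eq_zero_iff ψ).mp this
  · show fW (ψ (g u)) (ψ (g w)) = μ * fW (ψ u) (ψ w)
    rw [hψ, hψ, hsim]

end Forms

section Models

variable {F : Type u} [Field F] [Fintype F]

lemma charpoly_smul_id (W : Type u) [AddCommGroup W] [Module F W] [FiniteDimensional F W]
    (c : F) : (c • (LinearMap.id : Module.End F W)).charpoly = (X - C c) ^ finrank F W := by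
  have haev : aeval (c • (LinearMap.id : Module.End F W)) (X - C c : F[X]) = 0 := by
    rw [map_sub, aeval_X, aeval_C]
    apply LinearMap.ext
    intro v
    simp [Algebra.algebraMap_eq_smul_one]
  obtain ⟨k, hk, hkd⟩ := charpoly_eq_pow_of_aeval W (c • (LinearMap.id : Module.End F W))
    (X - C c) (monic_X_sub_C c) (irreducible_X_sub_C c) separable_X_sub_C haev
  rw [natDegree_X_sub_C, one_mul] at hkd
  rw [hk, hkd]

/-- Class (a): a semisimple endomorphism with characteristic polynomial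
`(X - c)^(2a) (X + c)^(2b)` is a similarity of a nondegenerate alternating form. -/
theorem exists_form_split (V : Type u) [AddCommGroup V] [Module F V] [FiniteDimensional F V]
    (g : Module.End F V) (hg : g.IsSemisimple) (c : F) (hcc : c ≠ -c) (a b : ℕ)
    (hchar : g.charpoly = (X - C c) ^ (2 * a) * (X - C (-c)) ^ (2 * b)) :
    ∃ f : V → V → F, IsSForm (RingHom.id F) (-1) f ∧ Nondeg f ∧ (∀ u, f u u = 0) ∧
      ∀ u w, f (g u) (g w) = c ^ 2 * f u w := by
  obtain ⟨y, hy⟩ : ∃ y : Module.End F ((Fin a ⊕ Fin a → F) × (Fin b ⊕ Fin b → F)),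
      y = (c • LinearMap.id).prodMap ((-c) • LinearMap.id) := ⟨_, rfl⟩
  have hychar : y.charpoly = (X - C c) ^ (2 * a) * (X - C (-c)) ^ (2 * b) := by
    rw [hy, LinearMap.charpoly_prodMap, charpoly_smul_id, charpoly_smul_id,
      Module.finrank_fintype_fun_eq_card, Module.finrank_fintype_fun_eq_card, Fintype.card_sum,
      Fintype.card_sum, Fintype.card_fin, Fintype.card_fin, ← two_mul, ← two_mul]
  have hys : y.IsSemisimple := by
    have haev : aeval y ((X - C c) * (X - C (-c)) : F[X]) = 0 := by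
      have e : ((X - C c) * (X - C (-c)) : F[X]) = X ^ 2 - C (c ^ 2) := by
        rw [map_neg, map_pow]
        ring
      rw [e, map_sub, map_pow, aeval_X, aeval_C, hy]
      apply LinearMap.ext
      rintro ⟨v₁, v₂⟩
      simp [pow_two, Algebra.algebraMap_eq_smul_one, smul_smul]
    exact (charpoly_two_roots _ y c (-c) hcc haev).1
  obtain ⟨ψ, hψ⟩ := exists_conj_of_charpoly_eq _ V _ g y rfl hg hys (by rw [hchar, hychar])
  apply exists_form_of_conj g y ψ hψ
    (fun x z => spForm (Fin a) F x.1 z.1 + spForm (Fin b) F x.2 z.2)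
    (prodForm_isSForm spForm_isSForm spForm_isSForm)
    (prodForm_nondeg spForm_isSForm spForm_isSForm spForm_nondeg spForm_nondeg)
    (fun u => by
      show spForm (Fin a) F u.1 u.1 + spForm (Fin b) F u.2 u.2 = 0
      rw [spForm_alt, spForm_alt, add_zero])
  rintro ⟨a₁, a₂⟩ ⟨b₁, b₂⟩
  simp only [hy, LinearMap.prodMap_apply, LinearMap.smul_apply, LinearMap.id_apply]
  rw [spForm_isSForm.smul_left, spForm_isSForm.smul_right, spForm_isSForm.smul_left,
    spForm_isSForm.smul_right, RingHom.id_apply, RingHom.id_apply]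
  ring

/-- Class (b): a semisimple endomorphism with characteristic polynomial `(X² - z)^m`, `z` a
non-square, is a similarity of a nondegenerate alternating form, with multiplier `-z`. -/
theorem exists_form_nonsq (V : Type u) [AddCommGroup V] [Module F V] [FiniteDimensional F V]
    (g : Module.End F V) (hg : g.IsSemisimple) (z : F) (h2 : (2 : F) ≠ 0) (hz : z ≠ 0)
    (hsq : ∀ c : F, c ^ 2 ≠ z) (m : ℕ) (hchar : g.charpoly = (X ^ 2 - C z) ^ m) :
    ∃ f : V → V → F, IsSForm (RingHom.id F) (-1) f ∧ Nondeg f ∧ (∀ u, f u u = 0) ∧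
      ∀ u w, f (g u) (g w) = (-z) * f u w := by
  have hirr : Irreducible (X ^ 2 - C z : F[X]) :=
    (X_pow_sub_C_irreducible_iff_of_prime Nat.prime_two).mpr hsq
  have hmon : (X ^ 2 - C z : F[X]).Monic := monic_X_pow_sub_C z two_ne_zero
  have hsep : (X ^ 2 - C z : F[X]).Separable :=
    separable_X_pow_sub_C z (by exact_mod_cast h2) hz
  obtain ⟨Y, hY⟩ : ∃ Y : Matrix (Fin m ⊕ Fin m) (Fin m ⊕ Fin m) F,
      Y = Matrix.fromBlocks 0 (z • (1 : Matrix (Fin m) (Fin m) F)) 1 0 := ⟨_, rfl⟩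
  have hYY : Y * Y = z • (1 : Matrix (Fin m ⊕ Fin m) (Fin m ⊕ Fin m) F) := by
    rw [hY, Matrix.fromBlocks_multiply, ← Matrix.fromBlocks_one, Matrix.fromBlocks_smul]
    simp
  have haev : aeval (toLin' Y) (X ^ 2 - C z : F[X]) = 0 := by
    rw [map_sub, map_pow, aeval_X, aeval_C, ← Matrix.toLin'_pow, pow_two, hYY]
    apply LinearMap.ext
    intro v
    simp [Algebra.algebraMap_eq_smul_one]
  obtain ⟨k, hk, hkd⟩ := charpoly_eq_pow_of_aeval (Fin m ⊕ Fin m → F) (toLin' Y) _ hmon hirr hsep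
    haev
  have hkm : k = m := by
    rw [Module.finrank_fintype_fun_eq_card, Fintype.card_sum, Fintype.card_fin,
      natDegree_X_pow_sub_C] at hkd
    omega
  have hys : Module.End.IsSemisimple (toLin' Y) :=
    Module.End.isSemisimple_of_squarefree_aeval_eq_zero hsep.squarefree haev
  obtain ⟨ψ, hψ⟩ := exists_conj_of_charpoly_eq _ V _ g (toLin' Y) rfl hg hys
    (by rw [hchar, hk, hkm])
  apply exists_form_of_conj g (toLin' Y) ψ hψ (spForm (Fin m) F) spForm_isSForm spForm_nondeg
    spForm_alt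
  intro u w
  have hJ : Yᵀ * Matrix.J (Fin m) F * Y = (-z) • Matrix.J (Fin m) F := by
    rw [hY, Matrix.J, Matrix.fromBlocks_transpose, Matrix.fromBlocks_multiply,
      Matrix.fromBlocks_multiply, Matrix.fromBlocks_smul]
    simp
  simp only [spForm, Matrix.toLin'_apply]
  rw [← Matrix.vecMul_transpose Y u, ← Matrix.dotProduct_mulVec, Matrix.mulVec_mulVec,
    Matrix.mulVec_mulVec, hJ, Matrix.smul_mulVec, dotProduct_smul, smul_eq_mul]

end Models

section Target

variable {F : Type u} [Field F] [Fintype F] {n : ℕ}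

lemma symplectic_isSForm {f : (Fin n → F) → (Fin n → F) → F}
    (hf : Cfsg.Geo.IsSymplecticForm f) : IsSForm (RingHom.id F) (-1) f :=
  ⟨hf.bilinear.add_left, hf.bilinear.smul_left, fun x y => by
    rw [RingHom.id_apply, hf.skew y x]; ring⟩

lemma symplectic_nondeg {f : (Fin n → F) → (Fin n → F) → F}
    (hf : Cfsg.Geo.IsSymplecticForm f) : Nondeg f := by
  intro x hx
  by_contra hx0
  obtain ⟨y, hy⟩ := (hf.nondegenerate x hx0).2
  exact hy (hx y)

/-- A similarity of some nondegenerate alternating form is `GL`-conjugate to a similarity of a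
given symplectic form. -/
theorem exists_gl_conj_similarity (f : (Fin n → F) → (Fin n → F) → F)
    (hf : Cfsg.Geo.IsSymplecticForm f) (g : GL (Fin n) F)
    (f' : (Fin n → F) → (Fin n → F) → F) (hf' : IsSForm (RingHom.id F) (-1) f')
    (hnd : Nondeg f') (halt : ∀ u, f' u u = 0) (μ : F) (hμ : μ ≠ 0)
    (hsim : ∀ u w, f' ((g : Matrix (Fin n) (Fin n) F) *ᵥ u) ((g : Matrix (Fin n) (Fin n) F) *ᵥ w)
      = μ * f' u w) :
    ∃ A : GL (Fin n) F, A * g * A⁻¹ ∈ Cfsg.Geo.similarityGroup f := by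
  have hcp : (LinearMap.id : Module.End F (Fin n → F)).charpoly
      = (LinearMap.id : Module.End F (Fin n → F)).charpoly := rfl
  obtain ⟨φ, -, hφ⟩ := exists_isometry_conj (σ := RingHom.id F) (ε := -1) (fun _ => rfl)
    (Or.inl ⟨rfl, rfl⟩) _ (Fin n → F) (Fin n → F) f' f LinearMap.id LinearMap.id rfl hf'
    (symplectic_isSForm hf) hnd (symplectic_nondeg hf) (fun _ => halt)
    (fun _ => hf.alternating) Module.End.isSemisimple_id Module.End.isSemisimple_id
    (fun _ _ => rfl) (fun _ _ => rfl) hcp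
  have h1 : LinearMap.toMatrix' φ.toLinearMap * LinearMap.toMatrix' φ.symm.toLinearMap = 1 := by
    rw [← LinearMap.toMatrix'_comp]
    simp
  have h2 : LinearMap.toMatrix' φ.symm.toLinearMap * LinearMap.toMatrix' φ.toLinearMap = 1 := by
    rw [← LinearMap.toMatrix'_comp]
    simp
  obtain ⟨A, hA, hAinv⟩ : ∃ A : GL (Fin n) F,
      (A : Matrix (Fin n) (Fin n) F) = LinearMap.toMatrix' φ.toLinearMap ∧
      ((A⁻¹ : GL (Fin n) F) : Matrix (Fin n) (Fin n) F) = LinearMap.toMatrix' φ.symm.toLinearMap :=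
    ⟨⟨_, _, h1, h2⟩, rfl, rfl⟩
  refine ⟨A, Units.mk0 μ hμ, fun u v => ?_⟩
  have key : ∀ u : Fin n → F, ((A * g * A⁻¹ : GL (Fin n) F) : Matrix (Fin n) (Fin n) F) *ᵥ u
      = φ ((g : Matrix (Fin n) (Fin n) F) *ᵥ φ.symm u) := by
    intro u
    rw [Units.val_mul, Units.val_mul, hA, hAinv, ← Matrix.mulVec_mulVec, ← Matrix.mulVec_mulVec,
      LinearMap.toMatrix'_mulVec, LinearMap.toMatrix'_mulVec]
    rfl
  rw [key, key, hφ, hsim, ← hφ, LinearEquiv.apply_symm_apply, LinearEquiv.apply_symm_apply]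
  rfl

lemma two_ne_zero_of_odd_card {q : ℕ} (hq : Fintype.card F = q) (hodd : Odd q) : (2 : F) ≠ 0 := by
  intro h2
  have h0 : (q : F) = 0 := by
    rw [← hq]
    exact FiniteField.cast_card_eq_zero F
  obtain ⟨k, rfl⟩ := hodd
  push_cast at h0
  rw [h2, zero_mul, zero_add] at h0
  exact one_ne_zero h0

/-- **Involutions conjugate into the symplectic-type subgroup.** -/
theorem sp_inv_conj {q : ℕ} (hq : Fintype.card F = q) (hn : 4 ≤ n) (he : Even n)
    (f : (Fin n → F) → (Fin n → F) → F) (hf : Cfsg.Geo.IsSymplecticForm f)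
    (hv : padicValNat 2 (q - 1) ≤ padicValNat 2 n)
    (x : Matrix.SpecialLinearGroup (Fin n) F) (z : F)
    (hx : ((x ^ 2 : Matrix.SpecialLinearGroup (Fin n) F) : Matrix (Fin n) (Fin n) F)
      = z • (1 : Matrix (Fin n) (Fin n) F)) :
    ∃ P : Matrix.SpecialLinearGroup (Fin n) F, P⁻¹ * x * P ∈ (Cfsg.Geo.similarityGroup f).comap
      (Matrix.SpecialLinearGroup.toGL : Matrix.SpecialLinearGroup (Fin n) F →* GL (Fin n) F) := by
  have hne : NeZero n := ⟨by omega⟩
  obtain ⟨M, hMdef⟩ : ∃ M : Matrix (Fin n) (Fin n) F, M = x := ⟨_, rfl⟩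
  have hM : M * M = z • (1 : Matrix (Fin n) (Fin n) F) := by
    rw [hMdef, ← hx, pow_two, Matrix.SpecialLinearGroup.coe_mul]
  have hdet : M.det = 1 := by rw [hMdef]; exact x.2
  have hz : z ≠ 0 := by
    rintro rfl
    have hnon : Nonempty (Fin n) := ⟨⟨0, by omega⟩⟩
    have := congrArg Matrix.det hM
    rw [Matrix.det_mul, hdet, zero_smul, Matrix.det_zero] at this
    simp at this
  obtain ⟨m, hm⟩ := he
  have hfin : finrank F (Fin n → F) = 2 * m := by
    rw [Module.finrank_fintype_fun_eq_card, Fintype.card_fin, hm, two_mul]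
  have hform : ∃ (f' : (Fin n → F) → (Fin n → F) → F) (μ : F), IsSForm (RingHom.id F) (-1) f' ∧
      Nondeg f' ∧ (∀ u, f' u u = 0) ∧ μ ≠ 0 ∧ ∀ u w, f' (M *ᵥ u) (M *ᵥ w) = μ * f' u w := by
    rcases inv_classes M z hz hM with
      ⟨h2, hs, (⟨c, a, b, hzc, hab, hchar⟩ | ⟨hsq, k, hnk, hchar⟩)⟩ | ⟨h2, c, hzc, hN⟩
    · have hc0 : c ≠ 0 := by
        rintro rfl
        apply hz
        rw [hzc]
        ring
      have hcc : c ≠ -c := by
        intro h
        have : (2 : F) * c = 0 := by linear_combination h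
        rcases mul_eq_zero.mp this with h' | h'
        · exact h2 h'
        · exact hc0 h'
      have hdet' : (1 : F) = (-1) ^ a * c ^ n := by
        have h1 := Matrix.det_eq_sign_charpoly_coeff M
        rw [hdet, hchar, coeff_zero_eq_eval_zero, eval_mul, eval_pow, eval_pow, eval_sub,
          eval_sub, eval_X, eval_C, eval_C, Fintype.card_fin, zero_sub, zero_sub, neg_neg,
          (Even.neg_one_pow ⟨m, hm⟩), one_mul] at h1
        rw [← hab, pow_add, ← mul_assoc, ← mul_pow, neg_one_mul]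
        exact h1
      have haeven : Even a := by
        by_contra hodd
        rw [Nat.not_even_iff_odd] at hodd
        rw [hodd.neg_one_pow] at hdet'
        exact no_pow_eq_neg_one hq h2 hv c (by linear_combination hdet')
      have hbeven : Even b := by
        have : Even (a + b) := hab ▸ ⟨m, hm⟩
        exact (Nat.even_add.mp this).mp haeven
      obtain ⟨a', ha'⟩ := haeven
      obtain ⟨b', hb'⟩ := hbeven
      obtain ⟨f', h1, h2', h3, h4⟩ := exists_form_split (Fin n → F) (toLin' M) hs c hcc a' b'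
        (by rw [Matrix.charpoly_toLin', hchar, ha', hb', two_mul, two_mul])
      exact ⟨f', c ^ 2, h1, h2', h3, pow_ne_zero 2 hc0, fun u w => by
        rw [← Matrix.toLin'_apply, ← Matrix.toLin'_apply]; exact h4 u w⟩
    · obtain ⟨f', h1, h2', h3, h4⟩ := exists_form_nonsq (Fin n → F) (toLin' M) hs z h2 hz hsq k
        (by rw [Matrix.charpoly_toLin', hchar])
      exact ⟨f', -z, h1, h2', h3, neg_ne_zero.mpr hz, fun u w => by
        rw [← Matrix.toLin'_apply, ← Matrix.toLin'_apply]; exact h4 u w⟩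
    · have hc0 : c ≠ 0 := by
        rintro rfl
        apply hz
        rw [hzc]
        ring
      have hN' : ∀ u, toLin' (M - c • (1 : Matrix (Fin n) (Fin n) F))
          (toLin' (M - c • (1 : Matrix (Fin n) (Fin n) F)) u) = 0 := by
        intro u
        rw [← LinearMap.comp_apply, ← Matrix.toLin'_mul, hN, map_zero, LinearMap.zero_apply]
      obtain ⟨f', h1, h2', h3, h4⟩ := exists_form_nilsq m (Fin n → F)
        (toLin' (M - c • (1 : Matrix (Fin n) (Fin n) F))) c hfin hN'
      refine ⟨f', c ^ 2, h1, h2', h3, pow_ne_zero 2 hc0, fun u w => ?_⟩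
      have e : ∀ u : Fin n → F, M *ᵥ u
          = c • u + toLin' (M - c • (1 : Matrix (Fin n) (Fin n) F)) u := by
        intro u
        rw [Matrix.toLin'_apply, Matrix.sub_mulVec, Matrix.smul_mulVec, Matrix.one_mulVec]
        abel
      rw [e, e]
      exact h4 u w
  obtain ⟨f', μ, h1, h2, h3, hμ, h4⟩ := hform
  obtain ⟨A, hA⟩ := exists_gl_conj_similarity f hf (Matrix.SpecialLinearGroup.toGL x) f' h1 h2 h3
    μ hμ (fun u w => by
      rw [Matrix.SpecialLinearGroup.coe_GL_coe_matrix, ← hMdef]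
      exact h4 u w)
  exact sl_conj_of_gl_conj x A hA (fun δ _ => by
    obtain ⟨Cm, h5, h6⟩ := exists_commute_det_of_sq M z hz hM δ
    exact ⟨Cm, by rw [← hMdef]; exact h5, h6⟩)

/-- **An involution not conjugate into the symplectic-type subgroup**, when
`(n)_2 < (q - 1)_2`. -/
theorem sp_inv_bad {q : ℕ} (hq : Fintype.card F = q) (hn : 4 ≤ n)
    (f : (Fin n → F) → (Fin n → F) → F) (hf : Cfsg.Geo.IsSymplecticForm f)
    (hv : padicValNat 2 n < padicValNat 2 (q - 1)) :
    ∃ x : Matrix.SpecialLinearGroup (Fin n) F,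
      (∃ z : F, ((x ^ 2 : Matrix.SpecialLinearGroup (Fin n) F) : Matrix (Fin n) (Fin n) F)
        = z • (1 : Matrix (Fin n) (Fin n) F)) ∧
      (∀ z : F, (x : Matrix (Fin n) (Fin n) F) ≠ z • (1 : Matrix (Fin n) (Fin n) F)) ∧
      ¬ ∃ P : Matrix.SpecialLinearGroup (Fin n) F, P⁻¹ * x * P ∈
        (Cfsg.Geo.similarityGroup f).comap
        (Matrix.SpecialLinearGroup.toGL : Matrix.SpecialLinearGroup (Fin n) F →* GL (Fin n) F) := by
  classical
  have hq2 : 1 < q := hq ▸ Fintype.one_lt_card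
  have hodd : Odd q := by
    have h1 : 2 ∣ q - 1 := dvd_of_one_le_padicValNat (by omega)
    obtain ⟨k, hk⟩ := h1
    exact ⟨k, by omega⟩
  have h2 : (2 : F) ≠ 0 := two_ne_zero_of_odd_card hq hodd
  obtain ⟨c, hc⟩ := exists_pow_eq_neg_one (F := F) hq (by omega : n ≠ 0) hv
  have hc0 : c ≠ 0 := by
    rintro rfl
    rw [zero_pow (by omega)] at hc
    exact one_ne_zero (neg_eq_zero.mp hc.symm)
  obtain ⟨i₀, hi₀⟩ : ∃ i₀ : Fin n, (i₀ : ℕ) = 0 := ⟨⟨0, by omega⟩, rfl⟩
  obtain ⟨i₁, hi₁⟩ : ∃ i₁ : Fin n, (i₁ : ℕ) = 1 := ⟨⟨1, by omega⟩, rfl⟩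
  obtain ⟨i₂, hi₂⟩ : ∃ i₂ : Fin n, (i₂ : ℕ) = 2 := ⟨⟨2, by omega⟩, rfl⟩
  have h10 : i₁ ≠ i₀ := fun h => by rw [h, hi₀] at hi₁; omega
  have h20 : i₂ ≠ i₀ := fun h => by rw [h, hi₀] at hi₂; omega
  have h12 : i₁ ≠ i₂ := fun h => by rw [h, hi₂] at hi₁; omega
  obtain ⟨d, hd⟩ : ∃ d : Fin n → F, d = fun i => if i = i₀ then -1 else 1 := ⟨_, rfl⟩
  have hd0 : d i₀ = -1 := by rw [hd]; simp
  have hd1 : ∀ i, i ≠ i₀ → d i = 1 := fun i hi => by rw [hd]; simp [hi]
  have hdd : ∀ i, d i * d i = 1 := by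
    intro i
    by_cases hi : i = i₀
    · rw [hi, hd0]; ring
    · rw [hd1 i hi]; ring
  obtain ⟨M, hM⟩ : ∃ M : Matrix (Fin n) (Fin n) F, M = c • Matrix.diagonal d := ⟨_, rfl⟩
  have hdet : M.det = 1 := by
    rw [hM, Matrix.det_smul, Matrix.det_diagonal, Fintype.card_fin, hc, hd,
      Finset.prod_ite_eq']
    simp
  have hMM : M * M = (c ^ 2) • (1 : Matrix (Fin n) (Fin n) F) := by
    rw [hM, Matrix.smul_mul, Matrix.mul_smul, smul_smul, Matrix.diagonal_mul_diagonal, ← pow_two]
    congr 1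
    rw [← Matrix.diagonal_one]
    congr 1
    funext i
    exact hdd i
  have hMe : ∀ i : Fin n, M *ᵥ (fun j => if i = j then (1 : F) else 0)
      = (c * d i) • (fun j => if i = j then (1 : F) else 0) := by
    intro i
    funext j
    rw [hM, Matrix.smul_mulVec, Pi.smul_apply, Matrix.mulVec_diagonal, Pi.smul_apply, smul_eq_mul,
      smul_eq_mul]
    by_cases h : i = j
    · subst h; simp
    · simp [h]
  obtain ⟨x, hx⟩ : ∃ x : Matrix.SpecialLinearGroup (Fin n) F,
      (x : Matrix (Fin n) (Fin n) F) = M := ⟨⟨M, hdet⟩, rfl⟩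
  refine ⟨x, ⟨c ^ 2, ?_⟩, ?_, ?_⟩
  · rw [pow_two, Matrix.SpecialLinearGroup.coe_mul, hx]
    exact hMM
  · intro z hz
    rw [hx] at hz
    have e0 := congrFun (congrFun hz i₀) i₀
    have e1 := congrFun (congrFun hz i₁) i₁
    simp only [hM, Matrix.smul_apply, Matrix.diagonal_apply_eq, Matrix.one_apply_eq, smul_eq_mul,
      mul_one] at e0 e1
    rw [hd0] at e0
    rw [hd1 i₁ h10] at e1
    apply h2
    have : (2 : F) * c = 0 := by linear_combination e1 - e0
    rcases mul_eq_zero.mp this with h | h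
    · exact h
    · exact absurd h hc0
  · rintro ⟨P, hP⟩
    rw [Subgroup.mem_comap] at hP
    obtain ⟨lam, hlam⟩ := hP
    obtain ⟨Pm, hPm⟩ : ∃ Pm : Matrix (Fin n) (Fin n) F, Pm = P := ⟨_, rfl⟩
    obtain ⟨Qm, hQm⟩ : ∃ Qm : Matrix (Fin n) (Fin n) F,
        Qm = (P⁻¹ : Matrix.SpecialLinearGroup (Fin n) F) := ⟨_, rfl⟩
    have hQP : Qm * Pm = 1 := by
      rw [hQm, hPm, ← Matrix.SpecialLinearGroup.coe_mul, inv_mul_cancel,
        Matrix.SpecialLinearGroup.coe_one]
    have hPQ : Pm * Qm = 1 := by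
      rw [hQm, hPm, ← Matrix.SpecialLinearGroup.coe_mul, mul_inv_cancel,
        Matrix.SpecialLinearGroup.coe_one]
    have hY : ((Matrix.SpecialLinearGroup.toGL (P⁻¹ * x * P) : GL (Fin n) F) :
        Matrix (Fin n) (Fin n) F) = Qm * M * Pm := by
      rw [Matrix.SpecialLinearGroup.coe_GL_coe_matrix, Matrix.SpecialLinearGroup.coe_mul,
        Matrix.SpecialLinearGroup.coe_mul, hQm, hPm, hx]
    rw [hY] at hlam
    obtain ⟨w, hw⟩ : ∃ w : Fin n → Fin n → F,
        w = fun i => Qm *ᵥ (fun j => if i = j then (1 : F) else 0) := ⟨_, rfl⟩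
    have hPw : ∀ i, Pm *ᵥ w i = (fun j => if i = j then (1 : F) else 0) := by
      intro i
      rw [hw, Matrix.mulVec_mulVec, hPQ, Matrix.one_mulVec]
    have hYw : ∀ i, (Qm * M * Pm) *ᵥ w i = (c * d i) • w i := by
      intro i
      rw [← Matrix.mulVec_mulVec, hPw, ← Matrix.mulVec_mulVec, hMe, Matrix.mulVec_smul, hw]
    have hkey : ∀ i j, (c * d i * (c * d j) - (lam : F)) * f (w i) (w j) = 0 := by
      intro i j
      have h := hlam (w i) (w j)
      rw [hYw, hYw, hf.bilinear.smul_left, hf.bilinear.smul_right] at h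
      linear_combination h
    have hrad : ∀ u : Fin n → F, (∀ j, f u (w j) = 0) → u = 0 := by
      intro u hu
      by_contra hu0
      obtain ⟨y, hy⟩ := (hf.nondegenerate u hu0).2
      apply hy
      obtain ⟨L, hL⟩ : ∃ L : (Fin n → F) →ₗ[F] F, ∀ v, L v = f u (Qm *ᵥ v) :=
        ⟨{ toFun := fun v => f u (Qm *ᵥ v)
           map_add' := fun a b => by rw [Matrix.mulVec_add, hf.bilinear.add_right]
           map_smul' := fun a b => by
             rw [Matrix.mulVec_smul, hf.bilinear.smul_right, RingHom.id_apply, smul_eq_mul] },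
          fun v => rfl⟩
      have e1 : y = Qm *ᵥ (Pm *ᵥ y) := by
        rw [Matrix.mulVec_mulVec, hQP, Matrix.one_mulVec]
      rw [e1, ← hL, LinearMap.pi_apply_eq_sum_univ]
      apply Finset.sum_eq_zero
      intro i _
      rw [hL]
      have := hu i
      rw [hw] at this
      rw [this, smul_zero]
    have hw0 : ∀ i, w i ≠ 0 := by
      intro i h
      have h1 := hPw i
      rw [h, Matrix.mulVec_zero] at h1
      have h3 := congrFun h1 i
      simp at h3
    by_cases hl : (lam : F) = -c ^ 2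
    · have hz : ∀ i j, i ≠ i₀ → j ≠ i₀ → f (w i) (w j) = 0 := by
        intro i j hi hj
        have h := hkey i j
        rw [hd1 i hi, hd1 j hj, hl] at h
        have h3 : (2 : F) * c ^ 2 ≠ 0 := mul_ne_zero h2 (pow_ne_zero 2 hc0)
        have h4 : (2 * c ^ 2) * f (w i) (w j) = 0 := by linear_combination h
        rcases mul_eq_zero.mp h4 with h5 | h5
        · exact absurd h5 h3
        · exact h5
      by_cases h1z : f (w i₁) (w i₀) = 0
      · apply hw0 i₁
        apply hrad
        intro j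
        by_cases hj : j = i₀
        · rw [hj]; exact h1z
        · exact hz i₁ j h10 hj
      · have hu : f (w i₂) (w i₀) • w i₁ + (-f (w i₁) (w i₀)) • w i₂ = 0 := by
          apply hrad
          intro j
          rw [hf.bilinear.add_left, hf.bilinear.smul_left, hf.bilinear.smul_left]
          by_cases hj : j = i₀
          · rw [hj]; ring
          · rw [hz i₁ j h10 hj, hz i₂ j h20 hj]; ring
        have h3 := congrArg (fun u => (Pm *ᵥ u) i₂) hu
        simp only [Matrix.mulVec_add, Matrix.mulVec_smul, hPw, Pi.add_apply, Pi.smul_apply,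
          smul_eq_mul, Matrix.mulVec_zero, Pi.zero_apply] at h3
        simp [h12] at h3
        exact h1z h3
    · apply hw0 i₀
      apply hrad
      intro j
      by_cases hj : j = i₀
      · rw [hj]; exact hf.alternating _
      · have h := hkey i₀ j
        rw [hd0, hd1 j hj] at h
        have h3 : c * -1 * (c * 1) - (lam : F) ≠ 0 := by
          intro h4
          apply hl
          linear_combination -h4
        rcases mul_eq_zero.mp h with h5 | h5
        · exact absurd h5 h3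
        · exact h5

end Target

end Cfsg.Agent.Lib.Helper47
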