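import Cfsg.Agent.Lib.Helper47.NilCube

/-!
# Elements of order three of `PSL_n(q)`, `q` a power of three, and subfield subgroups

Conjugacy of elements with scalar cube into the subfield group, adjusting determinants by the
centraliser and by the subfield group, and the Frobenius descent argument for the class of
`J₂^{n/2}` when the subfield has index two.
-/

set_option autoImplicit false

namespace Cfsg.Agent.Lib.Helper47

open Polynomial Module Matrix

universe u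

section NT3

variable {F : Type*} [Field F] [Fintype F] {q : ℕ}

/-- A primitive root of order `q - 1` generating the multiplicative group. -/
lemma exists_prim_gen (hq : Fintype.card F = q) :
    ∃ γ : F, γ ≠ 0 ∧ (∀ x : F, x ≠ 0 → ∃ a : ℕ, x = γ ^ a) ∧ IsPrimitiveRoot γ (q - 1) := by
  have hq2 : 1 < q := hq ▸ Fintype.one_lt_card
  obtain ⟨γ, t, hγ0, hgen, ht, hγq, hprim⟩ := exists_gen_root hq (dvd_refl (q - 1))
  have ht1 : t = 1 := by
    have : (q - 1) * t = (q - 1) * 1 := by rw [← ht, mul_one]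
    exact Nat.eq_of_mul_eq_mul_left (by omega) this
  rw [ht1, pow_one] at hprim
  exact ⟨γ, hγ0, hgen, hprim⟩

/-- Over a finite field of odd order there is a non-square. -/
lemma exists_nonsq (hq : Fintype.card F = q) (hodd : Odd q) : ∃ δ : F, ∀ c : F, c ^ 2 ≠ δ := by
  have hq2 : 1 < q := hq ▸ Fintype.one_lt_card
  obtain ⟨w, hw, -⟩ := exists_nonsq_pow_eq_one (F := F) hq hodd (q - 1) (by
    have h1 : padicValNat 2 (2 * (q - 1)) = padicValNat 2 (q - 1) + 1 := by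
      rw [padicValNat.mul (by norm_num) (by omega), padicValNat_self, add_comm]
    omega)
  exact ⟨w, hw⟩

/-- The product of two non-squares is a square. -/
lemma nonsq_mul_nonsq (hq : Fintype.card F = q) (a b : F) (ha : ∀ c : F, c ^ 2 ≠ a)
    (hb : ∀ c : F, c ^ 2 ≠ b) : ∃ c : F, c ^ 2 = a * b := by
  obtain ⟨γ, hγ0, hgen, hprim⟩ := exists_prim_gen hq
  have ha0 : a ≠ 0 := by
    rintro rfl
    exact ha 0 (by ring)
  have hb0 : b ≠ 0 := by
    rintro rfl
    exact hb 0 (by ring)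
  obtain ⟨i, hi⟩ := hgen a ha0
  obtain ⟨j, hj⟩ := hgen b hb0
  have hio : ¬ 2 ∣ i := by
    rintro ⟨i', rfl⟩
    exact ha (γ ^ i') (by rw [hi, ← pow_mul, mul_comm])
  have hjo : ¬ 2 ∣ j := by
    rintro ⟨j', rfl⟩
    exact hb (γ ^ j') (by rw [hj, ← pow_mul, mul_comm])
  have hij : 2 ∣ i + j := by omega
  obtain ⟨l, hl⟩ := hij
  exact ⟨γ ^ l, by rw [hi, hj, ← pow_add, hl, ← pow_mul, mul_comm]⟩

/-- Given a non-square `a`, every non-zero element is a square times `1` or `a⁻¹`. -/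
lemma exists_sq_mul_of_nonsq (hq : Fintype.card F = q) (a : F) (ha : ∀ c : F, c ^ 2 ≠ a)
    (δ : F) : ∃ ε a' : F, (a' = 1 ∨ a' = a⁻¹) ∧ δ = ε ^ 2 * a' := by
  by_cases hδ : ∃ c : F, c ^ 2 = δ
  · obtain ⟨c, hc⟩ := hδ
    exact ⟨c, 1, Or.inl rfl, by rw [hc, mul_one]⟩
  · push Not at hδ
    obtain ⟨c, hc⟩ := nonsq_mul_nonsq hq δ a hδ ha
    have ha0 : a ≠ 0 := by
      rintro rfl
      exact ha 0 (by ring)
    refine ⟨c, a⁻¹, Or.inr rfl, ?_⟩
    rw [hc, mul_assoc, mul_inv_cancel₀ ha0, mul_one]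

/-- The norm-one descent: `δ α² = δ^{q₀}` and `α^{q₀+1} = 1` force `δ` to be a square. -/
lemma sq_of_norm_rel {q₀ : ℕ} (hq : Fintype.card F = q) (hqk : q = q₀ ^ 2) (hodd : Odd q)
    (δ α : F) (hδ : δ ≠ 0) (h1 : δ * α ^ 2 = δ ^ q₀) (h2 : α * α ^ q₀ = 1) :
    ∃ t : F, δ = t ^ 2 := by
  have hq2 : 1 < q := hq ▸ Fintype.one_lt_card
  have hq₀2 : 1 < q₀ := by
    by_contra hlt
    have : q₀ = 0 ∨ q₀ = 1 := by omega
    rcases this with h | h <;> rw [h] at hqk <;> simp at hqk <;> omega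
  have hodd₀ : Odd q₀ := by
    rw [hqk] at hodd
    exact (Nat.odd_pow_iff two_ne_zero).mp hodd
  have hfac : q - 1 = (q₀ + 1) * (q₀ - 1) := by
    rw [hqk]
    obtain ⟨b, rfl⟩ : ∃ b, q₀ = b + 1 := ⟨q₀ - 1, by omega⟩
    simp only [Nat.add_sub_cancel]
    have : (b + 1) ^ 2 = (b + 1 + 1) * b + 1 := by ring
    omega
  obtain ⟨γ, hγ0, hgen, hprim⟩ := exists_prim_gen hq
  have hα0 : α ≠ 0 := by
    rintro rfl
    rw [zero_mul] at h2
    exact zero_ne_one h2
  obtain ⟨i, hi⟩ := hgen α hα0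
  obtain ⟨j, hj⟩ := hgen δ hδ
  have hdvd : q - 1 ∣ i * (q₀ + 1) := by
    rw [← hprim.pow_eq_one_iff_dvd, ← h2, hi, ← pow_mul, ← pow_add]
    congr 1
    ring
  rw [hfac, mul_comm (q₀ + 1) (q₀ - 1)] at hdvd
  have h3 : q₀ - 1 ∣ i := Nat.dvd_of_mul_dvd_mul_right (by omega) hdvd
  obtain ⟨i', hi'⟩ := h3
  have h4₀ : γ ^ (j + 2 * i) = γ ^ (j * q₀) := by
    rw [pow_add, pow_mul', ← hi, ← hj, h1, pow_mul, ← hj]
  have h4 : (Units.mk0 γ hγ0) ^ (j + 2 * i) = (Units.mk0 γ hγ0) ^ (j * q₀) := by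
    apply Units.ext
    rw [Units.val_pow_eq_pow_val, Units.val_pow_eq_pow_val, Units.val_mk0]
    exact h4₀
  rw [pow_eq_pow_iff_modEq, ← orderOf_units, Units.val_mk0, ← hprim.eq_orderOf, hfac] at h4
  have h5 : j * q₀ = j + j * (q₀ - 1) := by
    obtain ⟨b, rfl⟩ : ∃ b, q₀ = b + 1 := ⟨q₀ - 1, by omega⟩
    simp only [Nat.add_sub_cancel]
    ring
  rw [h5, hi'] at h4
  have h6 : 2 * ((q₀ - 1) * i') ≡ j * (q₀ - 1) [MOD (q₀ + 1) * (q₀ - 1)] :=
    Nat.ModEq.add_left_cancel' j h4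
  have h7 : 2 * i' * (q₀ - 1) ≡ j * (q₀ - 1) [MOD (q₀ + 1) * (q₀ - 1)] := by
    have : 2 * i' * (q₀ - 1) = 2 * ((q₀ - 1) * i') := by ring
    rw [this]
    exact h6
  have h8 : 2 * i' ≡ j [MOD q₀ + 1] := Nat.ModEq.mul_right_cancel' (by omega) h7
  have h9 : 2 ∣ q₀ + 1 := by
    obtain ⟨s, hs⟩ := hodd₀
    exact ⟨s + 1, by omega⟩
  have h10 : 2 * i' ≡ j [MOD 2] := h8.of_dvd h9
  have h11 : 2 ∣ j := by
    have : j % 2 = 0 := by
      rw [← h10]
      simp
    exact Nat.dvd_of_mod_eq_zero this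
  obtain ⟨j', rfl⟩ := h11
  exact ⟨γ ^ j', by rw [hj, ← pow_mul, mul_comm]⟩

end NT3

section Adj

variable {F : Type u} [Field F] {n : ℕ}

/-- From `GL`-conjugacy into a subgroup to `SL`-conjugacy, adjusting by an element of the
subgroup and an element of the centraliser. -/
theorem sl_conj_of_gl_conj_adj {H : Subgroup (GL (Fin n) F)}
    (x : Matrix.SpecialLinearGroup (Fin n) F) (A g : GL (Fin n) F)
    (hA : A * Matrix.SpecialLinearGroup.toGL x * A⁻¹ ∈ H) (hg : g ∈ H)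
    (Cm : Matrix (Fin n) (Fin n) F)
    (hcomm : Cm * (x : Matrix (Fin n) (Fin n) F) = (x : Matrix (Fin n) (Fin n) F) * Cm)
    (hdet : (g : Matrix (Fin n) (Fin n) F).det * (A : Matrix (Fin n) (Fin n) F).det * Cm.det = 1) :
    ∃ P : Matrix.SpecialLinearGroup (Fin n) F, P⁻¹ * x * P ∈ H.comap
      (Matrix.SpecialLinearGroup.toGL : Matrix.SpecialLinearGroup (Fin n) F →* GL (Fin n) F) := by
  have hCunit : IsUnit Cm := by
    rw [Matrix.isUnit_iff_isUnit_det]
    exact IsUnit.of_mul_eq_one _ (by rw [mul_comm]; exact hdet)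
  obtain ⟨Cu, hCu⟩ := hCunit
  have hQdet : ((g * A * Cu : GL (Fin n) F) : Matrix (Fin n) (Fin n) F).det = 1 := by
    rw [Units.val_mul, Units.val_mul, Matrix.det_mul, Matrix.det_mul, hCu, hdet]
  obtain ⟨Qs, hQs⟩ : ∃ Qs : Matrix.SpecialLinearGroup (Fin n) F,
      Matrix.SpecialLinearGroup.toGL Qs = g * A * Cu :=
    ⟨⟨((g * A * Cu : GL (Fin n) F) : Matrix (Fin n) (Fin n) F), hQdet⟩, Units.ext rfl⟩
  have hcu : Cu * Matrix.SpecialLinearGroup.toGL x = Matrix.SpecialLinearGroup.toGL x * Cu := by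
    apply Units.ext
    rw [Units.val_mul, Units.val_mul, hCu]
    exact hcomm
  refine ⟨Qs⁻¹, ?_⟩
  rw [Subgroup.mem_comap, inv_inv, map_mul, map_mul, map_inv, hQs]
  have : g * A * Cu * Matrix.SpecialLinearGroup.toGL x * (g * A * Cu)⁻¹
      = g * (A * Matrix.SpecialLinearGroup.toGL x * A⁻¹) * g⁻¹ := by
    rw [mul_assoc (g * A) Cu, hcu]
    group
  rw [this]
  exact H.mul_mem (H.mul_mem hg hA) (H.inv_mem hg)

end Adj

section SubNonsq

variable {F : Type*} [Field F] [Fintype F]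

/-- For `q = q₀^k` with `q`, `k` odd, the subfield contains a non-square of `F`. -/
lemma subfield_odd_exists_nonsq {q q₀ k : ℕ} (hq : Fintype.card F = q) (F₀ : Subfield F)
    (hF₀ : Nat.card ↥F₀ = q₀) (hqk : q = q₀ ^ k) (hodd : Odd q) (hk : Odd k) :
    ∃ a ∈ F₀, ∀ c : F, c ^ 2 ≠ a := by
  classical
  have hfin : Fintype ↥F₀ := Fintype.ofFinite _
  have hcard₀ : Fintype.card ↥F₀ = q₀ := by rw [← Nat.card_eq_fintype_card, hF₀]
  have hk0 : k ≠ 0 := by
    rintro rfl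
    exact absurd hk (by decide)
  have hodd₀ : Odd q₀ := by
    rw [hqk] at hodd
    exact (Nat.odd_pow_iff hk0).mp hodd
  have hq₀2 : 2 ≤ q₀ := hcard₀ ▸ Fintype.one_lt_card
  obtain ⟨γ₀, t, hγ0, -, ht, -, hprim⟩ := exists_gen_root (F := ↥F₀) hcard₀ (dvd_refl (q₀ - 1))
  have ht1 : t = 1 := by
    have : (q₀ - 1) * t = (q₀ - 1) * 1 := by rw [← ht, mul_one]
    exact Nat.eq_of_mul_eq_mul_left (by omega) this
  rw [ht1, pow_one] at hprim
  have hprimF : IsPrimitiveRoot ((F₀.subtype : F₀ →+* F) γ₀) (q₀ - 1) :=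
    hprim.map_of_injective (F₀.subtype : F₀ →+* F).injective
  refine ⟨(F₀.subtype : F₀ →+* F) γ₀, Subtype.property _, ?_⟩
  intro c hc
  obtain ⟨s, hs⟩ := hodd
  obtain ⟨s₀, hs₀⟩ := hodd₀
  have hc0 : c ≠ 0 := by
    rintro rfl
    rw [zero_pow two_ne_zero] at hc
    exact hprimF.ne_zero (by omega) hc.symm
  have hcq : c ^ (q - 1) = 1 := by
    rw [← hq]
    exact FiniteField.pow_card_sub_one_eq_one c hc0
  have h1 : ((F₀.subtype : F₀ →+* F) γ₀) ^ s = 1 := by
    rw [← hc, ← pow_mul, ← hcq]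
    congr 1
    omega
  have h2 : q₀ - 1 ∣ s := hprimF.dvd_of_pow_eq_one _ h1
  obtain ⟨C, hCodd, hC⟩ := pow_sub_pow_odd_factor q₀ 1 k (by omega) (⟨s₀, hs₀⟩) odd_one hk
  rw [one_pow, ← hqk] at hC
  -- q - 1 = (q₀ - 1) * C = 2 s, q₀ - 1 = 2 s₀, q₀ - 1 ∣ s
  obtain ⟨u, hu⟩ := h2
  have h3 : 2 * s₀ * C = 2 * (2 * s₀ * u) := by
    have e1 : q₀ - 1 = 2 * s₀ := by omega
    have e2 : q - 1 = 2 * s := by omega
    rw [e1] at hC hu
    rw [e2, hu] at hC
    rw [← hC]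
  have hs₀0 : 0 < s₀ := by omega
  have h4 : C = 2 * u := by
    have h5 : 2 * s₀ * C = 2 * s₀ * (2 * u) := by rw [h3]; ring
    exact Nat.eq_of_mul_eq_mul_left (by omega) h5
  exact (Nat.not_even_iff_odd.mpr hCodd) ⟨u, by omega⟩

end SubNonsq

section Good3

variable {F : Type u} [Field F] [Fintype F] [CharP F 3] {n : ℕ}

/-- Cube roots in a finite field of characteristic three. -/
lemma exists_cube_root_three (z : F) : ∃ c : F, c ^ 3 = z := by
  have : Fact (Nat.Prime 3) := ⟨Nat.prime_three⟩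
  have hinj : Function.Injective (fun a : F => a ^ 3) := by
    intro a b hab
    simp only at hab
    have h1 : (a - b) ^ 3 = 0 := by
      have h0 : (a - b) ^ 3 = a ^ 3 - b ^ 3 := sub_pow_char a b
      rw [h0, hab, sub_self]
    exact sub_eq_zero.mp ((pow_eq_zero_iff (by norm_num)).mp h1)
  exact (Finite.injective_iff_surjective.mp hinj) z

/-- Elements of order three of `PSL_n(q)`, `q` a power of three, are conjugate into a subfield
group as soon as `n` is odd or the subfield contains a non-square. -/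
theorem subfield_cube_conj {q : ℕ} (hq : Fintype.card F = q) (hn : n ≠ 0) (F₀ : Subfield F)
    (hgood : Odd n ∨ ∃ a ∈ F₀, ∀ c : F, c ^ 2 ≠ a)
    (x : Matrix.SpecialLinearGroup (Fin n) F) (z : F)
    (hz : ((x ^ 3 : Matrix.SpecialLinearGroup (Fin n) F) : Matrix (Fin n) (Fin n) F)
      = z • (1 : Matrix (Fin n) (Fin n) F)) :
    ∃ P : Matrix.SpecialLinearGroup (Fin n) F, P⁻¹ * x * P ∈
      (Cfsg.Geo.subfieldSubgroup F₀ 1).comap
      (Matrix.SpecialLinearGroup.toGL : Matrix.SpecialLinearGroup (Fin n) F →* GL (Fin n) F) := by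
  classical
  have : Fact (Nat.Prime 3) := ⟨Nat.prime_three⟩
  have hne : Nonempty (Fin n) := ⟨⟨0, Nat.pos_of_ne_zero hn⟩⟩
  obtain ⟨i₀, -⟩ : ∃ i₀ : Fin n, i₀ = i₀ := ⟨⟨0, Nat.pos_of_ne_zero hn⟩, rfl⟩
  obtain ⟨M, hMx⟩ : ∃ M : Matrix (Fin n) (Fin n) F, M = (x : Matrix (Fin n) (Fin n) F) :=
    ⟨_, rfl⟩
  have hM : M ^ 3 = z • (1 : Matrix (Fin n) (Fin n) F) := by
    rw [hMx, ← hz, Matrix.SpecialLinearGroup.coe_pow]
  have hz0 : z ≠ 0 := by
    rintro rfl
    have h1 := congrArg Matrix.det hM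
    rw [Matrix.det_pow, hMx, x.det_coe, zero_smul, Matrix.det_zero, one_pow] at h1
    exact one_ne_zero h1
  have hxM : ((Matrix.SpecialLinearGroup.toGL x : GL (Fin n) F) : Matrix (Fin n) (Fin n) F) = M := by
    rw [hMx]
    rfl
  obtain ⟨c, hc⟩ := exists_cube_root_three z
  have hc0 : c ≠ 0 := by
    rintro rfl
    apply hz0
    rw [← hc]
    ring
  have hcomm : Commute M (c • (1 : Matrix (Fin n) (Fin n) F)) := by
    show M * (c • (1 : Matrix (Fin n) (Fin n) F)) = (c • (1 : Matrix (Fin n) (Fin n) F)) * M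
    rw [Matrix.mul_smul, Matrix.smul_mul, Matrix.mul_one, Matrix.one_mul]
  have hcube : (M - c • (1 : Matrix (Fin n) (Fin n) F)) ^ 3 = 0 := by
    rw [sub_pow_char_of_commute 3 hcomm, hM, _root_.smul_pow, one_pow, hc, sub_self]
  obtain ⟨N, hNdef⟩ : ∃ N : Matrix (Fin n) (Fin n) F,
      N = c⁻¹ • (M - c • (1 : Matrix (Fin n) (Fin n) F)) := ⟨_, rfl⟩
  have hNNN : N * N * N = 0 := by
    have hX3 : (M - c • (1 : Matrix (Fin n) (Fin n) F)) * (M - c • (1 : Matrix (Fin n) (Fin n) F))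
        * (M - c • (1 : Matrix (Fin n) (Fin n) F)) = 0 := by
      rw [← hcube, pow_succ, pow_two]
    rw [hNdef]
    simp only [Matrix.smul_mul, Matrix.mul_smul, smul_smul, hX3, smul_zero]
  have hMe : M = c • (1 + N) := by
    rw [hNdef, smul_add, smul_smul, mul_inv_cancel₀ hc0, one_smul]
    abel
  obtain ⟨P, N₀, hPu, hP, hN₀⟩ := nilcube_conj_zero_one N hNNN
  obtain ⟨A, hA⟩ : ∃ A : GL (Fin n) F, (A : Matrix (Fin n) (Fin n) F) = P :=
    ⟨Matrix.GeneralLinearGroup.mkOfDetNeZero P hPu.ne_zero, rfl⟩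
  have hAH : A * Matrix.SpecialLinearGroup.toGL x * A⁻¹ ∈ Cfsg.Geo.subfieldSubgroup F₀ 1 := by
    refine mem_subfieldSubgroup_one F₀ _ c hc0 (1 + N₀) ?_ ?_
    · apply conj_val_eq
      rw [hA, hxM]
      conv_lhs => rw [hMe]
      rw [Matrix.mul_smul, Matrix.mul_add, Matrix.mul_one, hP, Matrix.smul_mul, Matrix.add_mul,
        Matrix.one_mul]
    · intro i j
      rw [Matrix.add_apply]
      apply add_mem
      · rw [Matrix.one_apply]
        split_ifs
        · exact one_mem _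
        · exact zero_mem _
      · rcases hN₀ i j with h | h
        · rw [h]; exact zero_mem _
        · rw [h]; exact one_mem _
  have hN' : ∀ u, toLin' N (toLin' N (toLin' N u)) = 0 := by
    intro u
    rw [← LinearMap.comp_apply, ← LinearMap.comp_apply, ← Matrix.toLin'_mul, ← Matrix.toLin'_mul,
      hNNN, map_zero, LinearMap.zero_apply]
  have hnt : Nontrivial (Fin n → F) := Function.nontrivial
  -- from a commuting endomorphism to a commuting matrix
  have htr : ∀ (cl : Module.End F (Fin n → F)), (∀ u, cl (toLin' N u) = toLin' N (cl u)) →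
      LinearMap.toMatrix' cl * M = M * LinearMap.toMatrix' cl := by
    intro cl hcl
    have h1 : LinearMap.toMatrix' cl * N = N * LinearMap.toMatrix' cl := by
      apply Matrix.toLin'.injective
      rw [Matrix.toLin'_mul, Matrix.toLin'_mul, Matrix.toLin'_toMatrix']
      apply LinearMap.ext
      intro u
      rw [LinearMap.comp_apply, LinearMap.comp_apply]
      exact hcl u
    rw [hMe, Matrix.mul_smul, Matrix.smul_mul, Matrix.mul_add, Matrix.add_mul, h1, Matrix.mul_one,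
      Matrix.one_mul]
  rcases nilcube_det_cases (fun δ => exists_cube_root_three δ) (toLin' N) hN' with hall | ⟨hev, -, hsq⟩
  · refine sl_conj_of_gl_conj x A hAH (fun δ _ => ?_)
    obtain ⟨cl, hcl, hdet⟩ := hall δ
    refine ⟨LinearMap.toMatrix' cl, ?_, by rw [← hdet, LinearMap.det_toMatrix']⟩
    rw [← hMx]
    exact htr cl hcl
  · rw [Module.finrank_fintype_fun_eq_card, Fintype.card_fin] at hev
    rcases hgood with hodd | ⟨a, haF₀, ha⟩
    · exact absurd hev (Nat.not_even_iff_odd.mpr hodd)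
    · have hAdet : (A : Matrix (Fin n) (Fin n) F).det ≠ 0 :=
        ((Matrix.isUnit_iff_isUnit_det _).mp A.isUnit).ne_zero
      have ha0 : a ≠ 0 := by
        rintro rfl
        exact ha 0 (by ring)
      obtain ⟨ε, a', ha', hδ⟩ := exists_sq_mul_of_nonsq hq a ha ((A : Matrix (Fin n) (Fin n) F).det)⁻¹
      have ha'F₀ : a' ∈ F₀ := by
        rcases ha' with h | h
        · rw [h]; exact one_mem _
        · rw [h]; exact inv_mem haF₀
      have ha'0 : a' ≠ 0 := by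
        rcases ha' with h | h
        · rw [h]; exact one_ne_zero
        · rw [h]; exact inv_ne_zero ha0
      obtain ⟨cl, hcl, hdet⟩ := hsq ε
      have hgdet : (Matrix.diagonal (Function.update (1 : Fin n → F) i₀ a')).det = a' := by
        rw [Matrix.det_diagonal, Finset.prod_update_of_mem (Finset.mem_univ i₀)]
        simp
      obtain ⟨g, hg⟩ : ∃ g : GL (Fin n) F, (g : Matrix (Fin n) (Fin n) F)
          = Matrix.diagonal (Function.update (1 : Fin n → F) i₀ a') :=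
        ⟨Matrix.GeneralLinearGroup.mkOfDetNeZero
          (Matrix.diagonal (Function.update (1 : Fin n → F) i₀ a')) (by rw [hgdet]; exact ha'0), rfl⟩
      have hgH : g ∈ Cfsg.Geo.subfieldSubgroup F₀ 1 := by
        refine mem_subfieldSubgroup_one F₀ g 1 one_ne_zero _ (by rw [one_smul, hg]) ?_
        intro i j
        rw [Matrix.diagonal_apply]
        by_cases hij : i = j
        · rw [if_pos hij]
          by_cases hi : i = i₀
          · rw [hi, Function.update_self]; exact ha'F₀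
          · rw [Function.update_of_ne hi]; exact one_mem _
        · rw [if_neg hij]; exact zero_mem _
      refine sl_conj_of_gl_conj_adj x A g hAH hgH (LinearMap.toMatrix' cl) ?_ ?_
      · rw [← hMx]
        exact htr cl hcl
      · rw [hg, hgdet, LinearMap.det_toMatrix', hdet]
        have : ((A : Matrix (Fin n) (Fin n) F).det)⁻¹ * (A : Matrix (Fin n) (Fin n) F).det = 1 :=
          inv_mul_cancel₀ hAdet
        rw [hδ] at this
        linear_combination this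

end Good3

section Descent

variable {F : Type u} [Field F] [Fintype F]

/-- Frobenius descent for the conjugacy class of `J₂^m`: a conjugator from a Frobenius-fixed
matrix has square determinant. -/
lemma sigma_descent {q q₀ m : ℕ} (hq : Fintype.card F = q) (hqk : q = q₀ ^ 2) (hodd : Odd q)
    (σ : F →+* F) (hσ : ∀ a, σ a = a ^ q₀)
    (h B : Matrix (Fin m ⊕ Fin m) (Fin m ⊕ Fin m) F) (hh : h.map σ = h) (hB : B.det ≠ 0)
    (hhB : h * B = B * Matrix.fromBlocks 1 0 1 1) : ∃ t : F, B.det = t ^ 2 := by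
  classical
  have hσσ : ∀ a : F, σ (σ a) = a := by
    intro a
    rw [hσ, hσ, ← pow_mul, ← pow_two, ← hqk, ← hq, FiniteField.pow_card]
  have hU : (Matrix.fromBlocks 1 0 1 1 : Matrix (Fin m ⊕ Fin m) (Fin m ⊕ Fin m) F).map σ
      = Matrix.fromBlocks 1 0 1 1 := by
    rw [Matrix.fromBlocks_map, Matrix.map_one σ (map_zero σ) (map_one σ),
      Matrix.map_zero σ (map_zero σ)]
  have hBu : IsUnit B.det := isUnit_iff_ne_zero.mpr hB
  have hBB : B * B⁻¹ = 1 := Matrix.mul_nonsing_inv B hBu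
  have hBB' : B⁻¹ * B = 1 := Matrix.nonsing_inv_mul B hBu
  obtain ⟨C, hC⟩ : ∃ C : Matrix (Fin m ⊕ Fin m) (Fin m ⊕ Fin m) F, C = B⁻¹ * B.map σ := ⟨_, rfl⟩
  have hBC : B * C = B.map σ := by
    rw [hC, ← Matrix.mul_assoc, hBB, Matrix.one_mul]
  have hcancel : ∀ X Y : Matrix (Fin m ⊕ Fin m) (Fin m ⊕ Fin m) F, B * X = B * Y → X = Y := by
    intro X Y hXY
    have := congrArg (fun Z => B⁻¹ * Z) hXY
    simp only [← Matrix.mul_assoc, hBB', Matrix.one_mul] at this
    exact this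
  have hCU : Matrix.fromBlocks 1 0 1 1 * C = C * Matrix.fromBlocks 1 0 1 1 := by
    apply hcancel
    rw [← Matrix.mul_assoc, ← hhB, Matrix.mul_assoc, hBC, ← Matrix.mul_assoc, hBC]
    conv_lhs => rw [← hh]
    rw [← Matrix.map_mul, hhB, Matrix.map_mul, hU]
  have hCC : C * C.map σ = 1 := by
    apply hcancel
    rw [← Matrix.mul_assoc, hBC, ← Matrix.map_mul, hBC, Matrix.mul_one]
    ext i j
    simp only [Matrix.map_apply]
    exact hσσ _
  -- block structure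
  have hCb := (Matrix.fromBlocks_toBlocks C).symm
  obtain ⟨C₁₁, hC₁₁⟩ : ∃ X, X = C.toBlocks₁₁ := ⟨_, rfl⟩
  obtain ⟨C₁₂, hC₁₂⟩ : ∃ X, X = C.toBlocks₁₂ := ⟨_, rfl⟩
  obtain ⟨C₂₁, hC₂₁⟩ : ∃ X, X = C.toBlocks₂₁ := ⟨_, rfl⟩
  obtain ⟨C₂₂, hC₂₂⟩ : ∃ X, X = C.toBlocks₂₂ := ⟨_, rfl⟩
  rw [← hC₁₁, ← hC₁₂, ← hC₂₁, ← hC₂₂] at hCb
  rw [hCb, Matrix.fromBlocks_multiply, Matrix.fromBlocks_multiply] at hCU
  simp only [Matrix.one_mul, Matrix.zero_mul, Matrix.mul_one, Matrix.mul_zero, add_zero,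
    zero_add] at hCU
  rw [Matrix.fromBlocks_inj] at hCU
  obtain ⟨e1, -, e3, -⟩ := hCU
  have h12 : C₁₂ = 0 := by
    have : C₁₁ + 0 = C₁₁ + C₁₂ := by rw [add_zero]; exact e1
    exact (add_left_cancel this).symm
  have h22 : C₂₂ = C₁₁ := by
    have : C₂₁ + C₂₂ = C₂₁ + C₁₁ := by rw [← e3, add_comm]
    exact add_left_cancel this
  rw [h12, h22] at hCb
  have hdetC : C.det = C₁₁.det ^ 2 := by
    rw [hCb, Matrix.det_fromBlocks_zero₁₂, pow_two]
  have hnorm : C₁₁.det * C₁₁.det ^ q₀ = 1 := by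
    rw [hCb, Matrix.fromBlocks_map, Matrix.fromBlocks_multiply, ← Matrix.fromBlocks_one,
      Matrix.fromBlocks_inj] at hCC
    obtain ⟨e, -, -, -⟩ := hCC
    rw [Matrix.zero_mul, add_zero] at e
    have h1 := congrArg Matrix.det e
    rw [Matrix.det_mul, Matrix.det_one] at h1
    have h2 : (C₁₁.map σ).det = σ C₁₁.det := by
      rw [RingHom.map_det]
      rfl
    rw [h2, hσ] at h1
    exact h1
  have hrel : B.det * C₁₁.det ^ 2 = B.det ^ q₀ := by
    have h1 := congrArg Matrix.det hBC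
    rw [Matrix.det_mul, hdetC] at h1
    have h2 : (B.map σ).det = σ B.det := by
      rw [RingHom.map_det]
      rfl
    rw [h2, hσ] at h1
    exact h1
  exact sq_of_norm_rel hq hqk hodd B.det C₁₁.det hB hrel hnorm

end Descent

section Bad3

variable {F : Type u} [Field F] [Fintype F] [CharP F 3] {n : ℕ}

/-- For `q = q₀²` a power of three and `n` even there is an element of order three of `PSL_n(q)`
not conjugate into the subfield group. -/
theorem subfield_cube_bad {q q₀ : ℕ} (hq : Fintype.card F = q) (F₀ : Subfield F)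
    (hF₀ : Nat.card ↥F₀ = q₀) (hqk : q = q₀ ^ 2) (hn : n ≠ 0) (he : Even n) :
    ∃ x : Matrix.SpecialLinearGroup (Fin n) F,
      (∃ z : F, ((x ^ 3 : Matrix.SpecialLinearGroup (Fin n) F) : Matrix (Fin n) (Fin n) F)
        = z • (1 : Matrix (Fin n) (Fin n) F)) ∧
      (∀ z : F, (x : Matrix (Fin n) (Fin n) F) ≠ z • (1 : Matrix (Fin n) (Fin n) F)) ∧
      ¬ ∃ P : Matrix.SpecialLinearGroup (Fin n) F, P⁻¹ * x * P ∈
        (Cfsg.Geo.subfieldSubgroup F₀ 1).comap
        (Matrix.SpecialLinearGroup.toGL : Matrix.SpecialLinearGroup (Fin n) F →* GL (Fin n) F) := by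
  classical
  have hp3 : Fact (Nat.Prime 3) := ⟨Nat.prime_three⟩
  have hfin : Fintype ↥F₀ := Fintype.ofFinite _
  have hcard₀ : Fintype.card ↥F₀ = q₀ := by rw [← Nat.card_eq_fintype_card, hF₀]
  obtain ⟨f, -, hf⟩ := FiniteField.card F 3
  have hodd : Odd q := by
    rw [← hq, hf]
    exact Odd.pow (by decide)
  obtain ⟨e₀, he₀⟩ : ∃ e₀ : ℕ, q₀ = 3 ^ e₀ := by
    rw [hq, hqk] at hf
    have h1 : q₀ ∣ 3 ^ (f : ℕ) := by
      rw [← hf]
      exact Dvd.intro q₀ (by ring)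
    obtain ⟨e₀, -, he₀⟩ := (Nat.dvd_prime_pow Nat.prime_three).mp h1
    exact ⟨e₀, he₀⟩
  obtain ⟨σ, hσdef⟩ : ∃ σ : F →+* F, σ = iterateFrobenius F 3 e₀ := ⟨_, rfl⟩
  have hσ : ∀ a, σ a = a ^ q₀ := by
    intro a
    rw [hσdef, iterateFrobenius_def, he₀]
  have hσF₀ : ∀ a : ↥F₀, σ ((F₀.subtype : F₀ →+* F) a) = (F₀.subtype : F₀ →+* F) a := by
    intro a
    show σ (a : F) = (a : F)
    rw [hσ]
    have h1 := FiniteField.pow_card a
    rw [hcard₀] at h1
    exact congrArg Subtype.val h1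
  have h3F : (3 : F) = 0 := by
    have := CharP.cast_eq_zero F 3
    exact_mod_cast this
  have hcubeinj : ∀ a b : F, a ^ 3 = b ^ 3 → a = b := by
    intro a b hab
    have h0 : (a - b) ^ 3 = a ^ 3 - b ^ 3 := sub_pow_char a b
    have h1 : (a - b) ^ 3 = 0 := by rw [h0, hab, sub_self]
    exact sub_eq_zero.mp ((pow_eq_zero_iff (by norm_num)).mp h1)
  obtain ⟨m, hm⟩ := he
  have hm0 : m ≠ 0 := by omega
  obtain ⟨j₀, -⟩ : ∃ j₀ : Fin m, j₀ = j₀ := ⟨⟨0, Nat.pos_of_ne_zero hm0⟩, rfl⟩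
  obtain ⟨i₀, -⟩ : ∃ i₀ : Fin n, i₀ = i₀ := ⟨⟨0, Nat.pos_of_ne_zero hn⟩, rfl⟩
  obtain ⟨δ, hδ⟩ := exists_nonsq (F := F) hq hodd
  have hδ0 : δ ≠ 0 := by
    rintro rfl
    exact hδ 0 (by ring)
  obtain ⟨e, -⟩ : ∃ e : Fin m ⊕ Fin m ≃ Fin n, e = e :=
    ⟨finSumFinEquiv.trans (finCongr (by omega)), rfl⟩
  obtain ⟨D, hD⟩ : ∃ D : Matrix (Fin m) (Fin m) F,
      D = Matrix.diagonal (Function.update (1 : Fin m → F) j₀ δ) := ⟨_, rfl⟩
  have hDdet : D.det = δ := by
    rw [hD, Matrix.det_diagonal, Finset.prod_update_of_mem (Finset.mem_univ j₀)]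
    simp
  have hDj : D j₀ j₀ = δ := by
    rw [hD, Matrix.diagonal_apply_eq, Function.update_self]
  have hD3 : D + D + D = 0 := by
    have : D + D + D = (3 : F) • D := by
      rw [show (3 : F) = 1 + 1 + 1 by norm_num, add_smul, add_smul, one_smul]
    rw [this, h3F, zero_smul]
  obtain ⟨X₀, hX₀⟩ : ∃ X₀ : Matrix (Fin m ⊕ Fin m) (Fin m ⊕ Fin m) F,
      X₀ = Matrix.fromBlocks 1 0 D 1 := ⟨_, rfl⟩
  obtain ⟨A₀, hA₀⟩ : ∃ A₀ : Matrix (Fin m ⊕ Fin m) (Fin m ⊕ Fin m) F,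
      A₀ = Matrix.fromBlocks 1 0 0 D := ⟨_, rfl⟩
  have hXA : X₀ * A₀ = A₀ * Matrix.fromBlocks 1 0 1 1 := by
    rw [hX₀, hA₀, Matrix.fromBlocks_multiply, Matrix.fromBlocks_multiply]
    simp
  have hX3 : X₀ * X₀ * X₀ = 1 := by
    rw [hX₀, Matrix.fromBlocks_multiply, Matrix.fromBlocks_multiply]
    simp only [Matrix.one_mul, Matrix.zero_mul, Matrix.mul_one, Matrix.mul_zero, add_zero,
      zero_add]
    rw [hD3, Matrix.fromBlocks_one]
  have hXdet : X₀.det = 1 := by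
    rw [hX₀, Matrix.det_fromBlocks_zero₁₂, Matrix.det_one, mul_one]
  have hAdet : A₀.det = δ := by
    rw [hA₀, Matrix.det_fromBlocks_zero₁₂, Matrix.det_one, one_mul, hDdet]
  obtain ⟨Xn, hXn⟩ : ∃ Xn : Matrix (Fin n) (Fin n) F, Xn = X₀.submatrix e.symm e.symm :=
    ⟨_, rfl⟩
  have hXndet : Xn.det = 1 := by
    rw [hXn, Matrix.det_submatrix_equiv_self, hXdet]
  have hXn3 : Xn * Xn * Xn = 1 := by
    rw [hXn, Matrix.submatrix_mul_equiv, Matrix.submatrix_mul_equiv, hX3,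
      Matrix.submatrix_one_equiv]
  have hXne : Xn.submatrix e e = X₀ := by
    rw [hXn]
    ext a b
    simp
  obtain ⟨x, hx⟩ : ∃ x : Matrix.SpecialLinearGroup (Fin n) F,
      (x : Matrix (Fin n) (Fin n) F) = Xn := ⟨⟨Xn, hXndet⟩, rfl⟩
  refine ⟨x, ⟨1, ?_⟩, ?_, ?_⟩
  · rw [Matrix.SpecialLinearGroup.coe_pow, hx, pow_succ, pow_two, hXn3, one_smul]
  · intro μ hμ
    rw [hx] at hμ
    have h1 := congrFun (congrFun hμ (e (Sum.inr j₀))) (e (Sum.inl j₀))
    have hne : e (Sum.inr j₀) ≠ e (Sum.inl j₀) := by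
      intro h
      exact Sum.inr_ne_inl (e.injective h)
    rw [hXn, Matrix.submatrix_apply, Equiv.symm_apply_apply, Equiv.symm_apply_apply, hX₀,
      Matrix.fromBlocks_apply₂₁, hDj, Matrix.smul_apply, Matrix.one_apply_ne hne, smul_zero] at h1
    exact hδ0 h1
  · rintro ⟨P, hP⟩
    rw [Subgroup.mem_comap] at hP
    obtain ⟨lam, Y₀, hlam0, hY⟩ := exists_of_mem_subfieldSubgroup_one F₀ _ hP
    obtain ⟨Pm, hPm⟩ : ∃ Pm : Matrix (Fin n) (Fin n) F, Pm = P := ⟨_, rfl⟩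
    obtain ⟨Qm, hQm⟩ : ∃ Qm : Matrix (Fin n) (Fin n) F,
        Qm = (P⁻¹ : Matrix.SpecialLinearGroup (Fin n) F) := ⟨_, rfl⟩
    have hQP : Qm * Pm = 1 := by
      rw [hQm, hPm, ← Matrix.SpecialLinearGroup.coe_mul, inv_mul_cancel,
        Matrix.SpecialLinearGroup.coe_one]
    have hPQ : Pm * Qm = 1 := by
      rw [hQm, hPm, ← Matrix.SpecialLinearGroup.coe_mul, mul_inv_cancel,
        Matrix.SpecialLinearGroup.coe_one]
    have hQdet : Qm.det = 1 := by
      rw [hQm]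
      exact (P⁻¹).det_coe
    have hYe : ((Matrix.SpecialLinearGroup.toGL (P⁻¹ * x * P) : GL (Fin n) F) :
        Matrix (Fin n) (Fin n) F) = Qm * Xn * Pm := by
      rw [Matrix.SpecialLinearGroup.coe_GL_coe_matrix, Matrix.SpecialLinearGroup.coe_mul,
        Matrix.SpecialLinearGroup.coe_mul, hQm, hPm, hx]
    rw [hYe] at hY
    obtain ⟨h, hh⟩ : ∃ h : Matrix (Fin n) (Fin n) F,
        h = lam • Y₀.map (F₀.subtype : F₀ →+* F) := ⟨_, rfl⟩
    rw [← hh] at hY
    have hh3 : h * h * h = 1 := by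
      rw [← hY]
      calc Qm * Xn * Pm * (Qm * Xn * Pm) * (Qm * Xn * Pm)
          = Qm * Xn * (Pm * Qm) * Xn * (Pm * Qm) * Xn * Pm := by
            simp only [Matrix.mul_assoc]
        _ = Qm * (Xn * Xn * Xn) * Pm := by
            rw [hPQ]
            simp only [Matrix.mul_one, Matrix.mul_assoc]
        _ = 1 := by rw [hXn3, Matrix.mul_one, hQP]
    have hlamσ : σ lam = lam := by
      have h1 : h * h * h = (lam ^ 3) • (Y₀ * Y₀ * Y₀).map (F₀.subtype : F₀ →+* F) := by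
        rw [hh, Matrix.map_mul, Matrix.map_mul]
        simp only [Matrix.smul_mul, Matrix.mul_smul, smul_smul]
        congr 1
        ring
      rw [hh3] at h1
      have h2 := congrFun (congrFun h1 i₀) i₀
      rw [Matrix.one_apply_eq, Matrix.smul_apply, Matrix.map_apply, smul_eq_mul] at h2
      have h3 := congrArg σ h2
      rw [map_one, map_mul, hσF₀, map_pow] at h3
      have hy0 : (F₀.subtype : F₀ →+* F) ((Y₀ * Y₀ * Y₀) i₀ i₀) ≠ 0 := by
        intro h0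
        rw [h0, mul_zero] at h2
        exact one_ne_zero h2
      apply hcubeinj
      have h4 : σ lam ^ 3 * (F₀.subtype : F₀ →+* F) ((Y₀ * Y₀ * Y₀) i₀ i₀)
          = lam ^ 3 * (F₀.subtype : F₀ →+* F) ((Y₀ * Y₀ * Y₀) i₀ i₀) := by
        rw [← h3, ← h2]
      exact mul_right_cancel₀ hy0 h4
    have hhσ : h.map σ = h := by
      rw [hh]
      ext i j
      show σ (lam * (F₀.subtype : F₀ →+* F) (Y₀ i j)) = lam * (F₀.subtype : F₀ →+* F) (Y₀ i j)
      rw [map_mul, hlamσ, hσF₀]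
    obtain ⟨B, hBdef⟩ : ∃ B : Matrix (Fin m ⊕ Fin m) (Fin m ⊕ Fin m) F,
        B = Qm.submatrix e e * A₀ := ⟨_, rfl⟩
    have hBdet : B.det = δ := by
      rw [hBdef, Matrix.det_mul, Matrix.det_submatrix_equiv_self, hQdet, one_mul, hAdet]
    have hhB : h.submatrix e e * B = B * Matrix.fromBlocks 1 0 1 1 := by
      have e1 : h.submatrix e e = Qm.submatrix e e * X₀ * Pm.submatrix e e := by
        rw [← hY, ← hXne, Matrix.submatrix_mul_equiv, Matrix.submatrix_mul_equiv]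
      have e2 : Pm.submatrix e e * Qm.submatrix e e = 1 := by
        rw [Matrix.submatrix_mul_equiv, hPQ, Matrix.submatrix_one_equiv]
      rw [e1, hBdef, Matrix.mul_assoc, Matrix.mul_assoc, ← Matrix.mul_assoc (Pm.submatrix e e), e2,
        Matrix.one_mul, hXA, Matrix.mul_assoc]
    have hhσ' : (h.submatrix e e).map σ = h.submatrix e e := by
      conv_rhs => rw [← hhσ]
      rfl
    obtain ⟨t, ht⟩ := sigma_descent hq hqk hodd σ hσ (h.submatrix e e) B hhσ'
      (by rw [hBdet]; exact hδ0) hhB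
    rw [hBdet] at ht
    exact hδ t ht.symm

end Bad3

end Cfsg.Agent.Lib.Helper47
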