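import Mathlib
import Cfsg.Agent.Lib.Helper72.JLDefs
import Cfsg.Agent.Lib.Helper41.Cores

/-! Piece JL-CT of the S2942 project (helper72): `O₂(X) ≤ C_X(V)` and `[C_X(V), T] ≤ O₂(X)`. -/

set_option autoImplicit false

namespace Cfsg.Agent.Lib.Helper47.JL

open Cfsg.Agent.Lib.Helper72.JL Cfsg.Agent.Lib.Helper72.SC Cfsg.Agent.Lib.Helper78.Jc

open scoped commutatorElement

universe u

/-- A 2-subgroup normalizing a 2-subgroup `T` of odd index lies in `T`. -/
theorem ct_aux1 {X : Type*} [Group X] [Finite X] (T P : Subgroup X) (hT2 : IsPGroup 2 ↥T)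
    (hTodd : Odd T.index) (hP : IsPGroup 2 ↥P) (hPT : P ≤ Subgroup.normalizer (T : Set X)) :
    P ≤ T := by
  have h2 : IsPGroup 2 ↥(P ⊔ T : Subgroup X) := hP.to_sup_of_normal_right' hT2 hPT
  have hle : T ≤ P ⊔ T := le_sup_right
  have hd1 : T.relIndex (P ⊔ T) ∣ T.index := Subgroup.relIndex_dvd_index_of_le hle
  have hd2 : T.relIndex (P ⊔ T) ∣ Nat.card ↥(P ⊔ T : Subgroup X) :=
    Subgroup.relIndex_dvd_card T (P ⊔ T)
  obtain ⟨n, hn⟩ := IsPGroup.iff_card.1 h2
  rw [hn] at hd2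
  obtain ⟨k, hk, hk2⟩ := (Nat.dvd_prime_pow Nat.prime_two).1 hd2
  have hodd : Odd (T.relIndex (P ⊔ T)) := hTodd.of_dvd_nat hd1
  have h1 : T.relIndex (P ⊔ T) = 1 := by
    rw [hk2] at hodd ⊢
    rcases k with _ | k
    · rfl
    · exfalso
      rw [pow_succ] at hodd
      exact (Nat.not_odd_iff_even.2 (even_two.mul_left _)) hodd
  have h3 : P ⊔ T ≤ T := Subgroup.relIndex_eq_one.1 h1
  exact le_sup_left.trans h3

/-- JL-CT -/
theorem ct (h : VabStmt.{u}) : CtStmt.{u} := by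
  intro X _ _ T hs
  obtain ⟨hVQ, hVab, hVexp, hQT, hQV⟩ := h X T hs
  have hker : ∀ c : X, c ∈ (rhoT T).ker ↔ ∀ v ∈ VT T, c * v * c⁻¹ = v := by
    intro c
    rw [MonoidHom.mem_ker]
    constructor
    · intro hc v hv
      have h1 : ((rhoT T c ⟨v, hv⟩ : ↥(VT T)) : X) = c * v * c⁻¹ := by
        unfold rhoT
        rw [MulAut.conjNormal_apply]
      rw [← h1, hc]
      rfl
    · intro hc
      ext v
      have h1 : ((rhoT T c v : ↥(VT T)) : X) = c * (v : X) * c⁻¹ := by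
        unfold rhoT
        rw [MulAut.conjNormal_apply]
      rw [h1, hc v v.2]
      rfl
  have hCn : ((rhoT T).ker).Normal := MonoidHom.normal_ker _
  refine ⟨?_, ?_⟩
  · intro q hq
    rw [hker]
    intro v hv
    rw [hQV q hq v hv, mul_inv_cancel_right]
  · have hCN : (rhoT T).ker ≤ Subgroup.normalizer (T : Set X) := by
      intro c hc
      apply hs.hZN
      intro z hz
      have hzV : z ∈ VT T := Subgroup.subset_normalClosure hz
      exact mul_inv_eq_iff_eq_mul.1 ((hker c).1 hc z hzV)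
    have hDn : ((rhoT T).ker ⊓ T).Normal := by
      constructor
      intro d hd x
      have hxd : x * d * x⁻¹ ∈ (rhoT T).ker := hCn.conj_mem d hd.1 x
      refine ⟨hxd, ?_⟩
      have hP : IsPGroup 2 ↥(Subgroup.zpowers (x * d * x⁻¹)) := by
        obtain ⟨k, hk⟩ := hs.hT2 ⟨d, hd.2⟩
        have hk' : d ^ 2 ^ k = 1 := by
          have h1 := congrArg Subtype.val hk
          simpa using h1
        rintro ⟨g, hg⟩
        obtain ⟨n, rfl⟩ := Subgroup.mem_zpowers_iff.1 hg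
        refine ⟨k, Subtype.ext ?_⟩
        show ((x * d * x⁻¹) ^ n) ^ 2 ^ k = 1
        rw [← zpow_natCast, ← zpow_mul, mul_comm, zpow_mul, zpow_natCast, conj_pow, hk']
        simp
      have hPle : Subgroup.zpowers (x * d * x⁻¹) ≤ Subgroup.normalizer (T : Set X) := by
        rw [Subgroup.zpowers_le]
        exact hCN hxd
      exact ct_aux1 T _ hs.hT2 hs.hTodd hP hPle (Subgroup.mem_zpowers _)
    have hD2 : IsPGroup 2 ↥((rhoT T).ker ⊓ T : Subgroup X) := hs.hT2.to_le inf_le_right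
    have hDQ : (rhoT T).ker ⊓ T ≤ Cfsg.pCore 2 X :=
      Cfsg.Agent.Lib.Helper41.le_pCore _ hD2
    intro c hc t ht
    apply hDQ
    refine ⟨?_, ?_⟩
    · rw [commutatorElement_def, mul_assoc, mul_assoc]
      refine Subgroup.mul_mem _ hc ?_
      rw [← mul_assoc]
      exact hCn.conj_mem c⁻¹ (Subgroup.inv_mem _ hc) t
    · rw [commutatorElement_def]
      exact T.mul_mem ((Subgroup.mem_normalizer_iff.1 (hCN hc) t).1 ht) (T.inv_mem ht)

end Cfsg.Agent.Lib.Helper47.JL
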