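import Mathlib
import Cfsg.Agent.Lib.Helper78.JQDefs
import Cfsg.Agent.Lib.Helper82.JcOCPC
import Cfsg.Agent.Lib.Helper75.JcWF

/-! Project JQ (helper78, S2945), piece TRDB (helper47): the data of a `J`-component
transported to a subgroup `H` containing it. -/

set_option autoImplicit false

namespace Cfsg.Agent.Lib.Helper47.JQ

open Cfsg.Agent.Lib.Helper78.JQ Cfsg.Agent.Lib.Helper78.Jc

universe u

theorem trdb : TrdbStmt.{u} := by
  intro G _ _ T K H hJC hKH
  obtain ⟨hodd, hKJ, h3, hSyl, hW4, hW2⟩ := hJC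
  have hOK : Cfsg.pCoreOf 2 K ≤ K := Cfsg.Agent.Lib.Helper82.Jc.pc_le K
  have hKNO : K ≤ Subgroup.normalizer (Cfsg.pCoreOf 2 K : Set G) :=
    Cfsg.Agent.Lib.Helper82.Jc.pc_le_normalizer K
  have hWle : Cfsg.wOf K ≤ Cfsg.omegaCenterOf (Cfsg.pCoreOf 2 K) :=
    Cfsg.Agent.Lib.Helper75.Jc.wf_le _ K
      (hKNO.trans (Cfsg.Agent.Lib.Helper82.Jc.oc_normalizer (Cfsg.pCoreOf 2 K)))
  have hWO : Cfsg.wOf K ≤ Cfsg.pCoreOf 2 K :=
    hWle.trans (Cfsg.Agent.Lib.Helper82.Jc.oc_le (Cfsg.pCoreOf 2 K))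
  have hKW : Subgroup.normalizer (K : Set G) ≤ Subgroup.normalizer (Cfsg.wOf K : Set G) := by
    intro g hg
    have h1 := Cfsg.Agent.Lib.Helper82.Jc.pc_normalizer K hg
    have h2 := Cfsg.Agent.Lib.Helper82.Jc.oc_normalizer (Cfsg.pCoreOf 2 K) h1
    exact Cfsg.Agent.Lib.Helper75.Jc.wf_normalizer (Cfsg.omegaCenterOf (Cfsg.pCoreOf 2 K)) K g
      h2 hg
  have hinj : Function.Injective (Subgroup.map H.subtype) :=
    Subgroup.map_injective H.subtype_injective
  refine ⟨?_, ?_, ?_, ?_, ?_⟩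
  · apply hinj
    rw [MonoidHom.map_closure, Subgroup.map_subgroupOf_eq_of_le hKH]
    have hset : (H.subtype '' {g : ↥H | g ∈ K.subgroupOf H ∧ Odd (orderOf g)}) =
        {g : G | g ∈ K ∧ Odd (orderOf g)} := by
      ext g
      constructor
      · rintro ⟨x, ⟨hx1, hx2⟩, rfl⟩
        refine ⟨Subgroup.mem_subgroupOf.mp hx1, ?_⟩
        rw [Subgroup.coe_subtype, Subgroup.orderOf_coe]
        exact hx2
      · rintro ⟨hg1, hg2⟩
        refine ⟨⟨g, hKH hg1⟩, ⟨Subgroup.mem_subgroupOf.mpr hg1, ?_⟩, rfl⟩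
        rw [← Subgroup.orderOf_coe]
        exact hg2
    rw [hset]
    exact hodd
  · intro w hw
    rw [Subgroup.mem_subgroupOf] at hw
    apply Subtype.ext
    have h := hW2 (w : G) hw
    simpa using h
  · intro w hw
    rw [Subgroup.mem_subgroupOf] at hw ⊢
    exact hWO hw
  · intro o ho w hw
    rw [Subgroup.mem_subgroupOf] at ho hw
    apply Subtype.ext
    have h := Cfsg.Agent.Lib.Helper82.Jc.oc_comm (Cfsg.pCoreOf 2 K) (w : G) (hWle hw) (o : G) ho
    simp only [Subgroup.coe_mul]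
    exact h.symm
  · intro h hh
    have hG : (h : G) ∈ Subgroup.normalizer (K : Set G) := by
      rw [Subgroup.mem_normalizer_iff]
      intro k
      rw [Subgroup.mem_normalizer_iff] at hh
      constructor
      · intro hk
        have e := (hh ⟨k, hKH hk⟩).mp (Subgroup.mem_subgroupOf.mpr hk)
        rw [Subgroup.mem_subgroupOf] at e
        simpa using e
      · intro hk
        have hkK : (h : G)⁻¹ * ((h : G) * k * (h : G)⁻¹) * (h : G) ∈ K := by
          have hmem : (h : G) * k * (h : G)⁻¹ ∈ H := hKH hk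
          have e := (hh (h⁻¹ * ⟨(h : G) * k * (h : G)⁻¹, hmem⟩ * h)).mpr (by
            rw [Subgroup.mem_subgroupOf]
            have e2 : ((h * (h⁻¹ * ⟨(h : G) * k * (h : G)⁻¹, hmem⟩ * h) * h⁻¹ : ↥H) : G) =
                (h : G) * k * (h : G)⁻¹ := by
              simp [mul_assoc]
            rw [e2]
            exact hk)
          rw [Subgroup.mem_subgroupOf] at e
          simpa [mul_assoc] using e
        have e3 : (h : G)⁻¹ * ((h : G) * k * (h : G)⁻¹) * (h : G) = k := by group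
        rwa [e3] at hkK
    have hW := hKW hG
    rw [Subgroup.mem_normalizer_iff] at hW ⊢
    intro x
    rw [Subgroup.mem_subgroupOf, Subgroup.mem_subgroupOf]
    have h' := hW (x : G)
    simpa using h'

end Cfsg.Agent.Lib.Helper47.JQ
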