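import Mathlib
import Cfsg.Agent.Lib.Helper72.JRDefs
import Cfsg.Agent.Lib.Helper82.JcOCPC
import Cfsg.Agent.Lib.Helper94.JcTH

/-! Project JR (helper72, S2950), piece FIN (helper47): the final deduction of the statement
from the elementary facts JE-A1 … JE-A4, JR-MAX, S2942, JR-YP and the uniqueness step. -/

set_option autoImplicit false

namespace Cfsg.Agent.Lib.Helper47.JR

open Cfsg.Agent.Lib.Helper72.JR Cfsg.Agent.Lib.Helper72.JP Cfsg.Agent.Lib.Helper72.JM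
  Cfsg.Agent.Lib.Helper72.JL Cfsg.Agent.Lib.Helper72.SC Cfsg.Agent.Lib.Helper78.Jc

open scoped commutatorElement

universe u

/-- JR-FIN -/
theorem fin : Cfsg.Agent.Lib.Helper72.JR.FinStmt.{u} := by
  intro a1 a2 a3 a4 hMax hS42 hYp hUni G _ _ hL hN hZ hO S M hM hMJ T hT K hK
  obtain ⟨⟨hKc, -⟩, hKM, hO2⟩ := hK
  have hTs : T ∈ Cfsg.straddlingTwoSubgroups M := hT.1
  have hT2 : IsPGroup 2 ↥T := hTs.1
  have hTne : T ≠ ⊥ := hTs.2.1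
  have hJT : Cfsg.thompsonSubgroupOf 2 T ≤ T := Cfsg.Agent.Lib.Helper94.Jc.th_le_self T
  have hNJ : Subgroup.normalizer (Cfsg.thompsonSubgroupOf 2 T : Set G) ≤ M :=
    a1 G S M T hMJ hT
  have hA : ∀ L T₀ : Subgroup G, Cfsg.IsTwoLocal L → ¬ L ≤ M → Cfsg.IsSylowTwoIn T₀ L →
      Cfsg.thompsonSubgroupOf 2 T ≤ T₀ →
      Cfsg.thompsonSubgroupOf 2 T = Cfsg.thompsonSubgroupOf 2 T₀ ∧ L ∈ Cfsg.jOvergroups T₀ := by
    intro L T₀ h1 h2 h3 h4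
    have e := (a2 G M T L T₀ hT hNJ h1 h2 h3 h4).1
    exact ⟨e, a3 G hL M T L T₀ hNJ h1 h2 h3 e⟩
  have hzn : ZNHyp G := ⟨hL, hN, hZ⟩
  have hC : Ctx G M T := ⟨hzn, hNJ, hA⟩
  -- existence
  have hRloc : Cfsg.IsTwoLocal (Subgroup.normalizer (Cfsg.pCoreOf 2 (K ⊔ T) : Set G)) :=
    ⟨Cfsg.pCoreOf 2 (K ⊔ T), Cfsg.Agent.Lib.Helper82.Jc.pc_pgroup (K ⊔ T), hO2, rfl⟩
  obtain ⟨L, hLmax, hRL⟩ := hMax G _ hRloc
  have hKTL : K ⊔ T ≤ L := (Cfsg.Agent.Lib.Helper82.Jc.pc_le_normalizer (K ⊔ T)).trans hRL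
  have hKL : K ≤ L := le_sup_left.trans hKTL
  have hTL : T ≤ L := le_sup_right.trans hKTL
  have hLM : ¬ L ≤ M := fun h => hKM (hKL.trans h)
  have hsyl : Cfsg.IsSylowTwoIn T L :=
    a4 G M T L hT hLmax.1 hLM hTL (fun T₀ h3 h4 => a2 G M T L T₀ hT hNJ hLmax.1 hLM h3 h4)
  have hLT : L ∈ Cfsg.jOvergroups T := (hA L T hLmax.1 hLM hsyl hJT).2
  have hsub : (K.subgroupOf L).IsSubnormal := hS42 G hzn T hT2 hTne L hLT K hKc hKL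
  -- uniqueness
  obtain ⟨hY2, hY1⟩ := hYp G M T K hC hT2 hKc hKM
  have hNYloc : Cfsg.IsTwoLocal (Subgroup.normalizer (YOf M T K : Set G)) :=
    ⟨YOf M T K, hY2, hY1, rfl⟩
  have huniq : ∀ L' : Subgroup G, Cfsg.IsMaximalTwoLocal L' →
      K ⊔ Cfsg.thompsonSubgroupOf 2 T ≤ L' →
      Subgroup.normalizer (YOf M T K : Set G) = L' := by
    intro L' hL' hKJ'
    exact hL'.2 _ hNYloc (hUni G M T K hC hT2 hKc hKM L' hL'.1 hKJ')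
  have hKJL : K ⊔ Cfsg.thompsonSubgroupOf 2 T ≤ L :=
    (sup_le_sup_left hJT K).trans hKTL
  refine ⟨L, hLmax, hKJL, ?_, hsub, hsyl⟩
  intro L' hL' hKJ'
  rw [← huniq L' hL' hKJ', huniq L hLmax hKJL]

end Cfsg.Agent.Lib.Helper47.JR
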