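import Mathlib

set_option autoImplicit false

namespace Cfsg.Agent.Lib.Helper47

open Module

section LS

variable {K : Type*} [Field K] {G : Type*} [Group G] {d : ℕ}

/-- Extension of scalars of a matrix representation to the algebraic closure, as endomorphisms. -/
noncomputable def closureRep (ρ : G →* GL (Fin d) K) :
    G →* Module.End (AlgebraicClosure K) (Fin d → AlgebraicClosure K) where
  toFun g := Matrix.toLin' (((ρ g : GL (Fin d) K) : Matrix (Fin d) (Fin d) K).map
    (algebraMap K (AlgebraicClosure K)))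
  map_one' := by
    rw [map_one, Units.val_one, Matrix.map_one _ (map_zero _) (map_one _), Matrix.toLin'_one]
    rfl
  map_mul' g h := by
    rw [map_mul, Units.val_mul, Matrix.map_mul, Matrix.toLin'_mul]
    rfl

theorem closureRep_apply (ρ : G →* GL (Fin d) K) (g : G) :
    closureRep ρ g = Matrix.toLin' (((ρ g : GL (Fin d) K) : Matrix (Fin d) (Fin d) K).map
      (algebraMap K (AlgebraicClosure K))) := rfl

theorem closureRep_eq_one_iff (ρ : G →* GL (Fin d) K) (g : G) :
    closureRep ρ g = 1 ↔ ρ g = 1 := by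
  constructor
  · intro h
    rw [closureRep_apply] at h
    have h1 : Matrix.toLin' (((ρ g : GL (Fin d) K) : Matrix (Fin d) (Fin d) K).map
        (algebraMap K (AlgebraicClosure K)))
        = Matrix.toLin' (1 : Matrix (Fin d) (Fin d) (AlgebraicClosure K)) := by
      rw [h, Matrix.toLin'_one]
      rfl
    have h2 := Matrix.toLin'.injective h1
    have h3 : ((ρ g : GL (Fin d) K) : Matrix (Fin d) (Fin d) K) = 1 := by
      apply Matrix.map_injective (algebraMap K (AlgebraicClosure K)).injective
      show ((ρ g : GL (Fin d) K) : Matrix (Fin d) (Fin d) K).map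
        (algebraMap K (AlgebraicClosure K)) = (1 : Matrix (Fin d) (Fin d) K).map
        (algebraMap K (AlgebraicClosure K))
      rw [h2, Matrix.map_one _ (map_zero _) (map_one _)]
    exact Units.ext h3
  · intro h
    have : closureRep ρ g = closureRep ρ 1 := by
      rw [closureRep_apply, closureRep_apply, h, map_one]
    rw [this, map_one]

/-- Abstract Landazuri–Seitz type bound: if an elementary abelian `p`-subgroup `x(A)` acts
nontrivially through `a₀`, and every character of `A` nontrivial on `a₀` has at least `N`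
conjugates under the normalizer, then the degree is at least `N`. -/
theorem ls_bound {A : Type*} [AddCommGroup A] [Finite A] (p : ℕ) [Fact p.Prime]
    (hpA : ∀ a : A, p • a = 0) (hpK : (p : K) ≠ 0)
    (ρ : G →* GL (Fin d) K) (x : Multiplicative A →* G) (a₀ : A)
    (ha₀ : ρ (x (Multiplicative.ofAdd a₀)) ≠ 1) (N : ℕ)
    (H : ∀ χ : AddChar A (AlgebraicClosure K), χ a₀ ≠ 1 →
      ∃ s : Finset (AddChar A (AlgebraicClosure K)), N ≤ s.card ∧
        ∀ χ' ∈ s, ∃ (g : G) (σ : A → A),
          (∀ a, g * x (Multiplicative.ofAdd a) * g⁻¹ = x (Multiplicative.ofAdd (σ a))) ∧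
          ∀ a, χ' a = χ (σ a)) :
    N ≤ d := by
  classical
  obtain ⟨R, hR⟩ : ∃ R, R = closureRep ρ := ⟨_, rfl⟩
  let f : A → Module.End (AlgebraicClosure K) (Fin d → AlgebraicClosure K) :=
    fun a => R (x (Multiplicative.ofAdd a))
  have hf_add : ∀ a b, f (a + b) = f a * f b := by
    intro a b
    show R (x (Multiplicative.ofAdd (a + b))) = _
    rw [ofAdd_add, map_mul, map_mul]
  have hf_zero : f 0 = 1 := by
    show R (x (Multiplicative.ofAdd 0)) = 1
    rw [ofAdd_zero, map_one, map_one]
  have hf_pow : ∀ a, (f a) ^ p = 1 := by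
    intro a
    show (R (x (Multiplicative.ofAdd a))) ^ p = 1
    rw [← map_pow, ← map_pow, ← ofAdd_nsmul, hpA, ofAdd_zero, map_one, map_one]
  have hcomm : ∀ a b, Commute (f a) (f b) := by
    intro a b
    show f a * f b = f b * f a
    rw [← hf_add, ← hf_add, add_comm]
  have hpL : (p : AlgebraicClosure K) ≠ 0 := by
    intro h
    apply hpK
    have : algebraMap K (AlgebraicClosure K) (p : K) = 0 := by
      rw [map_natCast]
      exact h
    exact (map_eq_zero _).mp this
  have hss : ∀ a, (f a).IsSemisimple := by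
    intro a
    apply Module.End.isSemisimple_of_squarefree_aeval_eq_zero
      (Polynomial.separable_X_pow_sub_C (1 : AlgebraicClosure K) hpL one_ne_zero).squarefree
    simp [hf_pow a]
  have heig : ∀ a μ, (f a).maxGenEigenspace μ = (f a).eigenspace μ := fun a μ =>
    (hss a).isFinitelySemisimple.maxGenEigenspace_eq_eigenspace μ
  let W : (A → AlgebraicClosure K) →
      Submodule (AlgebraicClosure K) (Fin d → AlgebraicClosure K) :=
    fun χ => ⨅ a, (f a).maxGenEigenspace (χ a)
  have hmem : ∀ χ v, v ∈ W χ ↔ ∀ a, f a v = χ a • v := by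
    intro χ v
    simp only [W, Submodule.mem_iInf, heig, Module.End.mem_eigenspace_iff]
  have htop : ⨆ χ, W χ = ⊤ :=
    Module.End.iSup_iInf_maxGenEigenspace_eq_top_of_iSup_maxGenEigenspace_eq_top_of_commute f
      (fun i j _ => hcomm i j) (fun a => Module.End.iSup_maxGenEigenspace_eq_top (f a))
  have hind : iSupIndep W :=
    Module.End.independent_iInf_maxGenEigenspace_of_forall_mapsTo f
      (fun i j φ => Module.End.mapsTo_maxGenEigenspace_of_comm (hcomm j i) φ)
  let hfin : Fintype {χ // W χ ≠ ⊥} := hind.fintypeNeBotOfFiniteDimensional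
  have hcard : Fintype.card {χ // W χ ≠ ⊥} ≤ d := by
    have := hind.subtype_ne_bot_le_finrank
    rwa [Module.finrank_fin_fun] at this
  have hex : ∃ χ, W χ ≠ ⊥ ∧ χ a₀ ≠ 1 := by
    by_contra hcon
    push Not at hcon
    have hle : ∀ χ, W χ ≤ (f a₀).eigenspace 1 := by
      intro χ v hv
      by_cases hb : W χ = ⊥
      · rw [hb, Submodule.mem_bot] at hv
        rw [hv]
        exact Submodule.zero_mem _
      · rw [Module.End.mem_eigenspace_iff, (hmem χ v).mp hv a₀, hcon χ hb]
    have h1 : (⊤ : Submodule (AlgebraicClosure K) (Fin d → AlgebraicClosure K))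
        ≤ (f a₀).eigenspace 1 := htop ▸ iSup_le hle
    apply ha₀
    rw [← closureRep_eq_one_iff, ← hR]
    apply LinearMap.ext
    intro v
    have := h1 (Submodule.mem_top : v ∈ ⊤)
    rw [Module.End.mem_eigenspace_iff, one_smul] at this
    exact this
  obtain ⟨χ₀, hχ₀, hχ₀a⟩ := hex
  obtain ⟨v, hvW, hv0⟩ := (Submodule.ne_bot_iff _).mp hχ₀
  have hv := (hmem χ₀ v).mp hvW
  have hχ0 : χ₀ 0 = 1 := by
    have h1 := hv 0
    rw [hf_zero, Module.End.one_apply] at h1
    have h2 : (χ₀ 0 - 1) • v = 0 := by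
      rw [sub_smul, one_smul, ← h1, sub_self]
    exact sub_eq_zero.mp ((smul_eq_zero.mp h2).resolve_right hv0)
  have hχadd : ∀ a b, χ₀ (a + b) = χ₀ a * χ₀ b := by
    intro a b
    have h1 := hv (a + b)
    rw [hf_add, Module.End.mul_apply, hv b, map_smul, hv a, smul_smul] at h1
    have h2 : (χ₀ (a + b) - χ₀ a * χ₀ b) • v = 0 := by
      rw [sub_smul, ← h1, mul_comm, sub_self]
    exact sub_eq_zero.mp ((smul_eq_zero.mp h2).resolve_right hv0)
  let ψ₀ : AddChar A (AlgebraicClosure K) := ⟨χ₀, hχ0, hχadd⟩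
  obtain ⟨s, hs, hsO⟩ := H ψ₀ hχ₀a
  have hsW : ∀ χ' ∈ s, W (⇑χ') ≠ ⊥ := by
    intro χ' hχ'
    obtain ⟨g, σ, hg, hσ⟩ := hsO χ' hχ'
    rw [Submodule.ne_bot_iff]
    refine ⟨R g⁻¹ v, ?_, ?_⟩
    · rw [hmem]
      intro a
      have h1 : f a * R g⁻¹ = R g⁻¹ * f (σ a) := by
        show R (x (Multiplicative.ofAdd a)) * R g⁻¹ = R g⁻¹ * R (x (Multiplicative.ofAdd (σ a)))
        rw [← map_mul, ← map_mul, ← hg a]
        congr 1
        group
      have h2 := congrArg (fun T : Module.End (AlgebraicClosure K)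
        (Fin d → AlgebraicClosure K) => T v) h1
      simp only [Module.End.mul_apply] at h2
      rw [h2, hv (σ a), map_smul, hσ a]
      rfl
    · intro h0
      apply hv0
      have h3 : R g (R g⁻¹ v) = v := by
        rw [← Module.End.mul_apply, ← map_mul, mul_inv_cancel, map_one, Module.End.one_apply]
      rw [← h3, h0, map_zero]
  have hinj : s.card ≤ Fintype.card {χ // W χ ≠ ⊥} := by
    rw [← Fintype.card_coe s]
    apply Fintype.card_le_of_injective
      (fun χ' : ↥s => (⟨⇑χ'.1, hsW χ'.1 χ'.2⟩ : {χ // W χ ≠ ⊥}))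
    intro χ₁ χ₂ h
    apply Subtype.ext
    apply DFunLike.coe_injective
    exact congrArg Subtype.val h
  omega

end LS

section chars

variable {F : Type*} [Field F] [Fintype F] {L : Type*} [Field L]

theorem addChar_map_sum {A : Type*} [AddCommMonoid A] {ι : Type*} (χ : AddChar A L)
    (s : Finset ι) (g : ι → A) : χ (∑ i ∈ s, g i) = ∏ i ∈ s, χ (g i) := by
  classical
  induction s using Finset.induction_on with
  | empty => simp
  | insert i s hi ih => rw [Finset.sum_insert hi, Finset.prod_insert hi, AddChar.map_add_eq_mul, ih]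

/-- Every additive character of a finite field is a multiplicative shift of a fixed nontrivial
one. -/
theorem addChar_field_classify (ψ : AddChar F L) (hψ : ψ ≠ 1) (φ : AddChar F L) :
    ∃ c : F, ∀ t, φ t = ψ (c * t) := by
  classical
  have hinj : Function.Injective (fun c : F => ψ.mulShift c) := by
    intro c c' h
    by_contra hne
    apply hψ
    rw [AddChar.eq_one_iff]
    intro t
    have h1 := DFunLike.congr_fun h ((c - c')⁻¹ * t)
    simp only [AddChar.mulShift_apply] at h1
    have h2 : c * ((c - c')⁻¹ * t) = c' * ((c - c')⁻¹ * t) + t := by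
      have : c - c' ≠ 0 := sub_ne_zero.mpr hne
      field_simp
      ring
    rw [h2, AddChar.map_add_eq_mul] at h1
    have hu : ψ (c' * ((c - c')⁻¹ * t)) ≠ 0 := (AddChar.val_isUnit ψ _).ne_zero
    exact mul_left_cancel₀ hu (h1.trans (mul_one _).symm)
  have hli := linearIndependent_monoidHom (Multiplicative F) L
  have hfin' : Finite (Multiplicative F →* L) := hli.finite
  have hfin : Finite (AddChar F L) := Finite.of_equiv _ AddChar.toMonoidHomEquiv.symm
  have hcard : Nat.card (AddChar F L) ≤ Nat.card F := by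
    rw [Nat.card_congr (AddChar.toMonoidHomEquiv (A := F) (M := L))]
    have hft : Fintype (Multiplicative F →* L) := Fintype.ofFinite _
    have h1 := hli.fintype_card_le_finrank
    rw [Module.finrank_fintype_fun_eq_card] at h1
    rw [Nat.card_eq_fintype_card, Nat.card_eq_fintype_card]
    exact h1.trans (le_of_eq (Fintype.card_congr Multiplicative.toAdd))
  have hbij := Function.Injective.bijective_of_nat_card_le hinj hcard
  obtain ⟨c, hc⟩ := hbij.2 φ
  exact ⟨c, fun t => by rw [← hc]; rfl⟩

/-- Every additive character of `F^m` is `a ↦ ψ (w ⬝ᵥ a)`. -/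
theorem addChar_pi_classify {m : ℕ} (ψ : AddChar F L) (hψ : ψ ≠ 1)
    (χ : AddChar (Fin m → F) L) : ∃ w : Fin m → F, ∀ a, χ a = ψ (w ⬝ᵥ a) := by
  classical
  have h1 : ∀ i, ∃ c : F, ∀ t, χ (Pi.single i t) = ψ (c * t) := by
    intro i
    exact addChar_field_classify ψ hψ (χ.compAddMonoidHom (AddMonoidHom.single (fun _ => F) i))
  choose w hw using h1
  refine ⟨w, fun a => ?_⟩
  have ha : χ a = χ (∑ i, Pi.single i (a i)) := by
    rw [Finset.univ_sum_single a]
  rw [ha, addChar_map_sum, dotProduct, addChar_map_sum]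
  exact Finset.prod_congr rfl (fun i _ => hw i (a i))

/-- The character `a ↦ ψ (w ⬝ᵥ a)` of `F^m`. -/
def dotChar {m : ℕ} (ψ : AddChar F L) (w : Fin m → F) : AddChar (Fin m → F) L where
  toFun a := ψ (w ⬝ᵥ a)
  map_zero_eq_one' := by rw [dotProduct_zero, AddChar.map_zero_eq_one]
  map_add_eq_mul' a b := by rw [dotProduct_add, AddChar.map_add_eq_mul]

theorem dotChar_apply {m : ℕ} (ψ : AddChar F L) (w a : Fin m → F) :
    dotChar ψ w a = ψ (w ⬝ᵥ a) := rfl

theorem dotChar_injective {m : ℕ} (ψ : AddChar F L) (hψ : ψ ≠ 1) :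
    Function.Injective (dotChar (m := m) ψ) := by
  classical
  intro w w' h
  by_contra hne
  obtain ⟨j, hj⟩ : ∃ j, w j ≠ w' j := Function.ne_iff.mp hne
  apply hψ
  rw [AddChar.eq_one_iff]
  intro t
  have h1 := DFunLike.congr_fun h (Pi.single j ((w j - w' j)⁻¹ * t))
  rw [dotChar_apply, dotChar_apply, dotProduct_single, dotProduct_single] at h1
  have h2 : w j * ((w j - w' j)⁻¹ * t) = w' j * ((w j - w' j)⁻¹ * t) + t := by
    have : w j - w' j ≠ 0 := sub_ne_zero.mpr hj
    field_simp
    ring
  rw [h2, AddChar.map_add_eq_mul] at h1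
  have hu : ψ (w' j * ((w j - w' j)⁻¹ * t)) ≠ 0 := (AddChar.val_isUnit ψ _).ne_zero
  exact mul_left_cancel₀ hu (h1.trans (mul_one _).symm)

end chars

end Cfsg.Agent.Lib.Helper47
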