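import Cfsg.Agent.Lib.Helper47.InvSub

/-!
# Nil-cube endomorphisms

Splitting off Jordan blocks of size three, bases adapted to a nil-cube endomorphism, and the
determinants of its centraliser.
-/

set_option autoImplicit false

namespace Cfsg.Agent.Lib.Helper47

open Polynomial Module Matrix

universe u

section NilCube

variable {F : Type*} [Field F] {V : Type*} [AddCommGroup V] [Module F V]

/-- A functional dual to a Jordan block of size three of a nil-cube endomorphism. -/
lemma nilcube_exists_dual [FiniteDimensional F V] (N : Module.End F V) (hN : ∀ u, N (N (N u)) = 0) (v : V)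
    (hv : N (N v) ≠ 0) : ∃ B : V →ₗ[F] F, B (N (N v)) = 1 ∧ B (N v) = 0 ∧ B v = 0 := by
  have hnot : N (N v) ∉ Submodule.span F {v, N v} := by
    intro hmem
    obtain ⟨α, β, hαβ⟩ := Submodule.mem_span_pair.mp hmem
    have h1 := congrArg (fun u => N (N u)) hαβ
    simp only [map_add, map_smul, hN, smul_zero, add_zero, map_zero] at h1
    have hα : α = 0 := by
      rcases smul_eq_zero.mp h1 with h | h
      · exact h
      · exact absurd h hv
    rw [hα, zero_smul, zero_add] at hαβ
    have h2 := congrArg (fun u => N u) hαβ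
    simp only [map_smul, hN] at h2
    have hβ : β = 0 := by
      rcases smul_eq_zero.mp h2 with h | h
      · exact h
      · exact absurd h hv
    rw [hβ, zero_smul] at hαβ
    exact hv hαβ.symm
  obtain ⟨B₀, hB₀, hmap⟩ := Submodule.exists_dual_map_eq_bot_of_notMem hnot inferInstance
  have hz : ∀ w ∈ Submodule.span F {v, N v}, B₀ w = 0 := by
    intro w hw
    have : B₀ w ∈ (Submodule.span F {v, N v}).map B₀ := Submodule.mem_map_of_mem hw
    rw [hmap, Submodule.mem_bot] at this
    exact this
  refine ⟨(B₀ (N (N v)))⁻¹ • B₀, ?_, ?_, ?_⟩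
  · rw [LinearMap.smul_apply, smul_eq_mul, inv_mul_cancel₀ hB₀]
  · rw [LinearMap.smul_apply, hz (N v) (Submodule.subset_span (by simp)), smul_zero]
  · rw [LinearMap.smul_apply, hz v (Submodule.subset_span (by simp)), smul_zero]

/-- Splitting off a Jordan block of size three of a nil-cube endomorphism. -/
lemma nilcube_split (N : Module.End F V) (hN : ∀ u, N (N (N u)) = 0) (v : V) (B : V →ₗ[F] F)
    (hB2 : B (N (N v)) = 1) (hB1 : B (N v) = 0) (hB0 : B v = 0) :
    Submodule.span F (Set.range ![v, N v, N (N v)]) ∈ Module.End.invtSubmodule N ∧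
    (LinearMap.ker ((B.comp N).comp N) ⊓ (LinearMap.ker (B.comp N) ⊓ LinearMap.ker B))
      ∈ Module.End.invtSubmodule N ∧
    IsCompl (Submodule.span F (Set.range ![v, N v, N (N v)]))
      (LinearMap.ker ((B.comp N).comp N) ⊓ (LinearMap.ker (B.comp N) ⊓ LinearMap.ker B)) ∧
    finrank F (Submodule.span F (Set.range ![v, N v, N (N v)])) = 3 ∧
    LinearIndependent F ![v, N v, N (N v)] := by
  have hmemL : ∀ u, u ∈ Submodule.span F (Set.range ![v, N v, N (N v)]) ↔
      ∃ α β γ : F, u = α • v + β • N v + γ • N (N v) := by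
    intro u
    rw [Submodule.mem_span_range_iff_exists_fun]
    constructor
    · rintro ⟨c, hc⟩
      refine ⟨c 0, c 1, c 2, ?_⟩
      rw [← hc, Fin.sum_univ_three]
      rfl
    · rintro ⟨α, β, γ, rfl⟩
      refine ⟨![α, β, γ], ?_⟩
      rw [Fin.sum_univ_three]
      rfl
  have hmemL' : ∀ u, u ∈ (LinearMap.ker ((B.comp N).comp N) ⊓
      (LinearMap.ker (B.comp N) ⊓ LinearMap.ker B)) ↔ B (N (N u)) = 0 ∧ B (N u) = 0 ∧ B u = 0 := by
    intro u
    simp only [Submodule.mem_inf, LinearMap.mem_ker, LinearMap.comp_apply]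
  have hli : LinearIndependent F ![v, N v, N (N v)] := by
    rw [Fintype.linearIndependent_iff]
    intro g hg
    rw [Fin.sum_univ_three] at hg
    have hg' : g 0 • v + g 1 • N v + g 2 • N (N v) = 0 := hg
    have h1 := congrArg (fun u => B (N (N u))) hg'
    simp only [map_add, map_smul, hN, map_zero, smul_zero, add_zero, hB2, smul_eq_mul,
      mul_one] at h1
    have h2 := congrArg (fun u => B (N u)) hg'
    simp only [map_add, map_smul, hN, map_zero, smul_zero, add_zero, hB2, hB1, smul_eq_mul,
      mul_one, mul_zero, zero_add] at h2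
    have h3 := congrArg B hg'
    simp only [map_add, map_smul, map_zero, hB2, hB1, hB0, smul_eq_mul,
      mul_one, mul_zero, zero_add] at h3
    intro i
    fin_cases i
    · exact h1
    · exact h2
    · exact h3
  refine ⟨?_, ?_, ?_, ?_, hli⟩
  · rw [Module.End.mem_invtSubmodule_iff_forall_mem_of_mem]
    intro u hu
    obtain ⟨α, β, γ, rfl⟩ := (hmemL u).mp hu
    rw [hmemL]
    refine ⟨0, α, β, ?_⟩
    simp only [map_add, map_smul, hN, smul_zero, add_zero, zero_smul, zero_add]
  · rw [Module.End.mem_invtSubmodule_iff_forall_mem_of_mem]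
    intro u hu
    rw [hmemL'] at hu ⊢
    rw [hN, map_zero]
    exact ⟨rfl, hu.1, hu.2.1⟩
  · constructor
    · rw [Submodule.disjoint_def]
      intro u hu hu'
      obtain ⟨α, β, γ, rfl⟩ := (hmemL u).mp hu
      rw [hmemL'] at hu'
      obtain ⟨h1, h2, h3⟩ := hu'
      simp only [map_add, map_smul, hN, map_zero, smul_zero, add_zero, hB2, smul_eq_mul,
        mul_one] at h1
      simp only [map_add, map_smul, hN, map_zero, smul_zero, add_zero, hB2, hB1, smul_eq_mul,
        mul_one, mul_zero, zero_add] at h2
      simp only [map_add, map_smul, hB2, hB1, hB0, smul_eq_mul,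
        mul_one, mul_zero, zero_add] at h3
      rw [h1, h2, h3, zero_smul, zero_smul, zero_smul, add_zero, add_zero]
    · rw [codisjoint_iff, eq_top_iff]
      intro u _
      have hdec : u = (B (N (N u)) • v + B (N u) • N v + B u • N (N v))
          + (u - B (N (N u)) • v - B (N u) • N v - B u • N (N v)) := by abel
      rw [hdec]
      apply Submodule.add_mem_sup
      · exact (hmemL _).mpr ⟨_, _, _, rfl⟩
      · rw [hmemL']
        refine ⟨?_, ?_, ?_⟩
        · simp only [map_sub, map_smul, hN, hB2, map_zero, smul_eq_mul, mul_one, mul_zero,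
            sub_self, sub_zero]
        · simp only [map_sub, map_smul, hN, hB2, hB1, map_zero, smul_eq_mul, mul_one, mul_zero,
            sub_self, sub_zero]
        · simp only [map_sub, map_smul, hB2, hB1, hB0, smul_eq_mul, mul_one, mul_zero,
            sub_self, sub_zero]
  · rw [finrank_span_eq_card hli, Fintype.card_fin]

end NilCube

section NilCubeBasis

/-- A nil-cube endomorphism has a basis which it maps into the basis or to zero. -/
theorem nilcube_basis {F : Type*} [Field F] :
    ∀ (d : ℕ) (V : Type u) [AddCommGroup V] [Module F V] [FiniteDimensional F V]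
      (N : Module.End F V), finrank F V = d → (∀ u, N (N (N u)) = 0) →
      ∃ (ι : Type) (_ : Fintype ι) (b : Basis ι F V),
        ∀ j, N (b j) = 0 ∨ ∃ j', N (b j) = b j' := by
  intro d
  induction d using Nat.strong_induction_on with
  | _ d ih =>
    intro V _ _ _ N hd hN
    by_cases h0 : ∀ u, N (N u) = 0
    · exact nilsq_basis d V N hd h0
    · push Not at h0
      obtain ⟨v, hv⟩ := h0
      obtain ⟨B, hB2, hB1, hB0⟩ := nilcube_exists_dual N hN v hv
      obtain ⟨hL, hL', hcompl, hfr, hli⟩ := nilcube_split N hN v B hB2 hB1 hB0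
      have hsum := Submodule.finrank_add_eq_of_isCompl hcompl
      obtain ⟨ι', hι', b', hb'⟩ := ih (d - 3) (by omega)
        ↥(LinearMap.ker ((B.comp N).comp N) ⊓ (LinearMap.ker (B.comp N) ⊓ LinearMap.ker B))
        (resInv N hL') (by omega)
        (fun u => by
          apply Subtype.ext
          rw [resInv_apply, resInv_apply, resInv_apply, hN]
          rfl)
      refine ⟨Fin 3 ⊕ ι', inferInstance,
        ((Basis.span hli).prod b').map (Submodule.prodEquivOfIsCompl _ _ hcompl), ?_⟩
      have eL : ∀ j : Fin 3, (((Basis.span hli).prod b').map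
          (Submodule.prodEquivOfIsCompl _ _ hcompl)) (Sum.inl j) = ![v, N v, N (N v)] j := by
        intro j
        rw [Basis.map_apply, Submodule.coe_prodEquivOfIsCompl']
        simp [Basis.span_apply]
      have eR : ∀ j : ι', (((Basis.span hli).prod b').map
          (Submodule.prodEquivOfIsCompl _ _ hcompl)) (Sum.inr j) = (b' j : V) := by
        intro j
        rw [Basis.map_apply, Submodule.coe_prodEquivOfIsCompl']
        simp
      rintro (j | j)
      · rw [eL]
        fin_cases j
        · right
          refine ⟨Sum.inl 1, ?_⟩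
          rw [eL]
          rfl
        · right
          refine ⟨Sum.inl 2, ?_⟩
          rw [eL]
          rfl
        · left
          exact hN v
      · rw [eR]
        rcases hb' j with h | ⟨j', h⟩
        · left
          have h1 := congrArg Subtype.val h
          rw [resInv_apply] at h1
          exact h1
        · right
          refine ⟨Sum.inr j', ?_⟩
          rw [eR]
          have h1 := congrArg Subtype.val h
          rw [resInv_apply] at h1
          exact h1

/-- A nil-cube matrix is conjugate to a matrix with entries in `{0,1}`. -/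
theorem nilcube_conj_zero_one {F : Type u} [Field F] {n : ℕ} (N : Matrix (Fin n) (Fin n) F)
    (hN : N * N * N = 0) :
    ∃ (P N₀ : Matrix (Fin n) (Fin n) F), IsUnit P.det ∧ P * N = N₀ * P ∧
      ∀ i j, N₀ i j = 0 ∨ N₀ i j = 1 := by
  classical
  have hN' : ∀ u, toLin' N (toLin' N (toLin' N u)) = 0 := by
    intro u
    rw [← LinearMap.comp_apply, ← LinearMap.comp_apply, ← Matrix.toLin'_mul, ← Matrix.toLin'_mul,
      hN, map_zero, LinearMap.zero_apply]
  obtain ⟨ι, hι, b, hb⟩ := nilcube_basis n (Fin n → F) (toLin' N) (by simp) hN'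
  have hcard : Fintype.card ι = n := by
    rw [← Module.finrank_eq_card_basis b]
    simp
  obtain ⟨e, -⟩ : ∃ e : ι ≃ Fin n, e = e := ⟨Fintype.equivFinOfCardEq hcard, rfl⟩
  obtain ⟨φ, hφ⟩ : ∃ φ : (Fin n → F) ≃ₗ[F] (Fin n → F), φ = (b.reindex e).equivFun := ⟨_, rfl⟩
  have hφb : ∀ j : ι, φ (b j) = Pi.single (e j) 1 := by
    intro j
    funext i
    have h1 := Basis.equivFun_self (b.reindex e) (e j) i
    rw [Basis.reindex_apply, Equiv.symm_apply_apply] at h1
    rw [hφ, h1, Pi.single_apply]
    by_cases h : e j = i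
    · rw [if_pos h, if_pos h.symm]
    · rw [if_neg h, if_neg (fun h' => h h'.symm)]
  refine ⟨LinearMap.toMatrix' φ.toLinearMap,
    LinearMap.toMatrix' (φ.toLinearMap ∘ₗ toLin' N ∘ₗ φ.symm.toLinearMap), ?_, ?_, ?_⟩
  · have : LinearMap.toMatrix' φ.toLinearMap * LinearMap.toMatrix' φ.symm.toLinearMap = 1 := by
      rw [← LinearMap.toMatrix'_comp]; simp
    exact Matrix.isUnit_det_of_right_inverse this
  · apply Matrix.toLin'.injective
    rw [Matrix.toLin'_mul, Matrix.toLin'_mul, Matrix.toLin'_toMatrix', Matrix.toLin'_toMatrix']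
    apply LinearMap.ext
    intro x
    simp
  · intro i j
    rw [LinearMap.toMatrix'_apply]
    have h1 : (Pi.single j 1 : Fin n → F) = φ (b (e.symm j)) := by
      rw [hφb, Equiv.apply_symm_apply]
    rw [h1]
    simp only [LinearMap.comp_apply, LinearEquiv.coe_coe, LinearEquiv.symm_apply_apply]
    rcases hb (e.symm j) with h | ⟨j', h⟩
    · left
      rw [h, map_zero]
      rfl
    · rw [h, hφb, Pi.single_apply]
      by_cases h' : i = e j'
      · right; rw [if_pos h']
      · left; rw [if_neg h']

end NilCubeBasis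

section CentDet

variable {F : Type*} [Field F] {V : Type*} [AddCommGroup V] [Module F V] [FiniteDimensional F V]

/-- A scalar on one invariant summand commutes and has determinant a power. -/
lemma commute_det_of_split (N : Module.End F V) (L L' : Submodule F V)
    (hL : L ∈ Module.End.invtSubmodule N) (hL' : L' ∈ Module.End.invtSubmodule N)
    (hcompl : IsCompl L L') (ε : F) :
    ∃ c : Module.End F V, (∀ u, c (N u) = N (c u)) ∧ LinearMap.det c = ε ^ finrank F L := by
  refine ⟨(Submodule.prodEquivOfIsCompl _ _ hcompl).conj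
    ((ε • LinearMap.id).prodMap LinearMap.id), fun x => ?_, ?_⟩
  · obtain ⟨⟨a, b⟩, rfl⟩ := (Submodule.prodEquivOfIsCompl _ _ hcompl).surjective x
    have e1 : N (Submodule.prodEquivOfIsCompl _ _ hcompl (a, b))
        = Submodule.prodEquivOfIsCompl _ _ hcompl (resInv N hL a, resInv N hL' b) := by
      simp [resInv_apply]
    rw [e1]
    simp only [LinearEquiv.conj_apply_apply, LinearEquiv.symm_apply_apply,
      LinearMap.prodMap_apply, LinearMap.id_apply, LinearMap.smul_apply]
    simp only [Submodule.coe_prodEquivOfIsCompl', resInv_apply, map_add, Submodule.coe_smul,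
      map_smul]
  · rw [LinearEquiv.conj_apply, LinearMap.comp_assoc, LinearMap.det_conj, LinearMap.det_prodMap,
      LinearMap.det_smul, LinearMap.det_id, LinearMap.det_id, mul_one, mul_one]

/-- A fixed vector outside the image gives all determinants in the centraliser. -/
lemma commute_det_of_fix (N : Module.End F V) (v : V) (B : V →ₗ[F] F) (hv : N v = 0)
    (hB : ∀ u, B (N u) = 0) (hBv : B v = 1) (δ : F) :
    ∃ c : Module.End F V, (∀ u, c (N u) = N (c u)) ∧ LinearMap.det c = δ := by
  refine ⟨LinearMap.transvection ((δ - 1) • B) v, fun u => ?_, ?_⟩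
  · rw [LinearMap.transvection.apply, LinearMap.transvection.apply, map_add, map_smul, hv,
      smul_zero, add_zero, LinearMap.smul_apply, hB, smul_zero, zero_smul, add_zero]
  · rw [LinearMap.transvection.det, LinearMap.smul_apply, hBv, smul_eq_mul, mul_one]
    ring

/-- The determinants of the centraliser of a nil-cube endomorphism (all cubes being available). -/
theorem nilcube_det_cases [Nontrivial V] (hcube : ∀ δ : F, ∃ ε : F, ε ^ 3 = δ)
    (N : Module.End F V) (hN : ∀ u, N (N (N u)) = 0) :
    (∀ δ : F, ∃ c : Module.End F V, (∀ u, c (N u) = N (c u)) ∧ LinearMap.det c = δ) ∨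
    (Even (finrank F V) ∧ (∀ u, N (N u) = 0) ∧
      ∀ ε : F, ∃ c : Module.End F V, (∀ u, c (N u) = N (c u)) ∧ LinearMap.det c = ε ^ 2) := by
  by_cases h2 : ∀ u, N (N u) = 0
  · by_cases hker : ∀ u, N u = 0 → ∃ w, N w = u
    · right
      have hkr : LinearMap.ker N = LinearMap.range N := by
        apply le_antisymm
        · intro u hu
          exact hker u (LinearMap.mem_ker.mp hu)
        · rintro _ ⟨w, rfl⟩
          exact LinearMap.mem_ker.mpr (h2 w)
      have hrn := LinearMap.finrank_range_add_finrank_ker N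
      rw [hkr] at hrn
      refine ⟨⟨_, hrn.symm⟩, h2, fun ε => ?_⟩
      obtain ⟨v₀, hv₀⟩ := exists_ne (0 : V)
      have hNv : ∃ v, N v ≠ 0 := by
        by_contra hcon
        push Not at hcon
        obtain ⟨w, hw⟩ := hker v₀ (hcon v₀)
        rw [hcon w] at hw
        exact hv₀ hw.symm
      obtain ⟨v, hv⟩ := hNv
      obtain ⟨B, hB1, hB0⟩ := nilsq_exists_dual N h2 v hv
      obtain ⟨hL, hL', hcompl, hfr⟩ := nilsq_split N h2 v B hB1 hB0
      obtain ⟨c, hc, hdet⟩ := commute_det_of_split N _ _ hL hL' hcompl ε
      exact ⟨c, hc, by rw [hdet, hfr]⟩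
    · left
      push Not at hker
      obtain ⟨v, hv, hvr⟩ := hker
      have hnot : v ∉ LinearMap.range N := by
        rintro ⟨w, hw⟩
        exact hvr w hw
      obtain ⟨B₀, hB₀, hmap⟩ := Submodule.exists_dual_map_eq_bot_of_notMem hnot inferInstance
      intro δ
      refine commute_det_of_fix N v ((B₀ v)⁻¹ • B₀) hv (fun u => ?_) ?_ δ
      · have : B₀ (N u) ∈ (LinearMap.range N).map B₀ :=
          Submodule.mem_map_of_mem (LinearMap.mem_range_self N u)
        rw [hmap, Submodule.mem_bot] at this
        rw [LinearMap.smul_apply, this, smul_zero]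
      · rw [LinearMap.smul_apply, smul_eq_mul, inv_mul_cancel₀ hB₀]
  · left
    push Not at h2
    obtain ⟨v, hv⟩ := h2
    obtain ⟨B, hB2, hB1, hB0⟩ := nilcube_exists_dual N hN v hv
    obtain ⟨hL, hL', hcompl, hfr, -⟩ := nilcube_split N hN v B hB2 hB1 hB0
    intro δ
    obtain ⟨ε, hε⟩ := hcube δ
    obtain ⟨c, hc, hdet⟩ := commute_det_of_split N _ _ hL hL' hcompl ε
    exact ⟨c, hc, by rw [hdet, hfr, hε]⟩

end CentDet

end Cfsg.Agent.Lib.Helper47
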