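import Cfsg.Agent.Lib.Helper47.SpConj
import Cfsg.Prelude.Def_Classical

/-!
# Involution centralizers in `Ω⁺_{2m}(q)`, `q` even: foundation

`Q = Cfsg.quadFormPlus m F` on `Fin m ⊕ Fin m → F`, characteristic two; its polar form is the
standard symplectic form `spForm (Fin m) F`.
-/

set_option autoImplicit false

namespace Cfsg.Agent.Lib.Helper47

open Matrix

section OmcDefs

variable {F : Type*} [Field F]

/-- `c` is in the image of the Artin–Schreier map `z ↦ z ^ 2 + z`. -/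
def IsWP (c : F) : Prop := ∃ z : F, c = z ^ 2 + z

lemma spForm_eq_sum (m : ℕ) (v w : Fin m ⊕ Fin m → F) :
    spForm (Fin m) F v w = ∑ i, (v (Sum.inr i) * w (Sum.inl i) - v (Sum.inl i) * w (Sum.inr i)) := by
  simp only [spForm, Matrix.J, Matrix.fromBlocks_mulVec, dotProduct, Fintype.sum_sum_type,
    Sum.elim_inl, Sum.elim_inr, Matrix.zero_mulVec, Matrix.neg_mulVec,
    Matrix.one_mulVec, Pi.neg_apply, Function.comp_apply, zero_add, add_zero,
    mul_neg, Finset.sum_neg_distrib, Finset.sum_sub_distrib]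
  ring

lemma qplus_smul (m : ℕ) (c : F) (v : Fin m ⊕ Fin m → F) :
    Cfsg.quadFormPlus m F (c • v) = c ^ 2 * Cfsg.quadFormPlus m F v := by
  simp only [Cfsg.quadFormPlus, Pi.smul_apply, smul_eq_mul, Finset.mul_sum]
  exact Finset.sum_congr rfl (fun i _ => by ring)

lemma qplus_add [CharP F 2] (m : ℕ) (v w : Fin m ⊕ Fin m → F) :
    Cfsg.quadFormPlus m F (v + w)
      = Cfsg.quadFormPlus m F v + Cfsg.quadFormPlus m F w + spForm (Fin m) F v w := by
  rw [spForm_eq_sum]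
  simp only [Cfsg.quadFormPlus, Pi.add_apply, ← Finset.sum_add_distrib]
  refine Finset.sum_congr rfl (fun i _ => ?_)
  have h2 : (2 : F) = 0 := CharTwo.two_eq_zero
  linear_combination (v (Sum.inl i) * w (Sum.inr i)) * h2

lemma qplus_zero (m : ℕ) : Cfsg.quadFormPlus m F 0 = 0 := by
  simp [Cfsg.quadFormPlus]

/-- A matrix preserving `Q` preserves its polar form (characteristic two). -/
lemma spForm_of_qplus [CharP F 2] (m : ℕ) (A : Matrix (Fin m ⊕ Fin m) (Fin m ⊕ Fin m) F)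
    (hA : ∀ v, Cfsg.quadFormPlus m F (A *ᵥ v) = Cfsg.quadFormPlus m F v)
    (v w : Fin m ⊕ Fin m → F) : spForm (Fin m) F (A *ᵥ v) (A *ᵥ w) = spForm (Fin m) F v w := by
  have h1 := qplus_add m (A *ᵥ v) (A *ᵥ w)
  have h2 := qplus_add m v w
  rw [← Matrix.mulVec_add, hA, hA, hA, h2] at h1
  linear_combination -h1

lemma mem_sp_of_qplus [CharP F 2] (m : ℕ) (A : Matrix (Fin m ⊕ Fin m) (Fin m ⊕ Fin m) F)
    (hA : ∀ v, Cfsg.quadFormPlus m F (A *ᵥ v) = Cfsg.quadFormPlus m F v) :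
    A ∈ Matrix.symplecticGroup (Fin m) F :=
  mem_sp_of_isometry (spForm_of_qplus m A hA)

/-- The matrix of an element of the orthogonal group. -/
abbrev omat {m : ℕ} (x : ↥(Cfsg.isometryGroup F (Cfsg.quadFormPlus m F))) :
    Matrix (Fin m ⊕ Fin m) (Fin m ⊕ Fin m) F :=
  ((x : Matrix.GeneralLinearGroup (Fin m ⊕ Fin m) F) : Matrix (Fin m ⊕ Fin m) (Fin m ⊕ Fin m) F)

lemma omat_qplus {m : ℕ} (x : ↥(Cfsg.isometryGroup F (Cfsg.quadFormPlus m F)))
    (v : Fin m ⊕ Fin m → F) :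
    Cfsg.quadFormPlus m F (omat x *ᵥ v) = Cfsg.quadFormPlus m F v :=
  x.2 v v

lemma omat_mul {m : ℕ} (x y : ↥(Cfsg.isometryGroup F (Cfsg.quadFormPlus m F))) :
    omat (x * y) = omat x * omat y := rfl

lemma omat_one {m : ℕ} : omat (1 : ↥(Cfsg.isometryGroup F (Cfsg.quadFormPlus m F))) = 1 := rfl

lemma omat_injective {m : ℕ} :
    Function.Injective (omat : ↥(Cfsg.isometryGroup F (Cfsg.quadFormPlus m F)) → _) := by
  intro x y h
  exact Subtype.ext (Units.ext h)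

/-- The element of the symplectic group defined by an element of the orthogonal group. -/
def spOfO [CharP F 2] {m : ℕ} (x : ↥(Cfsg.isometryGroup F (Cfsg.quadFormPlus m F))) :
    ↥(Matrix.symplecticGroup (Fin m) F) :=
  ⟨omat x, mem_sp_of_qplus m (omat x) (omat_qplus x)⟩

lemma spOfO_coe [CharP F 2] {m : ℕ} (x : ↥(Cfsg.isometryGroup F (Cfsg.quadFormPlus m F))) :
    ((spOfO x : ↥(Matrix.symplecticGroup (Fin m) F)) :
      Matrix (Fin m ⊕ Fin m) (Fin m ⊕ Fin m) F) = omat x := rfl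

/-- The orthogonal group inside the symplectic group. -/
def oInSp (m : ℕ) (F : Type*) [Field F] : Subgroup ↥(Matrix.symplecticGroup (Fin m) F) where
  carrier := {A | ∀ v, Cfsg.quadFormPlus m F
    ((A : Matrix (Fin m ⊕ Fin m) (Fin m ⊕ Fin m) F) *ᵥ v) = Cfsg.quadFormPlus m F v}
  mul_mem' {A A'} hA hA' v := by
    rw [Submonoid.coe_mul, ← Matrix.mulVec_mulVec, hA, hA']
  one_mem' v := by
    rw [Submonoid.coe_one, Matrix.one_mulVec]
  inv_mem' {A} hA v := by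
    have h1 : (A : Matrix (Fin m ⊕ Fin m) (Fin m ⊕ Fin m) F)
        * ((A⁻¹ : ↥(Matrix.symplecticGroup (Fin m) F)) :
          Matrix (Fin m ⊕ Fin m) (Fin m ⊕ Fin m) F) = 1 :=
      congrArg Subtype.val (mul_inv_cancel A)
    have h2 := hA (((A⁻¹ : ↥(Matrix.symplecticGroup (Fin m) F)) :
          Matrix (Fin m ⊕ Fin m) (Fin m ⊕ Fin m) F) *ᵥ v)
    rw [Matrix.mulVec_mulVec, h1, Matrix.one_mulVec] at h2
    exact h2.symm

lemma mem_oInSp (m : ℕ) (A : ↥(Matrix.symplecticGroup (Fin m) F)) :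
    A ∈ oInSp m F ↔ ∀ v, Cfsg.quadFormPlus m F
      ((A : Matrix (Fin m ⊕ Fin m) (Fin m ⊕ Fin m) F) *ᵥ v) = Cfsg.quadFormPlus m F v :=
  Iff.rfl

/-- The facts about the Artin–Schreier image used in the counts (`q = |F|`). -/
def WPFacts (F : Type*) [Field F] (q : ℕ) : Prop :=
  (∀ c c' : F, IsWP c → IsWP c' → IsWP (c + c')) ∧
  (∀ c c' : F, ¬ IsWP c → ¬ IsWP c' → IsWP (c + c')) ∧
  (∀ c c' : F, IsWP c → ¬ IsWP c' → ¬ IsWP (c + c')) ∧
  (∃ e : F, ¬ IsWP e) ∧ Nat.card {c : F // IsWP c} * 2 = q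

end OmcDefs

end Cfsg.Agent.Lib.Helper47
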