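import Cfsg.Agent.Lib.Helper47.OrthFix

set_option autoImplicit false

namespace Cfsg.Agent.Lib.Helper47

open Polynomial Module

universe u

section Conj

/-- Isometries of odd order (prime to the characteristic) of a nondegenerate symmetric space with
the same characteristic polynomial are conjugate by an isometry. -/
theorem exists_orth_conj {F : Type*} [Field F] [Fintype F] {V : Type u} [AddCommGroup V]
    [Module F V] [FiniteDimensional F V] {B : V → V → F} (hB : IsSForm (RingHom.id F) 1 B)
    (h2 : (2 : F) ≠ 0) (hnd : Nondeg B) (g g' : Module.End F V) (r : ℕ) (hodd : Odd r)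
    (hrF : (r : F) ≠ 0) (hg : g ^ r = 1) (hg' : g' ^ r = 1)
    (hgi : ∀ x y, B (g x) (g y) = B x y) (hgi' : ∀ x y, B (g' x) (g' y) = B x y)
    (hc : g.charpoly = g'.charpoly) :
    ∃ Φ : V →ₗ[F] V, (∀ x y, B (Φ x) (Φ y) = B x y) ∧ ∀ x, Φ (g x) = g' (Φ x) := by
  have hr : 0 < r := hodd.pos
  have hsep : (X ^ r - C (1 : F)).Separable := separable_X_pow_sub_C 1 hrF one_ne_zero
  have hgs : g.IsSemisimple := by
    apply Module.End.isSemisimple_of_squarefree_aeval_eq_zero hsep.squarefree
    rw [map_sub, map_pow, aeval_X, aeval_C, hg, map_one, sub_self]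
  have hgs' : g'.IsSemisimple := by
    apply Module.End.isSemisimple_of_squarefree_aeval_eq_zero hsep.squarefree
    rw [map_sub, map_pow, aeval_X, aeval_C, hg', map_one, sub_self]
  have hch := charpoly_of_isCompl (ker_sub_one_invt g) (range_sub_one_invt g)
    (isCompl_ker_range g r hrF hg)
  have hch' := charpoly_of_isCompl (ker_sub_one_invt g') (range_sub_one_invt g')
    (isCompl_ker_range g' r hrF hg')
  rw [charpoly_resInv_ker] at hch hch'
  have hcmp : (X - 1 : F[X]) ^ finrank F (LinearMap.ker (g - 1))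
        * (resInv g (range_sub_one_invt g)).charpoly
      = (X - 1) ^ finrank F (LinearMap.ker (g' - 1))
        * (resInv g' (range_sub_one_invt g')).charpoly := by
    rw [← hch, ← hch', hc]
  obtain ⟨-, hPW⟩ := pow_mul_cancel_of_eval_ne hcmp (eval_one_charpoly_resInv_range g r hrF hg)
    (eval_one_charpoly_resInv_range g' r hrF hg')
  have hJ := dForm_isSForm hB g hgi r hr hg
  have hJ' := dForm_isSForm hB g' hgi' r hr hg'
  obtain ⟨φ, hφe, hφi⟩ := exists_isometry_conj (σ := RingHom.id F) (ε := -1) (fun x => rfl)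
    (Or.inl ⟨rfl, rfl⟩) _ (LinearMap.range (g - 1)) (LinearMap.range (g' - 1))
    (resForm (dForm B g r) _) (resForm (dForm B g' r) _)
    (resInv g (range_sub_one_invt g)) (resInv g' (range_sub_one_invt g')) rfl
    (hJ.res _) (hJ'.res _) (nondeg_dForm_range hB hnd g hgi r hodd hrF hg)
    (nondeg_dForm_range hB hnd g' hgi' r hodd hrF hg')
    (fun _ x => dForm_alt hB g hgi r hr hg x) (fun _ x => dForm_alt hB g' hgi' r hr hg' x)
    (isSemisimple_resInv hgs _) (isSemisimple_resInv hgs' _)
    (fun x y => dForm_isometry g hgi r x y) (fun x y => dForm_isometry g' hgi' r x y) hPW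
  have hφpow : ∀ (k : ℕ) x, φ (((resInv g (range_sub_one_invt g)) ^ k) x)
      = ((resInv g' (range_sub_one_invt g')) ^ k) (φ x) := by
    intro k
    induction k with
    | zero => intro x; rw [pow_zero, pow_zero, Module.End.one_apply, Module.End.one_apply]
    | succ k ih =>
      intro x
      rw [pow_succ, Module.End.mul_apply, ih, hφe, pow_succ, Module.End.mul_apply]
  have hφB : ∀ x y : LinearMap.range (g - 1), B (φ x : V) (φ y : V) = B (x : V) (y : V) := by
    intro u y
    obtain ⟨x, hx⟩ := exists_sub_inv_eq g r hodd hrF hg u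
    have e1 : (u : V) = (g - g ^ (r - 1)) (x : V) := by
      rw [hx, coe_sub_inv]
    have e2 : (φ u : V) = (g' - g' ^ (r - 1)) (φ x : V) := by
      rw [hx, LinearMap.sub_apply, map_sub, hφe, hφpow, ← LinearMap.sub_apply, coe_sub_inv]
    rw [e1, e2]
    exact hφi x y
  obtain ⟨Φ, hΦi, hΦ⟩ := exists_extend hB h2 _ (LinearMap.range (g - 1)) (resForm B _)
    (Submodule.subtype _) ((Submodule.subtype _) ∘ₗ φ.toLinearMap) rfl (hB.res _)
    (nondeg_res_range hB hnd g hgi r hrF hg) (fun x y => rfl) (fun x y => hφB x y)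
  refine ⟨Φ, hΦi, fun x => ?_⟩
  obtain ⟨k, w, hk, hw, rfl⟩ := exists_fix_decomp g r hrF hg x
  have e0 : g (k + w) = k + g w := by rw [map_add, hk]
  have h1 : Φ (g w) = g' (Φ w) := by
    have e1 := hΦ ⟨w, hw⟩
    have e2 := hΦ (resInv g (range_sub_one_invt g) ⟨w, hw⟩)
    simp only [LinearMap.comp_apply, Submodule.subtype_apply, LinearEquiv.coe_coe] at e1 e2
    rw [resInv_apply] at e2
    rw [e2, hφe, resInv_apply, e1]
  have h2' : g' (Φ k) = Φ k := by
    apply fix_of_orth_range hB hnd g' hgi' r hrF hg'
    intro w' hw'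
    obtain ⟨z, hz⟩ := φ.surjective ⟨w', hw'⟩
    have e1 := hΦ z
    simp only [LinearMap.comp_apply, Submodule.subtype_apply, LinearEquiv.coe_coe] at e1
    have e3 : w' = Φ (z : V) := by rw [e1, hz]
    rw [e3, hΦi]
    exact fix_orth_range hB g hgi k hk z z.2
  rw [e0, map_add, map_add, map_add, h1, h2']

end Conj

section Extend

variable {F : Type*} [Field F] {V : Type*} [AddCommGroup V] [Module F V] {U : Type*}
  [AddCommGroup U] [Module F U]
variable {B : V → V → F} {BU : U → U → F}

/-- `y ↦ B(·, y)` as a linear map into the dual. -/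
def linDual {ε : F} (hB : IsSForm (RingHom.id F) ε B) : V →ₗ[F] Module.Dual F V where
  toFun y := hB.lin y
  map_add' y y' := by
    apply LinearMap.ext
    intro x
    simp only [LinearMap.add_apply, IsSForm.lin_apply, hB.add_right]
  map_smul' c y := by
    apply LinearMap.ext
    intro x
    simp only [LinearMap.smul_apply, IsSForm.lin_apply, hB.smul_right, RingHom.id_apply,
      smul_eq_mul]

lemma linDual_apply {ε : F} (hB : IsSForm (RingHom.id F) ε B) (x y : V) :
    linDual hB y x = B x y := rfl

lemma exists_adjoint [FiniteDimensional F U] {ε ε' : F} (hB : IsSForm (RingHom.id F) ε B)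
    (hBU : IsSForm (RingHom.id F) ε' BU) (hndU : Nondeg BU) (ι : U →ₗ[F] V) :
    ∃ π : V →ₗ[F] U, ∀ u v, BU u (π v) = B (ι u) v := by
  have hinj : Function.Injective (linDual hBU) := by
    rw [← LinearMap.ker_eq_bot, LinearMap.ker_eq_bot']
    intro y hy
    apply hBU.nondeg_right hndU
    intro x
    have := congrArg (fun l : Module.Dual F U => l x) hy
    simpa [linDual_apply] using this
  obtain ⟨L, hL⟩ : ∃ L : U ≃ₗ[F] Module.Dual F U, ∀ y, L y = linDual hBU y :=
    ⟨LinearMap.linearEquivOfInjective (linDual hBU) hinj Subspace.dual_finrank_eq.symm,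
      fun y => rfl⟩
  refine ⟨L.symm.toLinearMap ∘ₗ ι.dualMap ∘ₗ linDual hB, fun u v => ?_⟩
  have h1 : L ((L.symm.toLinearMap ∘ₗ ι.dualMap ∘ₗ linDual hB) v)
      = ι.dualMap (linDual hB v) := by
    simp only [LinearMap.comp_apply, LinearEquiv.coe_coe, LinearEquiv.apply_symm_apply]
  have h2 := congrArg (fun l : Module.Dual F U => l u) h1
  simp only [hL, linDual_apply, LinearMap.dualMap_apply] at h2
  exact h2

/-- An isometry of an isometrically embedded nondegenerate subspace extends to an isometry
acting trivially on the orthogonal complement. -/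
theorem exists_isometry_extend [FiniteDimensional F V] [FiniteDimensional F U]
    (hB : IsSForm (RingHom.id F) 1 B) (hBU : IsSForm (RingHom.id F) 1 BU) (hndU : Nondeg BU)
    (ι : U →ₗ[F] V) (hι : ∀ x y, B (ι x) (ι y) = BU x y) (s : Module.End F U)
    (hsi : ∀ x y, BU (s x) (s y) = BU x y) :
    ∃ g : Module.End F V, (∀ x y, B (g x) (g y) = B x y) ∧ (∀ k : ℕ, s ^ k = 1 → g ^ k = 1) ∧
      g.charpoly = s.charpoly * (X - 1) ^ (finrank F V - finrank F U) := by
  obtain ⟨π, hπ⟩ := exists_adjoint hB hBU hndU ι
  have hπι : ∀ u, π (ι u) = u := by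
    intro u
    have : π (ι u) - u = 0 := by
      apply hBU.nondeg_right hndU
      intro x
      rw [hBU.sub_right, hπ, hι, sub_self]
    exact sub_eq_zero.mp this
  have hιinj : Function.Injective ι := fun a b hab => by rw [← hπι a, ← hπι b, hab]
  obtain ⟨g, hgdef⟩ : ∃ g : Module.End F V, g = LinearMap.id + ι ∘ₗ (s - 1) ∘ₗ π := ⟨_, rfl⟩
  have hgapp : ∀ v, g v = v + ι (s (π v) - π v) := by
    intro v
    rw [hgdef]
    simp only [LinearMap.add_apply, LinearMap.id_apply, LinearMap.comp_apply,
      LinearMap.sub_apply, Module.End.one_apply]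
  have hgι : ∀ u, g (ι u) = ι (s u) := by
    intro u
    rw [hgapp, hπι, map_sub]
    abel
  have hgker : ∀ v, π v = 0 → g v = v := by
    intro v hv
    rw [hgapp, hv, map_zero, sub_zero, map_zero, add_zero]
  have hadj : ∀ u v, B (ι u) v = BU u (π v) := fun u v => (hπ u v).symm
  have hadj' : ∀ u v, B v (ι u) = BU (π v) u := fun u v => by
    rw [sym_comm hB (ι u) v, hadj]
    exact sym_comm hBU (π v) u
  have hiso : ∀ x y, B (g x) (g y) = B x y := by
    intro x y
    simp only [hgapp, hB.add_left, hB.add_right, hι, hadj, hadj', hBU.sub_left,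
      hBU.sub_right, hsi]
    ring
  have hpowι : ∀ (k : ℕ) u, (g ^ k) (ι u) = ι ((s ^ k) u) := by
    intro k
    induction k with
    | zero => intro u; rw [pow_zero, pow_zero, Module.End.one_apply, Module.End.one_apply]
    | succ k ih =>
      intro u
      rw [pow_succ, Module.End.mul_apply, hgι, ih, pow_succ, Module.End.mul_apply]
  have hdec : ∀ v, π (v - ι (π v)) = 0 := by
    intro v
    rw [map_sub, hπι, sub_self]
  have hpow : ∀ k : ℕ, s ^ k = 1 → g ^ k = 1 := by
    intro k hk
    apply LinearMap.ext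
    intro v
    have e : v = ι (π v) + (v - ι (π v)) := by abel
    rw [Module.End.one_apply]
    conv_lhs => rw [e]
    rw [map_add, hpowι, hk, Module.End.one_apply, pow_apply_of_fix g _ (hgker _ (hdec v)) k]
    abel
  have hp : LinearMap.range ι ∈ Module.End.invtSubmodule g := by
    rw [Module.End.mem_invtSubmodule_iff_forall_mem_of_mem]
    rintro _ ⟨u, rfl⟩
    exact ⟨s u, (hgι u).symm⟩
  have hq : LinearMap.ker π ∈ Module.End.invtSubmodule g := by
    rw [Module.End.mem_invtSubmodule_iff_forall_mem_of_mem]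
    intro v hv
    rw [hgker v (LinearMap.mem_ker.mp hv)]
    exact hv
  have hpq : IsCompl (LinearMap.range ι) (LinearMap.ker π) := by
    constructor
    · rw [Submodule.disjoint_def]
      rintro _ ⟨u, rfl⟩ hu
      rw [LinearMap.mem_ker, hπι] at hu
      rw [hu, map_zero]
    · rw [codisjoint_iff, eq_top_iff]
      intro v _
      have e : v = ι (π v) + (v - ι (π v)) := by abel
      rw [e]
      exact Submodule.add_mem_sup ⟨π v, rfl⟩ (LinearMap.mem_ker.mpr (hdec v))
  have hch := charpoly_of_isCompl hp hq hpq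
  have hq1 : resInv g hq = 1 := by
    apply LinearMap.ext
    intro x
    apply Subtype.ext
    rw [resInv_apply, Module.End.one_apply]
    exact hgker x (LinearMap.mem_ker.mp x.2)
  have hp1 : (resInv g hp).charpoly = s.charpoly := by
    rw [← LinearEquiv.charpoly_conj (LinearEquiv.ofInjective ι hιinj) s]
    congr 1
    apply LinearMap.ext
    intro x
    obtain ⟨u, rfl⟩ := (LinearEquiv.ofInjective ι hιinj).surjective x
    apply Subtype.ext
    rw [resInv_apply, LinearEquiv.conj_apply_apply, LinearEquiv.symm_apply_apply]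
    simp only [LinearEquiv.ofInjective_apply]
    exact hgι u
  have hfr : finrank F (LinearMap.ker π) = finrank F V - finrank F U := by
    have h1 := Submodule.finrank_add_eq_of_isCompl hpq
    have h2 : finrank F (LinearMap.range ι) = finrank F U := LinearMap.finrank_range_of_inj hιinj
    omega
  exact ⟨g, hiso, hpow, by rw [hch, hp1, hq1, LinearMap.charpoly_one, hfr]⟩

end Extend

end Cfsg.Agent.Lib.Helper47
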