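import Cfsg.Agent.Lib.Helper47.OrthConj
import Cfsg.Agent.Lib.Helper47.SpPrime
import Cfsg.Prelude.Def_Classical

/-!
# The odd-dimensional orthogonal group: polar form and palindromic polynomials
-/

set_option autoImplicit false

namespace Cfsg.Agent.Lib.Helper47

open Polynomial Module Matrix

section OForm

variable {F : Type*} [Field F] (m : ℕ)

/-- The Gram matrix of the polar form of `quadFormOdd`. -/
def oGram (m : ℕ) (F : Type*) [Field F] :
    Matrix (Unit ⊕ (Fin m ⊕ Fin m)) (Unit ⊕ (Fin m ⊕ Fin m)) F :=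
  Matrix.fromBlocks ((2 : F) • (1 : Matrix Unit Unit F)) 0 0 (Matrix.fromBlocks 0 1 1 0)

/-- The polar form of `quadFormOdd`. -/
def oForm (m : ℕ) (F : Type*) [Field F] (x y : Unit ⊕ (Fin m ⊕ Fin m) → F) : F :=
  x ⬝ᵥ (oGram m F *ᵥ y)

lemma oForm_eq (x y : Unit ⊕ (Fin m ⊕ Fin m) → F) :
    oForm m F x y = 2 * x (.inl ()) * y (.inl ())
      + ∑ i : Fin m, (x (.inr (.inl i)) * y (.inr (.inr i))
        + x (.inr (.inr i)) * y (.inr (.inl i))) := by
  simp only [oForm, oGram, dotProduct, Matrix.fromBlocks_mulVec, Fintype.sum_sum_type,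
    Sum.elim_inl, Sum.elim_inr, Matrix.zero_mulVec, Matrix.smul_mulVec, Matrix.one_mulVec,
    Pi.smul_apply, Function.comp_apply, zero_add, add_zero,
    smul_eq_mul, Finset.univ_unique, Finset.sum_singleton]
  rw [Finset.sum_add_distrib]
  congr 1
  ring

lemma oGram_transpose : (oGram m F)ᵀ = oGram m F := by
  simp [oGram, Matrix.fromBlocks_transpose]

lemma oForm_isSForm : IsSForm (RingHom.id F) 1 (oForm m F) where
  add_left x y z := by simp [oForm, add_dotProduct]
  smul_left c x y := by simp [oForm, smul_dotProduct]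
  symm x y := by
    simp only [oForm, RingHom.id_apply, one_mul]
    rw [dotProduct_comm, ← Matrix.vecMul_transpose, ← Matrix.dotProduct_mulVec, oGram_transpose]

lemma oGram_mul_inv (h2 : (2 : F) ≠ 0) :
    oGram m F * Matrix.fromBlocks ((2⁻¹ : F) • (1 : Matrix Unit Unit F)) 0 0
      (Matrix.fromBlocks 0 1 1 0) = 1 := by
  simp [oGram, Matrix.fromBlocks_multiply, h2, Matrix.fromBlocks_one]

lemma oGram_det_ne_zero (h2 : (2 : F) ≠ 0) : (oGram m F).det ≠ 0 := by
  have := congrArg Matrix.det (oGram_mul_inv m h2)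
  rw [det_mul, det_one] at this
  exact left_ne_zero_of_mul_eq_one this

lemma oForm_nondeg (h2 : (2 : F) ≠ 0) : Nondeg (oForm m F) := by
  intro x hx
  have h1 : x ᵥ* oGram m F = 0 := by
    apply dotProduct_eq_zero
    intro w
    rw [← Matrix.dotProduct_mulVec]
    exact hx w
  exact Matrix.eq_zero_of_vecMul_eq_zero (oGram_det_ne_zero m h2) h1

lemma oForm_self (x : Unit ⊕ (Fin m ⊕ Fin m) → F) :
    oForm m F x x = 2 * Cfsg.quadFormOdd m F x := by
  rw [oForm_eq, Cfsg.quadFormOdd, mul_add, Finset.mul_sum]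
  congr 1
  · ring
  · exact Finset.sum_congr rfl (fun i _ => by ring)

lemma quadFormOdd_add (x y : Unit ⊕ (Fin m ⊕ Fin m) → F) :
    Cfsg.quadFormOdd m F (x + y)
      = Cfsg.quadFormOdd m F x + Cfsg.quadFormOdd m F y + oForm m F x y := by
  rw [oForm_eq]
  simp only [Cfsg.quadFormOdd, Pi.add_apply]
  have h : ∑ i : Fin m, (x (.inr (.inl i)) + y (.inr (.inl i)))
        * (x (.inr (.inr i)) + y (.inr (.inr i)))
      = ∑ i : Fin m, x (.inr (.inl i)) * x (.inr (.inr i))
        + ∑ i : Fin m, y (.inr (.inl i)) * y (.inr (.inr i))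
        + ∑ i : Fin m, (x (.inr (.inl i)) * y (.inr (.inr i))
          + x (.inr (.inr i)) * y (.inr (.inl i))) := by
    rw [← Finset.sum_add_distrib, ← Finset.sum_add_distrib]
    exact Finset.sum_congr rfl (fun i _ => by ring)
  rw [h]
  ring

lemma mem_isometryGroup_iff (g : Matrix.GeneralLinearGroup (Unit ⊕ (Fin m ⊕ Fin m)) F) :
    g ∈ Cfsg.isometryGroup F (Cfsg.quadFormOdd m F) ↔
      ∀ u, Cfsg.quadFormOdd m F ((g : Matrix (Unit ⊕ (Fin m ⊕ Fin m)) (Unit ⊕ (Fin m ⊕ Fin m)) F)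
        *ᵥ u) = Cfsg.quadFormOdd m F u := by
  constructor
  · intro h u
    exact h u u
  · intro h u v
    exact h u

lemma oForm_isometry_of_quad {M : Matrix (Unit ⊕ (Fin m ⊕ Fin m)) (Unit ⊕ (Fin m ⊕ Fin m)) F}
    (h : ∀ u, Cfsg.quadFormOdd m F (M *ᵥ u) = Cfsg.quadFormOdd m F u)
    (x y : Unit ⊕ (Fin m ⊕ Fin m) → F) : oForm m F (M *ᵥ x) (M *ᵥ y) = oForm m F x y := by
  have h1 := quadFormOdd_add m (M *ᵥ x) (M *ᵥ y)
  rw [← Matrix.mulVec_add, h, h, h, quadFormOdd_add] at h1
  exact (add_left_cancel h1).symm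

lemma quad_of_oForm_isometry (h2 : (2 : F) ≠ 0)
    {M : Matrix (Unit ⊕ (Fin m ⊕ Fin m)) (Unit ⊕ (Fin m ⊕ Fin m)) F}
    (h : ∀ x y, oForm m F (M *ᵥ x) (M *ᵥ y) = oForm m F x y)
    (u : Unit ⊕ (Fin m ⊕ Fin m) → F) :
    Cfsg.quadFormOdd m F (M *ᵥ u) = Cfsg.quadFormOdd m F u := by
  have := h u u
  rw [oForm_self, oForm_self] at this
  exact mul_left_cancel₀ h2 this

lemma oGram_conj_of_isometry
    {M : Matrix (Unit ⊕ (Fin m ⊕ Fin m)) (Unit ⊕ (Fin m ⊕ Fin m)) F}
    (h : ∀ x y, oForm m F (M *ᵥ x) (M *ᵥ y) = oForm m F x y) :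
    Mᵀ * oGram m F * M = oGram m F := by
  apply Matrix.toLin'.injective
  apply LinearMap.ext
  intro y
  apply dotProduct_eq
  intro x
  have := h x y
  simp only [oForm] at this
  rw [← Matrix.vecMul_transpose M x, ← Matrix.dotProduct_mulVec, Matrix.mulVec_mulVec,
    Matrix.mulVec_mulVec] at this
  rw [Matrix.toLin'_apply, Matrix.toLin'_apply, dotProduct_comm, this, dotProduct_comm]

end OForm

section Pal

variable {F : Type*} [Field F]

lemma reverse_X_sub_one : (X - 1 : F[X]).reverse = 1 - X := by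
  have h : (X - 1 : F[X]) = X - C 1 := by simp
  rw [h, reverse, natDegree_X_sub_C, reflect_sub, reflect_C]
  have h1 : reflect 1 (X : F[X]) = 1 := by simp
  rw [h1]
  simp

lemma eval_one_reverse (f : F[X]) : f.reverse.eval 1 = f.eval 1 := by
  have : Invertible (1 : F) := invertibleOne
  have := eval₂_reverse_mul_pow (RingHom.id F) (1 : F) f
  rw [invOf_one, one_pow, mul_one] at this
  simpa [eval₂_id] using this

/-- A monic polynomial of odd degree with `reverse χ = -χ` is `(X - 1)` times a palindromic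
monic polynomial. -/
lemma exists_pal_factor (h2 : (2 : F) ≠ 0) (χ : F[X]) (hχm : χ.Monic) (n : ℕ)
    (hχd : χ.natDegree = n + 1) (hrev : χ.reverse = -χ) :
    ∃ P : F[X], P.Monic ∧ P.natDegree = n ∧ P.reverse = P ∧ χ = (X - 1) * P := by
  have h1 : χ.eval 1 = 0 := by
    have e := eval_one_reverse χ
    rw [hrev, eval_neg] at e
    have e2 : (2 : F) * χ.eval 1 = 0 := by linear_combination -e
    rcases mul_eq_zero.mp e2 with h | h
    · exact absurd h h2
    · exact h
  obtain ⟨P, hP⟩ : (X - C 1 : F[X]) ∣ χ := dvd_iff_isRoot.mpr h1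
  rw [C_1] at hP
  have hPm : P.Monic := by
    rw [hP] at hχm
    exact monic_X_sub_one.of_mul_monic_left hχm
  have hPd : P.natDegree = n := by
    have := congrArg natDegree hP
    rw [natDegree_mul monic_X_sub_one.ne_zero hPm.ne_zero, hχd] at this
    have h3 : (X - 1 : F[X]).natDegree = 1 := by
      have := natDegree_X_sub_C (1 : F)
      rwa [C_1] at this
    omega
  refine ⟨P, hPm, hPd, ?_, hP⟩
  have h3 := hrev
  rw [hP, reverse_mul_of_domain, reverse_X_sub_one] at h3
  have h4 : (X - 1 : F[X]) * P.reverse = (X - 1) * P := by linear_combination -h3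
  exact mul_left_cancel₀ monic_X_sub_one.ne_zero h4

lemma reverse_pow_mul (c : ℕ) (P : F[X]) :
    ((X - 1 : F[X]) ^ c * P).reverse = (1 - X) ^ c * P.reverse := by
  induction c with
  | zero => rw [pow_zero, pow_zero, one_mul, one_mul]
  | succ c ih =>
    rw [pow_succ', mul_assoc, reverse_mul_of_domain, ih, reverse_X_sub_one, pow_succ', mul_assoc]

/-- If `(X - 1)^c * P` is palindromic and `P(1) ≠ 0`, then `c` is even and `P` is
palindromic. -/
lemma pal_of_pow_mul (h2 : (2 : F) ≠ 0) (c : ℕ) (P : F[X]) (hP1 : P.eval 1 ≠ 0)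
    (hrev : ((X - 1 : F[X]) ^ c * P).reverse = (X - 1) ^ c * P) :
    Even c ∧ P.reverse = P := by
  rw [reverse_pow_mul] at hrev
  have e1 : (1 - X : F[X]) ^ c = (-1) ^ c * (X - 1) ^ c := by
    rw [← mul_pow]
    congr 1
    ring
  rw [e1] at hrev
  have h3' : (X - 1 : F[X]) ^ c * ((-1 : F[X]) ^ c * P.reverse) = (X - 1) ^ c * P := by
    rw [← hrev]
    ring
  have h3 : (-1 : F[X]) ^ c * P.reverse = P :=
    mul_left_cancel₀ (pow_ne_zero c monic_X_sub_one.ne_zero) h3'
  have hc : Even c := by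
    by_contra hodd
    rw [Nat.not_even_iff_odd] at hodd
    rw [hodd.neg_one_pow] at h3
    have h4 := congrArg (eval 1) h3
    rw [eval_mul, eval_neg, eval_one, eval_one_reverse] at h4
    have e2 : (2 : F) * P.eval 1 = 0 := by linear_combination -h4
    rcases mul_eq_zero.mp e2 with h | h
    · exact h2 h
    · exact hP1 h
  refine ⟨hc, ?_⟩
  rw [hc.neg_one_pow, one_mul] at h3
  exact h3

end Pal

end Cfsg.Agent.Lib.Helper47
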