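import Mathlib

/-!
# Orbits of the cyclic shift on `r`-tuples of natural numbers with given sum

For a prime `r` and `n ≥ 1`, the cyclic group `ZMod r` acts by translation of the index on the set
`Tset r n` of functions `a : ZMod r → ℕ` with `∑ a = n` and all values `< n`.  The number of orbits
is `(C(n+r-1, r-1) - r - [r ∣ n]) / r + [r ∣ n]` (`card_shift_orbits`).
-/

set_option autoImplicit false

namespace Cfsg.Agent.Lib.Helper47

section ShiftOrbits

variable (r n : ℕ) [Fact r.Prime]

/-- `r`-tuples of natural numbers `< n` with sum `n`. -/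
@[ext]
structure Tset where
  /-- the tuple -/
  val : ZMod r → ℕ
  sum_eq : ∑ j, val j = n
  lt : ∀ j, val j < n

instance : Finite (Tset r n) := by
  have hinj : Function.Injective
      (fun (a : Tset r n) (j : ZMod r) => (⟨a.val j, by have := a.lt j; omega⟩ : Fin (n + 1))) := by
    intro a b h
    ext j
    have := congrFun h j
    simpa using this
  exact Finite.of_injective _ hinj

instance : AddAction (ZMod r) (Tset r n) where
  vadd k a := ⟨fun j => a.val (j - k),
    (Fintype.sum_equiv (Equiv.subRight k) _ _ (fun j => rfl)).trans a.sum_eq, fun j => a.lt _⟩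
  zero_vadd a := by
    ext j
    change a.val (j - 0) = a.val j
    rw [sub_zero]
  add_vadd k l a := by
    ext j
    change a.val (j - (k + l)) = a.val (j - k - l)
    rw [sub_add_eq_sub_sub]

lemma Tset.vadd_apply (k : ZMod r) (a : Tset r n) (j : ZMod r) :
    (k +ᵥ a).val j = a.val (j - k) := rfl

variable {r n}

lemma Tset.const_of_fixed {k : ZMod r} (hk : k ≠ 0) {a : Tset r n} (h : k +ᵥ a = a) (j : ZMod r) :
    a.val j = a.val 0 := by
  have h1 : ∀ j, a.val (j - k) = a.val j := by
    intro j
    have := congrArg (fun b : Tset r n => b.val j) h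
    exact this
  have h2 : ∀ m : ℕ, a.val (-((m : ZMod r) * k)) = a.val 0 := by
    intro m
    induction m with
    | zero => simp
    | succ m ih =>
      have h3 : -(((m + 1 : ℕ) : ZMod r) * k) = -((m : ZMod r) * k) - k := by
        push_cast
        ring
      rw [h3, h1, ih]
  obtain ⟨m, hm⟩ : ∃ m : ℕ, (m : ZMod r) = -j * k⁻¹ := ⟨(-j * k⁻¹).val, ZMod.natCast_zmod_val _⟩
  have h3 : -((m : ZMod r) * k) = j := by
    rw [hm, mul_assoc, inv_mul_cancel₀ hk, mul_one, neg_neg]
  rw [← h3]
  exact h2 m

lemma Tset.sum_of_const {a : Tset r n} (h : ∀ j, a.val j = a.val 0) : r * a.val 0 = n := by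
  have h1 := a.sum_eq
  rw [Finset.sum_congr rfl (fun j _ => h j), Finset.sum_const, Finset.card_univ, ZMod.card,
    smul_eq_mul] at h1
  exact h1

/-- The number of fixed points of a nontrivial shift. -/
lemma Tset.card_fixedBy (hn : 1 ≤ n) {k : ZMod r} (hk : k ≠ 0) :
    Nat.card (AddAction.fixedBy (Tset r n) k) = if r ∣ n then 1 else 0 := by
  have hr : r.Prime := Fact.out
  split_ifs with hdvd
  · rw [Nat.card_eq_one_iff_unique]
    constructor
    · constructor
      rintro ⟨a, ha⟩ ⟨b, hb⟩
      apply Subtype.ext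
      ext j
      have h1 := Tset.sum_of_const (Tset.const_of_fixed hk ha)
      have h2 := Tset.sum_of_const (Tset.const_of_fixed hk hb)
      change a.val j = b.val j
      rw [Tset.const_of_fixed hk ha j, Tset.const_of_fixed hk hb j]
      exact Nat.eq_of_mul_eq_mul_left hr.pos (h1.trans h2.symm)
    · obtain ⟨c, hc⟩ := hdvd
      have hc0 : c < n := by
        have := hr.two_le
        rw [hc]
        nlinarith
      refine ⟨⟨⟨fun _ => c, ?_, fun _ => hc0⟩, rfl⟩⟩
      rw [Finset.sum_const, Finset.card_univ, ZMod.card, smul_eq_mul, hc]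
  · rw [Nat.card_eq_zero]
    left
    constructor
    rintro ⟨a, ha⟩
    exact hdvd ⟨a.val 0, (Tset.sum_of_const (Tset.const_of_fixed hk ha)).symm⟩

/-- The number of `r`-tuples with sum `n` and all entries `< n`. -/
lemma Tset.card_add (hn : 1 ≤ n) : Nat.card (Tset r n) + r = Nat.choose (n + r - 1) (r - 1) := by
  classical
  have hr : r.Prime := Fact.out
  have h1 : Nat.card {P : ZMod r → ℕ // ∑ i, P i = n} = Nat.choose (n + r - 1) (r - 1) := by
    rw [← Nat.card_congr (Sym.equivNatSumOfFintype (ZMod r) n), Nat.card_eq_fintype_card,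
      Sym.card_sym_eq_choose, ZMod.card]
    have h2 : r + n - 1 = n + r - 1 := by omega
    rw [h2, ← Nat.choose_symm (by have := hr.two_le; omega)]
    congr 1
    have := hr.two_le
    omega
  rw [← h1]
  have hfin : Finite {P : ZMod r → ℕ // ∑ i, P i = n} :=
    Finite.of_equiv _ (Sym.equivNatSumOfFintype (ZMod r) n)
  have h3 : Nat.card {P : ZMod r → ℕ // ∑ i, P i = n}
      = Nat.card {x : {P : ZMod r → ℕ // ∑ i, P i = n} // ∀ j, x.1 j < n}
        + Nat.card {x : {P : ZMod r → ℕ // ∑ i, P i = n} // ¬ ∀ j, x.1 j < n} :=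
    Nat.card_congr (Equiv.sumCompl (fun x : {P : ZMod r → ℕ // ∑ i, P i = n} => ∀ j, x.1 j < n)).symm
      |>.trans Nat.card_sum
  have h4 : Nat.card {x : {P : ZMod r → ℕ // ∑ i, P i = n} // ∀ j, x.1 j < n}
      = Nat.card (Tset r n) := by
    apply Nat.card_congr
    exact
      { toFun := fun x => ⟨x.1.1, x.1.2, x.2⟩
        invFun := fun a => ⟨⟨a.val, a.sum_eq⟩, a.lt⟩
        left_inv := fun x => rfl
        right_inv := fun a => rfl }
  have h5 : Nat.card {x : {P : ZMod r → ℕ // ∑ i, P i = n} // ¬ ∀ j, x.1 j < n} = r := by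
    have hsingle : ∀ j : ZMod r, ∑ i, (Pi.single j n : ZMod r → ℕ) i = n := by
      intro j
      rw [Finset.sum_pi_single']
      simp
    obtain ⟨f, hf⟩ : ∃ f : ZMod r → {x : {P : ZMod r → ℕ // ∑ i, P i = n} // ¬ ∀ j, x.1 j < n},
        ∀ j, (f j).1.1 = Pi.single j n :=
      ⟨fun j => ⟨⟨Pi.single j n, hsingle j⟩, by
        push Not
        exact ⟨j, by simp⟩⟩, fun j => rfl⟩
    have hbij : Function.Bijective f := by
      constructor
      · intro j j' h
        have h6 : (Pi.single j n : ZMod r → ℕ) = Pi.single j' n := by rw [← hf, ← hf, h]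
        have h7 := congrFun h6 j
        rw [Pi.single_eq_same] at h7
        by_contra hne
        rw [Pi.single_eq_of_ne hne] at h7
        omega
      · rintro ⟨⟨P, hP⟩, hx⟩
        push Not at hx
        obtain ⟨j, hj⟩ := hx
        refine ⟨j, ?_⟩
        apply Subtype.ext
        apply Subtype.ext
        rw [hf]
        change Pi.single j n = P
        have h8 : P j + ∑ i ∈ Finset.univ.erase j, P i = n := by
          rw [Finset.add_sum_erase _ _ (Finset.mem_univ j)]
          exact hP
        have h9 : ∑ i ∈ Finset.univ.erase j, P i = 0 := by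
          simp only at hj
          omega
        funext i
        by_cases hij : i = j
        · subst hij
          rw [Pi.single_eq_same]
          simp only at hj
          omega
        · rw [Pi.single_eq_of_ne hij]
          exact ((Finset.sum_eq_zero_iff.mp h9) i (Finset.mem_erase.mpr ⟨hij, Finset.mem_univ i⟩)).symm
    rw [← Nat.card_eq_of_bijective f hbij, Nat.card_eq_fintype_card, ZMod.card]
  rw [h3, h4, h5]

/-- **Orbit count** for the cyclic shift on `Tset r n`. -/
theorem card_shift_orbits (hn : 1 ≤ n) :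
    Nat.card (Quotient (AddAction.orbitRel (ZMod r) (Tset r n)))
      = (Nat.choose (n + r - 1) (r - 1) - r - (if r ∣ n then 1 else 0)) / r
        + (if r ∣ n then 1 else 0) := by
  classical
  have hr : r.Prime := Fact.out
  have hfinT : Fintype (Tset r n) := Fintype.ofFinite _
  have hfinΩ : Fintype (Quotient (AddAction.orbitRel (ZMod r) (Tset r n))) := Fintype.ofFinite _
  have hfinF : ∀ k : ZMod r, Fintype (AddAction.fixedBy (Tset r n) k) :=
    fun k => Fintype.ofFinite _
  have hB := AddAction.sum_card_fixedBy_eq_card_orbits_mul_card_addGroup (ZMod r) (Tset r n)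
  rw [ZMod.card, ← Finset.add_sum_erase _ _ (Finset.mem_univ (0 : ZMod r))] at hB
  have h0 : Fintype.card (AddAction.fixedBy (Tset r n) (0 : ZMod r)) = Nat.card (Tset r n) := by
    rw [← Nat.card_eq_fintype_card]
    apply Nat.card_congr
    exact
      { toFun := fun x => x.1
        invFun := fun a => ⟨a, zero_vadd _ a⟩
        left_inv := fun x => rfl
        right_inv := fun a => rfl }
  have h1 : ∑ k ∈ Finset.univ.erase (0 : ZMod r), Fintype.card (AddAction.fixedBy (Tset r n) k)
      = (r - 1) * (if r ∣ n then 1 else 0) := by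
    rw [Finset.sum_congr rfl (fun k hk => by
      rw [← Nat.card_eq_fintype_card, Tset.card_fixedBy hn (Finset.ne_of_mem_erase hk)]),
      Finset.sum_const, Finset.card_erase_of_mem (Finset.mem_univ _), Finset.card_univ, ZMod.card,
      smul_eq_mul]
  rw [h0, h1, ← Nat.card_eq_fintype_card] at hB
  have hT := Tset.card_add (r := r) (n := n) hn
  obtain ⟨W, hW⟩ : ∃ W, W = Nat.card (Quotient (AddAction.orbitRel (ZMod r) (Tset r n))) :=
    ⟨_, rfl⟩
  obtain ⟨A, hA⟩ : ∃ A, A = Nat.card (Tset r n) := ⟨_, rfl⟩
  rw [← hW, ← hA] at hB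
  rw [← hW, ← hT, ← hA, Nat.add_sub_cancel]
  have hr2 := hr.two_le
  split_ifs with hdvd
  · rw [if_pos hdvd, mul_one] at hB
    have hW1 : 1 ≤ W := by
      by_contra hlt
      have : W = 0 := by omega
      rw [this, zero_mul] at hB
      omega
    obtain ⟨W', rfl⟩ : ∃ W', W = W' + 1 := ⟨W - 1, by omega⟩
    have h2 : A - 1 = W' * r := by
      have : (W' + 1) * r = W' * r + r := by ring
      omega
    rw [h2, Nat.mul_div_cancel _ hr.pos]
  · rw [if_neg hdvd, mul_zero, add_zero] at hB
    rw [Nat.sub_zero, add_zero, hB, Nat.mul_div_cancel _ hr.pos]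

end ShiftOrbits

end Cfsg.Agent.Lib.Helper47
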