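import Mathlib
import Cfsg.Agent.Lib.Helper47.PGLPrime
import Cfsg.Agent.Lib.Helper47.ShiftOrbits

/-!
# Classes of elements of prime order `r ∣ q - 1` in `PGL_n(q)`

`pgl_card_prime_order_classes`: the number of such classes is
`(C(n+r-1, r-1) - r - [r ∣ n]) / r + r * [r ∣ n]`.
-/

set_option autoImplicit false

namespace Cfsg.Agent.Lib.Helper47

open Polynomial Matrix

section GLbasic

variable {F : Type*} [Field F] {n : ℕ}

lemma smul_one_inj (hn : 0 < n) {c c' : F}
    (h : c • (1 : Matrix (Fin n) (Fin n) F) = c' • (1 : Matrix (Fin n) (Fin n) F)) : c = c' := by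
  have := congrFun (congrFun h ⟨0, hn⟩) ⟨0, hn⟩
  simpa using this

lemma gl_mem_center_iff (g : GL (Fin n) F) :
    g ∈ Subgroup.center (GL (Fin n) F)
      ↔ ∃ u : Fˣ, g.val = (u : F) • (1 : Matrix (Fin n) (Fin n) F) := by
  rw [Matrix.GeneralLinearGroup.center_eq_range_scalar]
  constructor
  · rintro ⟨u, rfl⟩
    refine ⟨u, ?_⟩
    rw [Matrix.GeneralLinearGroup.coe_scalar, Matrix.scalar_apply, Matrix.smul_one_eq_diagonal]
  · rintro ⟨u, hu⟩
    refine ⟨u, ?_⟩
    apply Units.ext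
    rw [Matrix.GeneralLinearGroup.coe_scalar, Matrix.scalar_apply, hu,
      Matrix.smul_one_eq_diagonal]

lemma gl_scalar_mul_val (u : Fˣ) (g : GL (Fin n) F) :
    (Matrix.GeneralLinearGroup.scalar (Fin n) u * g).val = (u : F) • g.val := by
  rw [Units.val_mul, Matrix.GeneralLinearGroup.coe_scalar, Matrix.scalar_apply,
    ← Matrix.smul_one_eq_diagonal, Matrix.smul_mul, one_mul]

lemma gl_scalar_mem_center (u : Fˣ) :
    Matrix.GeneralLinearGroup.scalar (Fin n) u ∈ Subgroup.center (GL (Fin n) F) := by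
  rw [Matrix.GeneralLinearGroup.center_eq_range_scalar]
  exact ⟨u, rfl⟩

lemma gl_conj_pow_scalar {r : ℕ} {c : F} {g h : GL (Fin n) F} (hc : IsConj g h)
    (hg : g.val ^ r = c • (1 : Matrix (Fin n) (Fin n) F)) :
    h.val ^ r = c • (1 : Matrix (Fin n) (Fin n) F) := by
  obtain ⟨k, rfl⟩ := isConj_iff.mp hc
  rw [← Units.val_pow_eq_pow_val, conj_pow, Units.val_mul, Units.val_mul,
    Units.val_pow_eq_pow_val, hg, Matrix.mul_smul, mul_one, Matrix.smul_mul, ← Units.val_mul,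
    mul_inv_cancel, Units.val_one]

lemma gl_charpoly_eq_of_isConj {g h : GL (Fin n) F} (hc : IsConj g h) :
    g.val.charpoly = h.val.charpoly := by
  obtain ⟨k, rfl⟩ := isConj_iff.mp hc
  simp

lemma gl_exists_of_pow_eq_scalar {r : ℕ} (hr : r ≠ 0) {c : F} (hc0 : c ≠ 0)
    (M : Matrix (Fin n) (Fin n) F) (hM : M ^ r = c • (1 : Matrix (Fin n) (Fin n) F)) :
    ∃ g : GL (Fin n) F, g.val = M := by
  have hdet : M.det ≠ 0 := by
    intro h0
    have h1 := congrArg Matrix.det hM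
    rw [Matrix.det_pow, h0, zero_pow hr, Matrix.det_smul, Matrix.det_one, mul_one] at h1
    exact pow_ne_zero _ hc0 h1.symm
  obtain ⟨g, hg⟩ := (Matrix.isUnit_iff_isUnit_det M).mpr (isUnit_iff_ne_zero.mpr hdet)
  exact ⟨g, hg⟩

lemma coprime_card_sub_one [Fintype F] {p q : ℕ} [Fact p.Prime] [CharP F p]
    (hF : Fintype.card F = q) : (q - 1).Coprime p := by
  have hp : p.Prime := Fact.out
  obtain ⟨k, -, hk⟩ := FiniteField.card F p
  rw [hF] at hk
  apply Nat.Coprime.symm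
  rw [hp.coprime_iff_not_dvd]
  intro hdvd
  have h2 : p ∣ q := by
    rw [hk]
    exact dvd_pow_self p k.ne_zero
  have hq : 1 ≤ q := by
    rw [hk]
    exact Nat.one_le_pow _ _ hp.pos
  have h3 : p ∣ q - (q - 1) := Nat.dvd_sub h2 hdvd
  have h4 : q - (q - 1) = 1 := by omega
  rw [h4] at h3
  exact hp.one_lt.ne' (Nat.dvd_one.mp h3)

lemma gl_isConj_of_pow_eq_scalar [Fintype F] {p q : ℕ} [Fact p.Prime] [CharP F p]
    (hF : Fintype.card F = q) {r : ℕ} (hr : r.Prime) (hrp : r ≠ p) {c : F} (hc0 : c ≠ 0)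
    (g h : GL (Fin n) F) (hg : g.val ^ r = c • (1 : Matrix (Fin n) (Fin n) F))
    (hh : h.val ^ r = c • (1 : Matrix (Fin n) (Fin n) F))
    (hchar : g.val.charpoly = h.val.charpoly) : IsConj g h := by
  have hord : ∀ k : GL (Fin n) F, k.val ^ r = c • (1 : Matrix (Fin n) (Fin n) F) →
      (orderOf k).Coprime p := by
    intro k hk
    have h1 : k ^ (r * (q - 1)) = 1 := by
      apply Units.ext
      rw [Units.val_pow_eq_pow_val, pow_mul, hk, _root_.smul_pow, one_pow, ← hF,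
        FiniteField.pow_card_sub_one_eq_one c hc0, one_smul, Units.val_one]
    apply Nat.Coprime.coprime_dvd_left (orderOf_dvd_of_pow_eq_one h1)
    apply Nat.Coprime.mul_left
    · exact (Nat.coprime_primes hr Fact.out).mpr hrp
    · exact coprime_card_sub_one hF
  exact gl_isConj_of_coeffVec_eq p g h (hord g hg) (hord h hh) (coeffVec_eq_of_charpoly_eq hchar)

lemma pgl_isConj_iff (g g' : GL (Fin n) F) :
    IsConj (g : GL (Fin n) F ⧸ Subgroup.center (GL (Fin n) F))
        (g' : GL (Fin n) F ⧸ Subgroup.center (GL (Fin n) F)) ↔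
      ∃ u : Fˣ, IsConj g (Matrix.GeneralLinearGroup.scalar (Fin n) u * g') := by
  rw [quot_isConj_iff]
  constructor
  · rintro ⟨z, hz, hc⟩
    rw [Matrix.GeneralLinearGroup.center_eq_range_scalar] at hz
    obtain ⟨u, rfl⟩ := hz
    exact ⟨u, hc⟩
  · rintro ⟨u, hc⟩
    exact ⟨_, gl_scalar_mem_center u, hc⟩

end GLbasic

section PGL

variable {F : Type*} [Field F] [Fintype F] {p q r n : ℕ} [Fact p.Prime] [CharP F p]
  [Fact r.Prime]

/-- The index type for classes of order `r` in `PGL_n(q)`. -/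
abbrev PIdx (r n : ℕ) [Fact r.Prime] : Type :=
  Quotient (AddAction.orbitRel (ZMod r) (Tset r n)) ⊕ {j : ZMod r // j ≠ 0 ∧ r ∣ n}

/-- The relation between indices and elements of `PGL_n(q)`. -/
def PRel (γ : F) (m : ℕ) :
    PIdx r n → (GL (Fin n) F ⧸ Subgroup.center (GL (Fin n) F)) → Prop
  | Sum.inl o, x => ∃ (a : Tset r n) (g : GL (Fin n) F), Quotient.mk _ a = o ∧
      (g : GL (Fin n) F ⧸ Subgroup.center (GL (Fin n) F)) = x ∧ g.val ^ r = 1 ∧
      multF (γ ^ m) r g.val = a.val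
  | Sum.inr j, x => ∃ g : GL (Fin n) F,
      (g : GL (Fin n) F ⧸ Subgroup.center (GL (Fin n) F)) = x ∧
      g.val ^ r = (γ ^ j.1.val) • (1 : Matrix (Fin n) (Fin n) F)

variable (hF : Fintype.card F = q) (hrp : r ≠ p) (hrq : r ∣ q - 1) (hn : 0 < n)
  {γ : F} {m : ℕ} (hγ0 : γ ≠ 0) (hγgen : ∀ x : F, x ≠ 0 → ∃ a : ℕ, x = γ ^ a)
  (hqm : q - 1 = r * m) (hζ : IsPrimitiveRoot (γ ^ m) r)

include hF hqm hζ in
lemma pow_gamma_inj {μ : F} (hμ : μ ≠ 0) {j j' : ZMod r}
    (h : μ ^ r * γ ^ j.val = γ ^ j'.val) : j = j' := by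
  have h1 := congrArg (fun x => x ^ m) h
  rw [mul_pow, ← pow_mul, ← hqm, ← hF, FiniteField.pow_card_sub_one_eq_one μ hμ, one_mul,
    ← pow_mul, ← pow_mul, mul_comm j.val, mul_comm j'.val, pow_mul, pow_mul] at h1
  exact pow_val_injective hζ h1

include hγ0 hγgen in
lemma exists_gamma_decomp {c : F} (hc : c ≠ 0) :
    ∃ (μ : F) (j : ZMod r), μ ≠ 0 ∧ c = μ ^ r * γ ^ j.val := by
  obtain ⟨a, rfl⟩ := hγgen c hc
  refine ⟨γ ^ (a / r), (a : ZMod r), pow_ne_zero _ hγ0, ?_⟩
  rw [ZMod.val_natCast, ← pow_mul, ← pow_add, Nat.div_add_mod']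

include hF hrp hrq hγ0 hζ in
lemma PRel_exists (t : PIdx r n) : ∃ x, PRel (F := F) γ m t x := by
  have hr : r.Prime := Fact.out
  rcases t with o | ⟨j, hj, hrn⟩
  · obtain ⟨a, rfl⟩ := Quotient.exists_rep o
    obtain ⟨M, hM, hMa⟩ := exists_matrix_multF hF hr hrp hrq hζ a.val a.sum_eq
    obtain ⟨g, hg⟩ := gl_exists_of_pow_eq_scalar hr.ne_zero (one_ne_zero (α := F)) M
      (by rw [hM, one_smul])
    exact ⟨(g : GL (Fin n) F ⧸ Subgroup.center (GL (Fin n) F)), a, g, rfl, rfl,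
      by rw [hg]; exact hM, by rw [hg]; exact hMa⟩
  · obtain ⟨M, hM⟩ := exists_matrix_pow_eq_scalar p hr (γ ^ j.val) (pow_ne_zero _ hγ0) hrn
    obtain ⟨g, hg⟩ := gl_exists_of_pow_eq_scalar hr.ne_zero (pow_ne_zero _ hγ0) M hM
    exact ⟨(g : GL (Fin n) F ⧸ Subgroup.center (GL (Fin n) F)), g, rfl, by rw [hg]; exact hM⟩

include hF hrp hrq hn hγ0 hqm hζ in
lemma PRel_order (t : PIdx r n) (x : GL (Fin n) F ⧸ Subgroup.center (GL (Fin n) F))
    (h : PRel (F := F) γ m t x) : orderOf x = r := by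
  have hr : r.Prime := Fact.out
  rcases t with o | ⟨j, hj, hrn⟩
  · obtain ⟨a, g, -, rfl, hg, hga⟩ := h
    rw [quot_orderOf_eq_prime_iff _ hr]
    refine ⟨?_, ?_⟩
    · have : g ^ r = 1 := Units.ext (by rw [Units.val_pow_eq_pow_val, hg]; rfl)
      rw [this]
      exact Subgroup.one_mem _
    · intro hz
      obtain ⟨u, hu⟩ := (gl_mem_center_iff g).mp hz
      rw [hu, _root_.smul_pow, one_pow] at hg
      have hu1 : (u : F) ^ r = 1 := smul_one_inj hn (by rw [hg, one_smul])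
      obtain ⟨k, hk⟩ := exists_pow_val hζ hu1
      have h1 := multF_scalar hF hr hrp hrq hζ n k
      rw [← hk, ← hu, hga] at h1
      have := a.lt k
      omega
  · obtain ⟨g, rfl, hg⟩ := h
    rw [quot_orderOf_eq_prime_iff _ hr]
    refine ⟨?_, ?_⟩
    · rw [gl_mem_center_iff]
      exact ⟨Units.mk0 (γ ^ j.val) (pow_ne_zero _ hγ0), by
        rw [Units.val_pow_eq_pow_val, hg]; rfl⟩
    · intro hz
      obtain ⟨u, hu⟩ := (gl_mem_center_iff g).mp hz
      rw [hu, _root_.smul_pow, one_pow] at hg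
      have hu1 : (u : F) ^ r = γ ^ j.val := smul_one_inj hn hg
      have := pow_gamma_inj hF hqm hζ u.ne_zero (j := 0) (j' := j)
        (by rw [ZMod.val_zero, pow_zero, mul_one]; exact hu1)
      exact hj this.symm

include hF hrp hrq hγ0 hγgen hqm hζ in
lemma PRel_surj (x : GL (Fin n) F ⧸ Subgroup.center (GL (Fin n) F)) (hx : orderOf x = r) :
    ∃ t, PRel (F := F) (r := r) γ m t x := by
  have hr : r.Prime := Fact.out
  obtain ⟨g, rfl⟩ := QuotientGroup.mk_surjective x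
  rw [quot_orderOf_eq_prime_iff _ hr] at hx
  obtain ⟨hgr, hgz⟩ := hx
  obtain ⟨u, hu⟩ := (gl_mem_center_iff (g ^ r)).mp hgr
  rw [Units.val_pow_eq_pow_val] at hu
  obtain ⟨μ, j, hμ, hc⟩ := exists_gamma_decomp (r := r) hγ0 hγgen u.ne_zero
  obtain ⟨g₁, hg₁⟩ : ∃ g₁ : GL (Fin n) F,
      g₁ = Matrix.GeneralLinearGroup.scalar (Fin n) (Units.mk0 μ hμ)⁻¹ * g := ⟨_, rfl⟩
  have hval : g₁.val = μ⁻¹ • g.val := by
    rw [hg₁, gl_scalar_mul_val]
    simp
  have hquot : (g₁ : GL (Fin n) F ⧸ Subgroup.center (GL (Fin n) F)) = g := by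
    rw [hg₁, QuotientGroup.mk_mul, (QuotientGroup.eq_one_iff _).mpr (gl_scalar_mem_center _),
      one_mul]
  have hpow : g₁.val ^ r = (γ ^ j.val) • (1 : Matrix (Fin n) (Fin n) F) := by
    rw [hval, _root_.smul_pow, hu, smul_smul, hc, inv_pow, ← mul_assoc,
      inv_mul_cancel₀ (pow_ne_zero _ hμ), one_mul]
  by_cases hj : j = 0
  · rw [hj, ZMod.val_zero, pow_zero, one_smul] at hpow
    have hlt : ∀ k, multF (γ ^ m) r g₁.val k < n := by
      intro k
      by_contra hge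
      have h1 := eq_scalar_of_multF hF hr hrp hrq hζ g₁.val hpow k (by omega)
      apply hgz
      have h2 : g₁ ∈ Subgroup.center (GL (Fin n) F) :=
        (gl_mem_center_iff g₁).mpr
          ⟨Units.mk0 _ (pow_ne_zero k.val (hζ.ne_zero hr.ne_zero)), h1⟩
      have h3 : g = Matrix.GeneralLinearGroup.scalar (Fin n) (Units.mk0 μ hμ) * g₁ := by
        rw [hg₁, ← mul_assoc, ← map_mul, mul_inv_cancel, map_one, one_mul]
      rw [h3]
      exact Subgroup.mul_mem _ (gl_scalar_mem_center _) h2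
    exact ⟨Sum.inl (Quotient.mk _
      ⟨multF (γ ^ m) r g₁.val, sum_multF hF hr hrp hrq hζ g₁.val hpow, hlt⟩), _, g₁, rfl,
      hquot, hpow, rfl⟩
  · have hnr : ∀ b : F, b ^ r ≠ γ ^ j.val := by
      intro b hb
      have hb0 : b ≠ 0 := by
        rintro rfl
        rw [zero_pow hr.ne_zero] at hb
        exact pow_ne_zero _ hγ0 hb.symm
      exact hj (pow_gamma_inj hF hqm hζ hb0 (j := 0) (j' := j)
        (by rw [ZMod.val_zero, pow_zero, mul_one]; exact hb)).symm
    obtain ⟨k, -, hk⟩ := charpoly_of_pow_eq_scalar p hr hrp g₁.val (γ ^ j.val)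
      (pow_ne_zero _ hγ0) hnr hpow
    exact ⟨Sum.inr ⟨j, hj, ⟨k, hk⟩⟩, g₁, hquot, hpow⟩

include hF hn hqm hζ in
lemma not_conj_mixed (g g' : GL (Fin n) F) (hg : g.val ^ r = 1) {j : ZMod r} (hj : j ≠ 0)
    (hg' : g'.val ^ r = (γ ^ j.val) • (1 : Matrix (Fin n) (Fin n) F)) :
    ¬ IsConj (g : GL (Fin n) F ⧸ Subgroup.center (GL (Fin n) F))
      (g' : GL (Fin n) F ⧸ Subgroup.center (GL (Fin n) F)) := by
  intro hc
  obtain ⟨u, hc'⟩ := (pgl_isConj_iff g g').mp hc
  have h1 := gl_conj_pow_scalar hc' (c := 1) (by rw [hg, one_smul])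
  rw [gl_scalar_mul_val, _root_.smul_pow, hg', smul_smul] at h1
  have h2 : (u : F) ^ r * γ ^ j.val = γ ^ (0 : ZMod r).val := by
    rw [ZMod.val_zero, pow_zero]
    exact smul_one_inj hn h1
  exact hj (pow_gamma_inj hF hqm hζ u.ne_zero h2)

include hF hrp hrq hn hγ0 hqm hζ in
lemma PRel_conj (t t' : PIdx r n) (x x' : GL (Fin n) F ⧸ Subgroup.center (GL (Fin n) F))
    (h : PRel (F := F) γ m t x) (h' : PRel (F := F) γ m t' x') : IsConj x x' ↔ t = t' := by
  have hr : r.Prime := Fact.out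
  rcases t with o | ⟨j, hj, hrn⟩ <;> rcases t' with o' | ⟨j', hj', hrn'⟩
  · obtain ⟨a, g, ha, rfl, hg, hga⟩ := h
    obtain ⟨a', g', ha', rfl, hg', hga'⟩ := h'
    constructor
    · intro hc
      obtain ⟨u, hc'⟩ := (pgl_isConj_iff g g').mp hc
      have h1 := gl_conj_pow_scalar hc' (c := 1) (by rw [hg, one_smul])
      rw [gl_scalar_mul_val, _root_.smul_pow, hg'] at h1
      have hu1 : (u : F) ^ r = 1 := smul_one_inj hn h1
      obtain ⟨k, hk⟩ := exists_pow_val hζ hu1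
      have h2 := gl_charpoly_eq_of_isConj hc'
      rw [gl_scalar_mul_val, hk] at h2
      have h3 : ∀ i, a.val i = a'.val (i - k) := by
        intro i
        rw [← hga, ← hga', ← multF_smul hF hr hrp hrq hζ k g'.val hg' i]
        simp only [multF, h2]
      rw [← ha, ← ha']
      congr 1
      apply Quotient.sound
      change a ∈ AddAction.orbit (ZMod r) a'
      rw [AddAction.mem_orbit_iff]
      refine ⟨k, ?_⟩
      ext i
      rw [Tset.vadd_apply, h3]
    · intro ht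
      have ho : o = o' := Sum.inl.inj ht
      rw [← ha, ← ha'] at ho
      have hrel := Quotient.exact ho
      change a ∈ AddAction.orbit (ZMod r) a' at hrel
      rw [AddAction.mem_orbit_iff] at hrel
      obtain ⟨k, hk⟩ := hrel
      have hu0 : (γ ^ m) ^ k.val ≠ 0 := pow_ne_zero _ (hζ.ne_zero hr.ne_zero)
      rw [pgl_isConj_iff]
      refine ⟨Units.mk0 _ hu0, ?_⟩
      have hpow : (Matrix.GeneralLinearGroup.scalar (Fin n) (Units.mk0 _ hu0) * g').val ^ r
          = (1 : F) • (1 : Matrix (Fin n) (Fin n) F) := by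
        rw [gl_scalar_mul_val, _root_.smul_pow, hg', Units.val_mk0, ← pow_mul, mul_comm, pow_mul,
          hζ.pow_eq_one, one_pow]
      apply gl_isConj_of_pow_eq_scalar hF hr hrp (one_ne_zero (α := F)) g _
        (by rw [hg, one_smul]) hpow
      apply charpoly_eq_of_multF_eq hF hr hrp hrq hζ _ _ hg (by rw [hpow, one_smul])
      funext i
      rw [gl_scalar_mul_val, Units.val_mk0, multF_smul hF hr hrp hrq hζ k g'.val hg' i, hga,
        hga', ← hk, Tset.vadd_apply]
  · obtain ⟨a, g, ha, rfl, hg, hga⟩ := h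
    obtain ⟨g', rfl, hg'⟩ := h'
    constructor
    · intro hc
      exact absurd hc (not_conj_mixed hF hn hqm hζ g g' hg hj' hg')
    · intro ht
      exact absurd ht (by simp)
  · obtain ⟨g, rfl, hg⟩ := h
    obtain ⟨a', g', ha', rfl, hg', hga'⟩ := h'
    constructor
    · intro hc
      exact absurd hc.symm (not_conj_mixed hF hn hqm hζ g' g hg' hj hg)
    · intro ht
      exact absurd ht (by simp)
  · obtain ⟨g, rfl, hg⟩ := h
    obtain ⟨g', rfl, hg'⟩ := h'
    simp only at hg hg'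
    constructor
    · intro hc
      obtain ⟨u, hc'⟩ := (pgl_isConj_iff g g').mp hc
      have h1 := gl_conj_pow_scalar hc' hg
      rw [gl_scalar_mul_val, _root_.smul_pow, hg', smul_smul] at h1
      have h2 : (u : F) ^ r * γ ^ j'.val = γ ^ j.val := smul_one_inj hn h1
      have h3 := pow_gamma_inj hF hqm hζ u.ne_zero h2
      subst h3
      rfl
    · intro ht
      have hjj : j = j' := by
        have := Sum.inr.inj ht
        exact congrArg Subtype.val this
      subst hjj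
      have hnr : ∀ b : F, b ^ r ≠ γ ^ j.val := by
        intro b hb
        have hb0 : b ≠ 0 := by
          rintro rfl
          rw [zero_pow hr.ne_zero] at hb
          exact pow_ne_zero _ hγ0 hb.symm
        exact hj (pow_gamma_inj hF hqm hζ hb0 (j := 0) (j' := j)
          (by rw [ZMod.val_zero, pow_zero, mul_one]; exact hb)).symm
      obtain ⟨k, hk, hnk⟩ := charpoly_of_pow_eq_scalar p hr hrp g.val (γ ^ j.val)
        (pow_ne_zero _ hγ0) hnr hg
      obtain ⟨k', hk', hnk'⟩ := charpoly_of_pow_eq_scalar p hr hrp g'.val (γ ^ j.val)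
        (pow_ne_zero _ hγ0) hnr hg'
      have hkk : k = k' := Nat.eq_of_mul_eq_mul_left hr.pos (hnk.symm.trans hnk')
      have hconj : IsConj g g' := gl_isConj_of_pow_eq_scalar hF hr hrp (pow_ne_zero _ hγ0) g g'
        hg hg' (by rw [hk, hk', hkk])
      rw [pgl_isConj_iff]
      exact ⟨1, by rw [map_one, one_mul]; exact hconj⟩

end PGL

/-- **Classes of prime order `r ∣ q - 1` in `PGL_n(q)`.** -/
theorem pgl_card_prime_order_classes {F : Type*} [Field F] [Fintype F] {q : ℕ}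
    (hF : Fintype.card F = q) {n r : ℕ} (hn : 1 ≤ n) (hr : r.Prime) (hrq : r ∣ q - 1) :
    Nat.card {C : ConjClasses (GL (Fin n) F ⧸ Subgroup.center (GL (Fin n) F)) //
        ∃ g : GL (Fin n) F ⧸ Subgroup.center (GL (Fin n) F),
          ConjClasses.mk g = C ∧ orderOf g = r}
      = (Nat.choose (n + r - 1) (r - 1) - r - (if r ∣ n then 1 else 0)) / r
        + r * (if r ∣ n then 1 else 0) := by
  classical
  obtain ⟨p, hp⟩ := CharP.exists F
  have : Fact p.Prime := ⟨CharP.char_is_prime F p⟩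
  have : Fact r.Prime := ⟨hr⟩
  have hrp : r ≠ p := by
    intro hrp'
    have h0 := coprime_card_sub_one (p := p) hF
    rw [← hrp'] at h0
    have h1 : r ∣ Nat.gcd (q - 1) r := Nat.dvd_gcd hrq dvd_rfl
    rw [h0] at h1
    exact hr.one_lt.ne' (Nat.dvd_one.mp h1)
  obtain ⟨γ, m, hγ0, hγgen, hqm, hγq, hζ⟩ := exists_gen_root hF hrq
  rw [card_classes_rel (fun x => orderOf x = r) (PRel (F := F) (r := r) (n := n) γ m)
    (PRel_exists hF hrp hrq hγ0 hζ) (PRel_order hF hrp hrq hn hγ0 hqm hζ)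
    (PRel_surj hF hrp hrq hγ0 hγgen hqm hζ) (PRel_conj hF hrp hrq hn hγ0 hqm hζ)]
  rw [Nat.card_sum, card_shift_orbits hn]
  have hB : Nat.card {j : ZMod r // j ≠ 0 ∧ r ∣ n} = (r - 1) * (if r ∣ n then 1 else 0) := by
    split_ifs with hdvd
    · rw [mul_one, Nat.card_eq_fintype_card, Fintype.card_subtype]
      have : (Finset.univ.filter (fun j : ZMod r => j ≠ 0 ∧ r ∣ n)) = Finset.univ.erase 0 := by
        ext j
        simp [hdvd]
      rw [this, Finset.card_erase_of_mem (Finset.mem_univ _), Finset.card_univ, ZMod.card]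
    · rw [mul_zero, Nat.card_eq_zero]
      left
      exact ⟨fun j => hdvd j.2.2⟩
  rw [hB]
  obtain ⟨X, hX⟩ : ∃ X, X = (Nat.choose (n + r - 1) (r - 1) - r - (if r ∣ n then 1 else 0)) / r :=
    ⟨_, rfl⟩
  rw [← hX]
  have hr1 := hr.one_lt
  split_ifs with hdvd
  · rw [mul_one, mul_one]
    omega
  · rw [mul_zero, mul_zero, add_zero]

end Cfsg.Agent.Lib.Helper47
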