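import Mathlib
import Cfsg.Prelude.Def_LieClassical
import Cfsg.Agent.Lib.Helper47.PGLClasses
import Cfsg.Agent.Lib.Helper47.GUConj
import Cfsg.Agent.Lib.Helper47.GUSim
import Cfsg.Agent.Lib.Helper47.SU3Inv

/-!
# Classes of elements of odd prime order `r ∣ q + 1` in `PGU_n(q)`

`pgu_card_prime_order_classes`: the number of such classes is
`(C(n+r-1, r-1) - r - [r ∣ n]) / r + r * [r ∣ n]`.
-/

set_option autoImplicit false

namespace Cfsg.Agent.Lib.Helper47

open Polynomial Matrix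

section DiagMult

variable {F : Type*} [Field F] {r : ℕ} [NeZero r] {ζ : F}

lemma exists_diag_multF (hζ : IsPrimitiveRoot ζ r) {n : ℕ} (a : ZMod r → ℕ)
    (ha : ∑ j, a j = n) :
    ∃ d : Fin n → F, (∀ i, ∃ j : ZMod r, d i = ζ ^ j.val) ∧
      multF ζ r (Matrix.diagonal d) = a := by
  classical
  have hcard : Fintype.card (Σ j : ZMod r, Fin (a j)) = Fintype.card (Fin n) := by
    rw [Fintype.card_sigma, Fintype.card_fin]
    simp only [Fintype.card_fin]
    exact ha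
  obtain ⟨ε⟩ : Nonempty (Fin n ≃ Σ j : ZMod r, Fin (a j)) :=
    ⟨Fintype.equivOfCardEq hcard.symm⟩
  refine ⟨fun i => ζ ^ (ε i).1.val, fun i => ⟨(ε i).1, rfl⟩, ?_⟩
  funext j
  simp only [multF]
  rw [Matrix.charpoly_diagonal, ← count_roots]
  have h1 : ∏ i, (X - C (ζ ^ (ε i).1.val))
      = ((Finset.univ.val.map (fun i => ζ ^ (ε i).1.val)).map (fun a => X - C a)).prod := by
    rw [Multiset.map_map]
    rfl
  rw [h1, roots_multiset_prod_X_sub_C, Multiset.count_map]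
  have h2 : (Finset.univ.val.filter (fun i => ζ ^ j.val = ζ ^ (ε i).1.val))
      = (Finset.univ.filter (fun i : Fin n => (ε i).1 = j)).val := by
    rw [Finset.filter_val]
    apply Multiset.filter_congr
    intro i _
    constructor
    · intro h
      exact (pow_val_injective hζ h).symm
    · intro h
      simp only [h]
  rw [h2, ← Finset.card_def, ← Fintype.card_subtype]
  have h3 : Fintype.card {i : Fin n // (ε i).1 = j}
      = Fintype.card {x : Σ j : ZMod r, Fin (a j) // x.1 = j} :=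
    Fintype.card_congr (ε.subtypeEquiv (fun i => Iff.rfl))
  rw [h3]
  have h4 : Function.Bijective
      (fun b : Fin (a j) => (⟨⟨j, b⟩, rfl⟩ : {x : Σ j : ZMod r, Fin (a j) // x.1 = j})) := by
    constructor
    · intro b b' h
      have h5 := congrArg Subtype.val h
      simp only [Sigma.mk.injEq, heq_eq_eq, true_and] at h5
      exact h5
    · rintro ⟨⟨j', b⟩, rfl⟩
      exact ⟨b, rfl⟩
  rw [← Fintype.card_of_bijective h4, Fintype.card_fin]

end DiagMult

section GUbasic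

variable {K : Type*} [Field K] {n : ℕ}

lemma sT_smul (σ : K →+* K) (c : K) (M : Matrix (Fin n) (Fin n) K) :
    sT σ (c • M) = σ c • sT σ M := by
  apply Matrix.ext
  intro i j
  simp [sT]

lemma isSemisimple_toLin'_of_pow_eq_scalar (M : Matrix (Fin n) (Fin n) K) (r : ℕ)
    (hrF : (r : K) ≠ 0) {c : K} (hc0 : c ≠ 0)
    (hM : M ^ r = c • (1 : Matrix (Fin n) (Fin n) K)) :
    Module.End.IsSemisimple (Matrix.toLin' M) := by
  have hsep : (X ^ r - C c : K[X]).Separable := separable_X_pow_sub_C c hrF hc0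
  apply Module.End.isSemisimple_of_squarefree_aeval_eq_zero hsep.squarefree
  rw [map_sub, map_pow, aeval_X, aeval_C, ← Matrix.toLin'_pow, hM]
  apply LinearMap.ext
  intro v
  simp [Algebra.algebraMap_eq_smul_one]

variable [Fintype K] {q : ℕ}

lemma gu_exists_of_sT {σ : K →+* K} (hσq : ∀ x, σ x = x ^ q) (hσ : ∀ x, σ (σ x) = x)
    (B : Matrix (Fin n) (Fin n) K) (hBB : sT σ B * B = 1) :
    ∃ g : ↥(Cfsg.GU n K q), g.1.val = B :=
  ⟨⟨⟨B, sT σ B, mul_eq_one_comm.mp hBB, hBB⟩, (mem_GU_iff_sT hσq hσ _).mpr hBB⟩, rfl⟩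

lemma gu_sT {σ : K →+* K} (hσq : ∀ x, σ x = x ^ q) (hσ : ∀ x, σ (σ x) = x)
    (g : ↥(Cfsg.GU n K q)) : sT σ g.1.val * g.1.val = 1 :=
  (mem_GU_iff_sT hσq hσ g.1).mp g.2

lemma gu_mem_center_of_scalar (g : ↥(Cfsg.GU n K q)) (c : K)
    (hg : g.1.val = c • (1 : Matrix (Fin n) (Fin n) K)) :
    g ∈ Subgroup.center ↥(Cfsg.GU n K q) := by
  rw [Subgroup.mem_center_iff]
  intro h
  apply Subtype.ext
  apply Units.ext
  change h.1.val * g.1.val = g.1.val * h.1.val
  rw [hg, Matrix.mul_smul, Matrix.smul_mul, mul_one, one_mul]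

lemma gu_exists_scalar (hK : Fintype.card K = q ^ 2) (c : K) (hc : c ^ (q + 1) = 1) :
    ∃ z : ↥(Cfsg.GU n K q), z ∈ Subgroup.center ↥(Cfsg.GU n K q) ∧
      z.1.val = c • (1 : Matrix (Fin n) (Fin n) K) := by
  obtain ⟨σ, hσq, hσ, -⟩ := exists_unitary_data K q hK
  obtain ⟨z, hz⟩ := gu_exists_of_sT hσq hσ (c • (1 : Matrix (Fin n) (Fin n) K)) (by
    rw [sT_smul, sT_one, smul_mul_smul_comm, mul_one, hσq, ← pow_succ, hc, one_smul])
  exact ⟨z, gu_mem_center_of_scalar z c hz, hz⟩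

lemma gu_center_scalar (hK : Fintype.card K = q ^ 2) (hn : 0 < n) (z : ↥(Cfsg.GU n K q))
    (hz : z ∈ Subgroup.center ↥(Cfsg.GU n K q)) :
    ∃ c : K, c ^ (q + 1) = 1 ∧ z.1.val = c • (1 : Matrix (Fin n) (Fin n) K) := by
  classical
  obtain ⟨σ, hσq, hσ, -⟩ := exists_unitary_data K q hK
  have hq1 : 1 ≤ q := by
    rcases Nat.eq_zero_or_pos q with h0 | h
    · exfalso
      rw [h0] at hK
      have := Fintype.one_lt_card (α := K)
      omega
    · exact h
  have hdvd : (q + 1) ∣ q ^ 2 - 1 := by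
    refine ⟨q - 1, ?_⟩
    obtain ⟨t, rfl⟩ : ∃ t, q = t + 1 := ⟨q - 1, by omega⟩
    have h1 : (t + 1) ^ 2 = (t + 1 + 1) * t + 1 := by ring
    rw [h1]
    simp
  obtain ⟨γ, m, -, -, -, -, hx⟩ := exists_gen_root hK hdvd
  obtain ⟨x, hxdef⟩ : ∃ x : K, x = γ ^ m := ⟨_, rfl⟩
  rw [← hxdef] at hx
  have hx1 : x ≠ 1 := hx.ne_one (by omega)
  have hxq : x ^ (q + 1) = 1 := hx.pow_eq_one
  obtain ⟨Z, hZ⟩ : ∃ Z : Matrix (Fin n) (Fin n) K, Z = z.1.val := ⟨_, rfl⟩
  have hcomm : ∀ B : Matrix (Fin n) (Fin n) K, sT σ B * B = 1 → B * Z = Z * B := by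
    intro B hB
    obtain ⟨g, hg⟩ := gu_exists_of_sT hσq hσ B hB
    have h1 := Subgroup.mem_center_iff.mp hz g
    have h2 := congrArg (fun w : ↥(Cfsg.GU n K q) => w.1.val) h1
    change g.1.val * z.1.val = z.1.val * g.1.val at h2
    rw [hg, ← hZ] at h2
    exact h2
  have hoff : ∀ i j, i ≠ j → Z i j = 0 := by
    intro i j hij
    obtain ⟨d, hd⟩ : ∃ d : Fin n → K, d = Function.update (fun _ => (1 : K)) i x := ⟨_, rfl⟩
    have hdi : d i = x := by rw [hd, Function.update_self]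
    have hdj : d j = 1 := by rw [hd, Function.update_of_ne hij.symm]
    have hdd : ∀ l, σ (d l) * d l = 1 := by
      intro l
      rw [hσq, ← pow_succ]
      by_cases hl : l = i
      · rw [hl, hdi, hxq]
      · rw [hd, Function.update_of_ne hl, one_pow]
    have hD : sT σ (Matrix.diagonal d) * Matrix.diagonal d = 1 := by
      have : sT σ (Matrix.diagonal d) = Matrix.diagonal (fun l => σ (d l)) := by
        unfold sT
        rw [Matrix.diagonal_map (map_zero σ), Matrix.diagonal_transpose]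
      rw [this, Matrix.diagonal_mul_diagonal, ← Matrix.diagonal_one]
      congr 1
      funext l
      exact hdd l
    have h1 := congrFun (congrFun (hcomm _ hD) i) j
    rw [Matrix.diagonal_mul, Matrix.mul_diagonal, hdi, hdj, mul_one] at h1
    have h2 : (x - 1) * Z i j = 0 := by linear_combination h1
    rcases mul_eq_zero.mp h2 with h | h
    · exact absurd (sub_eq_zero.mp h) hx1
    · exact h
  have hdiag : ∀ i j, i ≠ j → Z i i = Z j j := by
    intro i j hij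
    obtain ⟨P, hP⟩ : ∃ P : Matrix (Fin n) (Fin n) K, P = (Equiv.swap i j).permMatrix K :=
      ⟨_, rfl⟩
    have hPP : sT σ P * P = 1 := by
      apply sT_mul_self_of_unitary hσ
      intro u v
      rw [hP, Matrix.permMatrix_mulVec, Matrix.permMatrix_mulVec]
      exact Equiv.sum_comp (Equiv.swap i j) (fun l => u l * σ (v l))
    have hPij : P i j = 1 := by
      rw [hP]
      simp [PEquiv.toMatrix_apply, Equiv.toPEquiv_apply]
    have h1 := congrFun (congrFun (hcomm _ hPP) i) j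
    rw [Matrix.mul_apply, Matrix.mul_apply, Finset.sum_eq_single j, Finset.sum_eq_single i,
      hPij, one_mul, mul_one] at h1
    · exact h1.symm
    · intro c _ hc
      rw [hoff i c (Ne.symm hc), zero_mul]
    · intro h
      exact absurd (Finset.mem_univ i) h
    · intro c _ hc
      rw [hoff c j hc, mul_zero]
    · intro h
      exact absurd (Finset.mem_univ j) h
  obtain ⟨c, hc⟩ : ∃ c : K, c = Z ⟨0, hn⟩ ⟨0, hn⟩ := ⟨_, rfl⟩
  have hmat : Z = c • (1 : Matrix (Fin n) (Fin n) K) := by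
    apply Matrix.ext
    intro i j
    rw [Matrix.smul_apply, Matrix.one_apply, smul_eq_mul]
    by_cases hij : i = j
    · subst hij
      rw [if_pos rfl, mul_one, hc]
      by_cases hi0 : i = ⟨0, hn⟩
      · rw [hi0]
      · exact hdiag i ⟨0, hn⟩ hi0
    · rw [if_neg hij, mul_zero]
      exact hoff i j hij
  refine ⟨c, ?_, by rw [← hZ]; exact hmat⟩
  have h1 := gu_sT hσq hσ z
  rw [← hZ, hmat, sT_smul, sT_one, smul_mul_smul_comm, mul_one] at h1
  have h2 : σ c * c = 1 := smul_one_inj hn (by rw [h1, one_smul])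
  rw [hσq, ← pow_succ] at h2
  exact h2

lemma gu_isConj_of_pow_eq_scalar (hK : Fintype.card K = q ^ 2) {p : ℕ} [Fact p.Prime]
    [CharP K p] {r : ℕ} (hr : r.Prime) (hrp : r ≠ p) {c : K} (hc0 : c ≠ 0)
    (g h : ↥(Cfsg.GU n K q)) (hg : g.1.val ^ r = c • (1 : Matrix (Fin n) (Fin n) K))
    (hh : h.1.val ^ r = c • (1 : Matrix (Fin n) (Fin n) K))
    (hchar : g.1.val.charpoly = h.1.val.charpoly) : IsConj g h :=
  (gu_isConj_iff hK g h).mpr (gl_isConj_of_pow_eq_scalar hK hr hrp hc0 g.1 h.1 hg hh hchar)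

lemma pgu_isConj_iff (hK : Fintype.card K = q ^ 2) (hn : 0 < n) (g g' : ↥(Cfsg.GU n K q)) :
    IsConj (g : ↥(Cfsg.GU n K q) ⧸ Subgroup.center ↥(Cfsg.GU n K q))
        (g' : ↥(Cfsg.GU n K q) ⧸ Subgroup.center ↥(Cfsg.GU n K q)) ↔
      ∃ (c : K) (h : ↥(Cfsg.GU n K q)), c ^ (q + 1) = 1 ∧ h.1.val = c • g'.1.val ∧
        IsConj g h := by
  rw [quot_isConj_iff]
  constructor
  · rintro ⟨z, hz, hc⟩
    obtain ⟨c, hcq, hzc⟩ := gu_center_scalar hK hn z hz
    refine ⟨c, z * g', hcq, ?_, hc⟩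
    change z.1.val * g'.1.val = _
    rw [hzc, Matrix.smul_mul, one_mul]
  · rintro ⟨c, h, hcq, hval, hc⟩
    obtain ⟨z, hz, hzc⟩ := gu_exists_scalar (n := n) hK c hcq
    refine ⟨z, hz, ?_⟩
    have : z * g' = h := by
      apply Subtype.ext
      apply Units.ext
      change z.1.val * g'.1.val = h.1.val
      rw [hzc, hval, Matrix.smul_mul, one_mul]
    rw [this]
    exact hc

/-- A unitary matrix whose `r`-th power is a given norm-one scalar that is not an `r`-th power. -/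
theorem exists_unitary_pow_eq_scalar {σ : K →+* K} (hσq : ∀ x, σ x = x ^ q)
    (hσ : ∀ x, σ (σ x) = x) (hne : ∃ c, σ c ≠ c) (p : ℕ) [Fact p.Prime] [CharP K p] {r : ℕ}
    (hr : r.Prime) (hrp : r ≠ p) (c : K) (hc : c ^ (q + 1) = 1) (hnr : ∀ b : K, b ^ r ≠ c)
    (hrn : r ∣ n) :
    ∃ B : Matrix (Fin n) (Fin n) K, sT σ B * B = 1 ∧
      B ^ r = c • (1 : Matrix (Fin n) (Fin n) K) := by
  have hc0 : c ≠ 0 := by
    rintro rfl
    rw [zero_pow (by omega)] at hc
    exact zero_ne_one hc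
  have hrF : (r : K) ≠ 0 :=
    natCast_ne_zero_of_coprime p ((Nat.coprime_primes hr Fact.out).mpr hrp)
  obtain ⟨M, hM⟩ := exists_matrix_pow_eq_scalar p hr c hc0 hrn
  have hMdet : IsUnit M.det := by
    rw [isUnit_iff_ne_zero]
    intro h0
    have h1 := congrArg Matrix.det hM
    rw [Matrix.det_pow, h0, zero_pow hr.ne_zero, Matrix.det_smul, Matrix.det_one, mul_one] at h1
    exact pow_ne_zero _ hc0 h1.symm
  obtain ⟨N, hN⟩ : ∃ N : Matrix (Fin n) (Fin n) K, N = (sT σ M)⁻¹ := ⟨_, rfl⟩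
  have hsdet : IsUnit (sT σ M).det := by
    rw [det_sT]
    exact hMdet.map σ
  have hNr : N ^ r = c • (1 : Matrix (Fin n) (Fin n) K) := by
    rw [hN, Matrix.inv_pow', ← sT_pow, hM, sT_smul, sT_one]
    apply Matrix.inv_eq_left_inv
    rw [smul_mul_smul_comm, mul_one, mul_comm, hσq c, ← pow_succ, hc, one_smul]
  obtain ⟨k, hk, hnk⟩ := charpoly_of_pow_eq_scalar p hr hrp M c hc0 hnr hM
  obtain ⟨k', hk', hnk'⟩ := charpoly_of_pow_eq_scalar p hr hrp N c hc0 hnr hNr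
  have hkk : k = k' := Nat.eq_of_mul_eq_mul_left hr.pos (hnk.symm.trans hnk')
  have hNc : N.charpoly = M.charpoly := by rw [hk, hk', hkk]
  have hMs := isSemisimple_toLin'_of_pow_eq_scalar M r hrF hc0 hM
  have hNs := isSemisimple_toLin'_of_pow_eq_scalar N r hrF hc0 hNr
  obtain ⟨P₀, hPdet, hPM⟩ := exists_conj_matrix M N hMs hNs hNc.symm
  have hkey : sT σ M * P₀ * M = P₀ := by
    rw [mul_assoc, hPM, ← mul_assoc, hN, Matrix.mul_nonsing_inv _ hsdet, one_mul]
  obtain ⟨y, B, hyU, hyMB, hBB⟩ := exists_unitary_similar p hσ hne M P₀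
    ((Matrix.isUnit_iff_isUnit_det M).mpr hMdet)
    ((Matrix.isUnit_iff_isUnit_det P₀).mpr hPdet) hkey
  have hydet : IsUnit y.det := (Matrix.isUnit_iff_isUnit_det y).mp hyU
  have hBr : B ^ r = c • (1 : Matrix (Fin n) (Fin n) K) := by
    have h1 : B ^ r * y = y * M ^ r := pow_intertwine hyMB.symm r
    rw [hM, Matrix.mul_smul, mul_one] at h1
    calc B ^ r = B ^ r * (y * y⁻¹) := by rw [Matrix.mul_nonsing_inv y hydet, mul_one]
      _ = (c • y) * y⁻¹ := by rw [← mul_assoc, h1]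
      _ = c • (1 : Matrix (Fin n) (Fin n) K) := by
        rw [Matrix.smul_mul, Matrix.mul_nonsing_inv y hydet]
  exact ⟨B, hBB, hBr⟩

end GUbasic

section PGU

variable {K : Type*} [Field K] [Fintype K] {p q r n : ℕ} [Fact p.Prime] [CharP K p]
  [Fact r.Prime]

/-- The relation between indices and elements of `PGU_n(q)`. -/
def URel (ξ : K) (m : ℕ) :
    PIdx r n → (↥(Cfsg.GU n K q) ⧸ Subgroup.center ↥(Cfsg.GU n K q)) → Prop
  | Sum.inl o, x => ∃ (a : Tset r n) (g : ↥(Cfsg.GU n K q)), Quotient.mk _ a = o ∧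
      (g : ↥(Cfsg.GU n K q) ⧸ Subgroup.center ↥(Cfsg.GU n K q)) = x ∧ g.1.val ^ r = 1 ∧
      multF (ξ ^ m) r g.1.val = a.val
  | Sum.inr j, x => ∃ g : ↥(Cfsg.GU n K q),
      (g : ↥(Cfsg.GU n K q) ⧸ Subgroup.center ↥(Cfsg.GU n K q)) = x ∧
      g.1.val ^ r = (ξ ^ j.1.val) • (1 : Matrix (Fin n) (Fin n) K)

variable (hK : Fintype.card K = q ^ 2) (hrp : r ≠ p) (hr2 : r ≠ 2) (hrq : r ∣ q ^ 2 - 1)
  (hn : 0 < n) {ξ : K} {m : ℕ} (hξ : IsPrimitiveRoot ξ (q + 1)) (hqm : q + 1 = r * m)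
  (hζ : IsPrimitiveRoot (ξ ^ m) r)

include hqm hζ in
lemma pow_xi_inj {μ : K} (hμ : μ ^ (q + 1) = 1) {j j' : ZMod r}
    (h : μ ^ r * ξ ^ j.val = ξ ^ j'.val) : j = j' := by
  have h1 := congrArg (fun x => x ^ m) h
  rw [mul_pow, ← pow_mul, ← hqm, hμ, one_mul,
    ← pow_mul, ← pow_mul, mul_comm j.val, mul_comm j'.val, pow_mul, pow_mul] at h1
  exact pow_val_injective hζ h1

include hξ in
lemma exists_xi_decomp {c : K} (hc : c ^ (q + 1) = 1) :
    ∃ (μ : K) (j : ZMod r), μ ^ (q + 1) = 1 ∧ c = μ ^ r * ξ ^ j.val := by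
  obtain ⟨a, -, rfl⟩ := hξ.eq_pow_of_pow_eq_one hc
  refine ⟨ξ ^ (a / r), (a : ZMod r), ?_, ?_⟩
  · rw [← pow_mul, mul_comm, pow_mul, hξ.pow_eq_one, one_pow]
  · rw [ZMod.val_natCast, ← pow_mul, ← pow_add, Nat.div_add_mod']

include hK hr2 hξ hqm hζ in
lemma not_rth_power {j : ZMod r} (hj : j ≠ 0) : ∀ b : K, b ^ r ≠ ξ ^ j.val := by
  have hr : r.Prime := Fact.out
  intro b hb
  have hq1 : 1 ≤ q := by
    rcases Nat.eq_zero_or_pos q with h0 | h
    · exfalso
      rw [h0] at hK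
      have := Fintype.one_lt_card (α := K)
      omega
    · exact h
  have hb0 : b ≠ 0 := by
    rintro rfl
    rw [zero_pow hr.ne_zero] at hb
    exact pow_ne_zero _ (hξ.ne_zero (by omega)) hb.symm
  have he1 : (b ^ (q + 1)) ^ (q - 1) = 1 := by
    rw [← pow_mul]
    have h1 : (q + 1) * (q - 1) = q ^ 2 - 1 := by
      obtain ⟨t, rfl⟩ : ∃ t, q = t + 1 := ⟨q - 1, by omega⟩
      have h2 : (t + 1) ^ 2 = (t + 1 + 1) * t + 1 := by ring
      rw [h2]
      simp
    rw [h1, ← hK]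
    exact FiniteField.pow_card_sub_one_eq_one b hb0
  have he2 : (b ^ (q + 1)) ^ r = 1 := by
    rw [← pow_mul, mul_comm, pow_mul, hb, ← pow_mul, mul_comm, pow_mul, hξ.pow_eq_one, one_pow]
  have hcop : Nat.gcd (q - 1) r = 1 := by
    apply Nat.Coprime.symm
    rw [hr.coprime_iff_not_dvd]
    intro hdvd
    have h1 : r ∣ q + 1 := ⟨m, hqm⟩
    have h2 : r ∣ (q + 1) - (q - 1) := Nat.dvd_sub h1 hdvd
    have h3 : (q + 1) - (q - 1) = 2 := by omega
    rw [h3] at h2
    exact hr2 ((Nat.prime_dvd_prime_iff_eq hr Nat.prime_two).mp h2)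
  have he : b ^ (q + 1) = 1 := by
    have h1 := pow_gcd_eq_one.mpr ⟨he1, he2⟩
    rw [hcop, pow_one] at h1
    exact h1
  have h4 : (ξ ^ m) ^ j.val = (ξ ^ m) ^ (0 : ZMod r).val := by
    rw [ZMod.val_zero, pow_zero, ← pow_mul, mul_comm, pow_mul, ← hb, ← pow_mul, ← hqm, he]
  exact hj (pow_val_injective hζ h4)

include hK hrp hr2 hrq hξ hqm hζ in
lemma URel_exists (t : PIdx r n) : ∃ x, URel (K := K) (q := q) ξ m t x := by
  have hr : r.Prime := Fact.out
  obtain ⟨σ, hσq, hσ, -, -, x₀, -, -, -, hx₀⟩ := exists_unitary_data K q hK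
  rcases t with o | ⟨j, hj, hrn⟩
  · obtain ⟨a, rfl⟩ := Quotient.exists_rep o
    obtain ⟨d, hd, hda⟩ := exists_diag_multF hζ a.val a.sum_eq
    have hDD : sT σ (Matrix.diagonal d) * Matrix.diagonal d = 1 := by
      have : sT σ (Matrix.diagonal d) = Matrix.diagonal (fun l => σ (d l)) := by
        unfold sT
        rw [Matrix.diagonal_map (map_zero σ), Matrix.diagonal_transpose]
      rw [this, Matrix.diagonal_mul_diagonal, ← Matrix.diagonal_one]
      congr 1
      funext l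
      obtain ⟨k, hk⟩ := hd l
      rw [hσq, ← pow_succ, hk, ← pow_mul ξ, ← pow_mul, mul_comm, pow_mul, hξ.pow_eq_one, one_pow]
    have hDr : Matrix.diagonal d ^ r = 1 := by
      rw [Matrix.diagonal_pow, ← Matrix.diagonal_one]
      congr 1
      funext l
      obtain ⟨k, hk⟩ := hd l
      simp only [Pi.pow_apply]
      rw [hk, ← pow_mul, mul_comm, pow_mul, hζ.pow_eq_one, one_pow]
    obtain ⟨g, hg⟩ := gu_exists_of_sT hσq hσ _ hDD
    exact ⟨(g : ↥(Cfsg.GU n K q) ⧸ Subgroup.center ↥(Cfsg.GU n K q)), a, g, rfl, rfl,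
      by rw [hg]; exact hDr, by rw [hg]; exact hda⟩
  · have hcq : (ξ ^ j.val) ^ (q + 1) = 1 := by
      rw [← pow_mul, mul_comm, pow_mul, hξ.pow_eq_one, one_pow]
    obtain ⟨B, hBB, hBr⟩ := exists_unitary_pow_eq_scalar hσq hσ ⟨x₀, hx₀⟩ p hr hrp (ξ ^ j.val)
      hcq (not_rth_power hK hr2 hξ hqm hζ hj) hrn
    obtain ⟨g, hg⟩ := gu_exists_of_sT hσq hσ B hBB
    exact ⟨(g : ↥(Cfsg.GU n K q) ⧸ Subgroup.center ↥(Cfsg.GU n K q)), g, rfl,
      by rw [hg]; exact hBr⟩

include hK hrp hr2 hrq hn hξ hqm hζ in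
lemma URel_order (t : PIdx r n)
    (x : ↥(Cfsg.GU n K q) ⧸ Subgroup.center ↥(Cfsg.GU n K q))
    (h : URel (K := K) (q := q) ξ m t x) : orderOf x = r := by
  have hr : r.Prime := Fact.out
  rcases t with o | ⟨j, hj, hrn⟩
  · obtain ⟨a, g, -, rfl, hg, hga⟩ := h
    rw [quot_orderOf_eq_prime_iff _ hr]
    refine ⟨?_, ?_⟩
    · have : g ^ r = 1 := by
        apply Subtype.ext
        apply Units.ext
        change g.1.val ^ r = 1
        exact hg
      rw [this]
      exact Subgroup.one_mem _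
    · intro hz
      obtain ⟨c, hcq, hu⟩ := gu_center_scalar hK hn g hz
      rw [hu, _root_.smul_pow, one_pow] at hg
      have hu1 : c ^ r = 1 := smul_one_inj hn (by rw [hg, one_smul])
      obtain ⟨k, hk⟩ := exists_pow_val hζ hu1
      have h1 := multF_scalar hK hr hrp hrq hζ n k
      rw [← hk, ← hu, hga] at h1
      have := a.lt k
      omega
  · obtain ⟨g, rfl, hg⟩ := h
    rw [quot_orderOf_eq_prime_iff _ hr]
    refine ⟨?_, ?_⟩
    · apply gu_mem_center_of_scalar _ (ξ ^ j.val)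
      change g.1.val ^ r = _
      exact hg
    · intro hz
      obtain ⟨c, hcq, hu⟩ := gu_center_scalar hK hn g hz
      rw [hu, _root_.smul_pow, one_pow] at hg
      have hu1 : c ^ r = ξ ^ j.val := smul_one_inj hn hg
      exact not_rth_power hK hr2 hξ hqm hζ hj c hu1

include hK hrp hr2 hrq hn hξ hqm hζ in
lemma URel_surj (x : ↥(Cfsg.GU n K q) ⧸ Subgroup.center ↥(Cfsg.GU n K q))
    (hx : orderOf x = r) : ∃ t, URel (K := K) (q := q) (r := r) ξ m t x := by
  have hr : r.Prime := Fact.out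
  obtain ⟨g, rfl⟩ := QuotientGroup.mk_surjective x
  rw [quot_orderOf_eq_prime_iff _ hr] at hx
  obtain ⟨hgr, hgz⟩ := hx
  obtain ⟨u, huq, hu⟩ := gu_center_scalar hK hn (g ^ r) hgr
  change g.1.val ^ r = _ at hu
  obtain ⟨μ, j, hμ, hc⟩ := exists_xi_decomp (r := r) hξ huq
  have hμ0 : μ ≠ 0 := by
    rintro rfl
    rw [zero_pow (by omega)] at hμ
    exact zero_ne_one hμ
  obtain ⟨z, hz, hzv⟩ := gu_exists_scalar (n := n) hK μ⁻¹ (by rw [inv_pow, hμ, inv_one])
  obtain ⟨g₁, hg₁⟩ : ∃ g₁ : ↥(Cfsg.GU n K q), g₁ = z * g := ⟨_, rfl⟩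
  have hval : g₁.1.val = μ⁻¹ • g.1.val := by
    rw [hg₁]
    change z.1.val * g.1.val = _
    rw [hzv, Matrix.smul_mul, one_mul]
  have hquot : (g₁ : ↥(Cfsg.GU n K q) ⧸ Subgroup.center ↥(Cfsg.GU n K q)) = g := by
    rw [hg₁, QuotientGroup.mk_mul, (QuotientGroup.eq_one_iff _).mpr hz, one_mul]
  have hpow : g₁.1.val ^ r = (ξ ^ j.val) • (1 : Matrix (Fin n) (Fin n) K) := by
    rw [hval, _root_.smul_pow, hu, smul_smul, hc, inv_pow, ← mul_assoc,
      inv_mul_cancel₀ (pow_ne_zero _ hμ0), one_mul]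
  by_cases hj : j = 0
  · rw [hj, ZMod.val_zero, pow_zero, one_smul] at hpow
    have hlt : ∀ k, multF (ξ ^ m) r g₁.1.val k < n := by
      intro k
      by_contra hge
      have h1 := eq_scalar_of_multF hK hr hrp hrq hζ g₁.1.val hpow k (by omega)
      apply hgz
      apply gu_mem_center_of_scalar g (μ * (ξ ^ m) ^ k.val)
      have h2 : g.1.val = μ • g₁.1.val := by
        rw [hval, smul_smul, mul_inv_cancel₀ hμ0, one_smul]
      rw [h2, h1, smul_smul]
    exact ⟨Sum.inl (Quotient.mk _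
      ⟨multF (ξ ^ m) r g₁.1.val, sum_multF hK hr hrp hrq hζ g₁.1.val hpow, hlt⟩), _, g₁, rfl,
      hquot, hpow, rfl⟩
  · obtain ⟨k, -, hk⟩ := charpoly_of_pow_eq_scalar p hr hrp g₁.1.val (ξ ^ j.val)
      (pow_ne_zero _ (hξ.ne_zero (by omega))) (not_rth_power hK hr2 hξ hqm hζ hj) hpow
    exact ⟨Sum.inr ⟨j, hj, ⟨k, hk⟩⟩, g₁, hquot, hpow⟩

include hK hn hqm hζ in
lemma not_conj_mixed_u (g g' : ↥(Cfsg.GU n K q)) (hg : g.1.val ^ r = 1) {j : ZMod r}
    (hj : j ≠ 0) (hg' : g'.1.val ^ r = (ξ ^ j.val) • (1 : Matrix (Fin n) (Fin n) K)) :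
    ¬ IsConj (g : ↥(Cfsg.GU n K q) ⧸ Subgroup.center ↥(Cfsg.GU n K q))
      (g' : ↥(Cfsg.GU n K q) ⧸ Subgroup.center ↥(Cfsg.GU n K q)) := by
  intro hc
  obtain ⟨c, h, hcq, hval, hc'⟩ := (pgu_isConj_iff hK hn g g').mp hc
  have h1 := gl_conj_pow_scalar ((gu_isConj_iff hK g h).mp hc') (c := 1) (by rw [hg, one_smul])
  rw [hval, _root_.smul_pow, hg', smul_smul] at h1
  have h2 : c ^ r * ξ ^ j.val = ξ ^ (0 : ZMod r).val := by
    rw [ZMod.val_zero, pow_zero]
    exact smul_one_inj hn h1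
  exact hj (pow_xi_inj hqm hζ hcq h2)

include hK hrp hr2 hrq hn hξ hqm hζ in
lemma URel_conj (t t' : PIdx r n)
    (x x' : ↥(Cfsg.GU n K q) ⧸ Subgroup.center ↥(Cfsg.GU n K q))
    (h : URel (K := K) (q := q) ξ m t x) (h' : URel (K := K) (q := q) ξ m t' x') :
    IsConj x x' ↔ t = t' := by
  have hr : r.Prime := Fact.out
  rcases t with o | ⟨j, hj, hrn⟩ <;> rcases t' with o' | ⟨j', hj', hrn'⟩
  · obtain ⟨a, g, ha, rfl, hg, hga⟩ := h
    obtain ⟨a', g', ha', rfl, hg', hga'⟩ := h'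
    constructor
    · intro hc
      obtain ⟨c, h, hcq, hval, hc'⟩ := (pgu_isConj_iff hK hn g g').mp hc
      have hcGL := (gu_isConj_iff hK g h).mp hc'
      have h1 := gl_conj_pow_scalar hcGL (c := 1) (by rw [hg, one_smul])
      rw [hval, _root_.smul_pow, hg'] at h1
      have hu1 : c ^ r = 1 := smul_one_inj hn h1
      obtain ⟨k, hk⟩ := exists_pow_val hζ hu1
      have h2 := gl_charpoly_eq_of_isConj hcGL
      rw [hval, hk] at h2
      have h3 : ∀ i, a.val i = a'.val (i - k) := by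
        intro i
        rw [← hga, ← hga', ← multF_smul hK hr hrp hrq hζ k g'.1.val hg' i]
        simp only [multF, h2]
      rw [← ha, ← ha']
      congr 1
      apply Quotient.sound
      change a ∈ AddAction.orbit (ZMod r) a'
      rw [AddAction.mem_orbit_iff]
      refine ⟨k, ?_⟩
      ext i
      rw [Tset.vadd_apply, h3]
    · intro ht
      have ho : o = o' := Sum.inl.inj ht
      rw [← ha, ← ha'] at ho
      have hrel := Quotient.exact ho
      change a ∈ AddAction.orbit (ZMod r) a' at hrel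
      rw [AddAction.mem_orbit_iff] at hrel
      obtain ⟨k, hk⟩ := hrel
      have hcq : ((ξ ^ m) ^ k.val) ^ (q + 1) = 1 := by
        rw [← pow_mul ξ, ← pow_mul, mul_comm, pow_mul, hξ.pow_eq_one, one_pow]
      obtain ⟨z, hz, hzv⟩ := gu_exists_scalar (n := n) hK _ hcq
      have hval : (z * g').1.val = ((ξ ^ m) ^ k.val) • g'.1.val := by
        change z.1.val * g'.1.val = _
        rw [hzv, Matrix.smul_mul, one_mul]
      rw [pgu_isConj_iff hK hn]
      refine ⟨_, z * g', hcq, hval, ?_⟩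
      have hpow : (z * g').1.val ^ r = (1 : K) • (1 : Matrix (Fin n) (Fin n) K) := by
        rw [hval, _root_.smul_pow, hg', ← pow_mul, mul_comm, pow_mul,
          hζ.pow_eq_one, one_pow]
      apply gu_isConj_of_pow_eq_scalar hK hr hrp (one_ne_zero (α := K)) g _
        (by rw [hg, one_smul]) hpow
      apply charpoly_eq_of_multF_eq hK hr hrp hrq hζ _ _ hg (by rw [hpow, one_smul])
      funext i
      rw [hval, multF_smul hK hr hrp hrq hζ k g'.1.val hg' i, hga, hga', ← hk, Tset.vadd_apply]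
  · obtain ⟨a, g, ha, rfl, hg, hga⟩ := h
    obtain ⟨g', rfl, hg'⟩ := h'
    constructor
    · intro hc
      exact absurd hc (not_conj_mixed_u hK hn hqm hζ g g' hg hj' hg')
    · intro ht
      exact absurd ht (by simp)
  · obtain ⟨g, rfl, hg⟩ := h
    obtain ⟨a', g', ha', rfl, hg', hga'⟩ := h'
    constructor
    · intro hc
      exact absurd hc.symm (not_conj_mixed_u hK hn hqm hζ g' g hg' hj hg)
    · intro ht
      exact absurd ht (by simp)
  · obtain ⟨g, rfl, hg⟩ := h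
    obtain ⟨g', rfl, hg'⟩ := h'
    simp only at hg hg'
    constructor
    · intro hc
      obtain ⟨c, h, hcq, hval, hc'⟩ := (pgu_isConj_iff hK hn g g').mp hc
      have h1 := gl_conj_pow_scalar ((gu_isConj_iff hK g h).mp hc') hg
      rw [hval, _root_.smul_pow, hg', smul_smul] at h1
      have h2 : c ^ r * ξ ^ j'.val = ξ ^ j.val := smul_one_inj hn h1
      have h3 := pow_xi_inj hqm hζ hcq h2
      subst h3
      rfl
    · intro ht
      have hjj : j = j' := by
        have := Sum.inr.inj ht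
        exact congrArg Subtype.val this
      subst hjj
      have hc0 : ξ ^ j.val ≠ 0 := pow_ne_zero _ (hξ.ne_zero (by omega))
      have hnr := not_rth_power hK hr2 hξ hqm hζ hj
      obtain ⟨k, hk, hnk⟩ := charpoly_of_pow_eq_scalar p hr hrp g.1.val (ξ ^ j.val) hc0 hnr hg
      obtain ⟨k', hk', hnk'⟩ := charpoly_of_pow_eq_scalar p hr hrp g'.1.val (ξ ^ j.val) hc0 hnr
        hg'
      have hkk : k = k' := Nat.eq_of_mul_eq_mul_left hr.pos (hnk.symm.trans hnk')
      have hconj : IsConj g g' := gu_isConj_of_pow_eq_scalar hK hr hrp hc0 g g'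
        hg hg' (by rw [hk, hk', hkk])
      exact (QuotientGroup.mk' _).map_isConj hconj

end PGU

/-- **Classes of odd prime order `r ∣ q + 1` in `PGU_n(q)`.** -/
theorem pgu_card_prime_order_classes {K : Type*} [Field K] [Fintype K] {q n r : ℕ}
    (hK : Fintype.card K = q ^ 2) (hn : 1 ≤ n) (hr : r.Prime) (hr2 : r ≠ 2)
    (hrq : r ∣ q + 1) :
    Nat.card {C : ConjClasses (↥(Cfsg.GU n K q) ⧸ Subgroup.center ↥(Cfsg.GU n K q)) //
        ∃ g : ↥(Cfsg.GU n K q) ⧸ Subgroup.center ↥(Cfsg.GU n K q),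
          ConjClasses.mk g = C ∧ orderOf g = r}
      = (Nat.choose (n + r - 1) (r - 1) - r - (if r ∣ n then 1 else 0)) / r
        + r * (if r ∣ n then 1 else 0) := by
  classical
  obtain ⟨p, hp⟩ := CharP.exists K
  have : Fact p.Prime := ⟨CharP.char_is_prime K p⟩
  have : Fact r.Prime := ⟨hr⟩
  have hq1 : 1 ≤ q := by
    rcases Nat.eq_zero_or_pos q with h0 | h
    · exfalso
      rw [h0] at hK
      have := Fintype.one_lt_card (α := K)
      omega
    · exact h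
  have hdvd : (q + 1) ∣ q ^ 2 - 1 := by
    refine ⟨q - 1, ?_⟩
    obtain ⟨t, rfl⟩ : ∃ t, q = t + 1 := ⟨q - 1, by omega⟩
    have h1 : (t + 1) ^ 2 = (t + 1 + 1) * t + 1 := by ring
    rw [h1]
    simp
  have hrq' : r ∣ q ^ 2 - 1 := hrq.trans hdvd
  have hrp : r ≠ p := by
    intro hrp'
    have h0 := coprime_card_sub_one (p := p) hK
    rw [← hrp'] at h0
    have h1 : r ∣ Nat.gcd (q ^ 2 - 1) r := Nat.dvd_gcd hrq' dvd_rfl
    rw [h0] at h1
    exact hr.one_lt.ne' (Nat.dvd_one.mp h1)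
  obtain ⟨γ, m₀, -, -, -, -, hξ⟩ := exists_gen_root hK hdvd
  obtain ⟨ξ, hξdef⟩ : ∃ ξ : K, ξ = γ ^ m₀ := ⟨_, rfl⟩
  rw [← hξdef] at hξ
  obtain ⟨m, hqm⟩ := hrq
  have hζ : IsPrimitiveRoot (ξ ^ m) r :=
    hξ.pow (by omega) (by rw [hqm, mul_comm])
  rw [card_classes_rel (fun x => orderOf x = r) (URel (K := K) (q := q) (r := r) (n := n) ξ m)
    (URel_exists hK hrp hr2 hrq' hξ hqm hζ) (URel_order hK hrp hr2 hrq' hn hξ hqm hζ)
    (URel_surj hK hrp hr2 hrq' hn hξ hqm hζ) (URel_conj hK hrp hr2 hrq' hn hξ hqm hζ)]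
  rw [Nat.card_sum, card_shift_orbits hn]
  have hB : Nat.card {j : ZMod r // j ≠ 0 ∧ r ∣ n} = (r - 1) * (if r ∣ n then 1 else 0) := by
    split_ifs with hdvd
    · rw [mul_one, Nat.card_eq_fintype_card, Fintype.card_subtype]
      have : (Finset.univ.filter (fun j : ZMod r => j ≠ 0 ∧ r ∣ n)) = Finset.univ.erase 0 := by
        ext j
        simp [hdvd]
      rw [this, Finset.card_erase_of_mem (Finset.mem_univ _), Finset.card_univ, ZMod.card]
    · rw [mul_zero, Nat.card_eq_zero]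
      left
      exact ⟨fun j => hdvd j.2.2⟩
  rw [hB]
  obtain ⟨X, hX⟩ : ∃ X, X = (Nat.choose (n + r - 1) (r - 1) - r - (if r ∣ n then 1 else 0)) / r :=
    ⟨_, rfl⟩
  rw [← hX]
  have hr1 := hr.one_lt
  split_ifs with hdvd
  · rw [mul_one, mul_one]
    omega
  · rw [mul_zero, mul_zero, add_zero]

end Cfsg.Agent.Lib.Helper47
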