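import Mathlib
import Cfsg.Prelude.Def_LieClassical
import Cfsg.Agent.Lib.Helper47.SU3Inv
import Cfsg.Agent.Lib.Helper47.PGUClasses
import Cfsg.Agent.Lib.Helper7.SUCenter

/-!
# Tools for element orders in `PSU_n(q)`

* `su_mem_center_iff`: the centre of `SU_n(q)` consists of the scalar matrices in it;
* `psu_pow_eq_one_iff`, `psu_orderOf_eq`, `psu_orderOf_dvd`: orders in `PSU_n(q)` through scalar
  powers of matrices;
* `exists_su_similar`: a matrix of determinant one preserving a non-degenerate sesquilinear form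
  is similar to an element of `SU_n(q)`;
* Cayley–Hamilton consequences for matrices with split characteristic polynomial.
-/

set_option autoImplicit false

namespace Cfsg.Agent.Lib.Helper47

open Polynomial Matrix

section Center

variable {F : Type*} [Field F] [Fintype F] {q n : ℕ}

/-- Central elements of `SU_n(q)` are scalar matrices. -/
theorem su_center_scalar (hF : Fintype.card F = q ^ 2) (hn : 1 ≤ n) (z : ↥(Cfsg.SU n F q))
    (hz : z ∈ Subgroup.center ↥(Cfsg.SU n F q)) :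
    ∃ c : F, (z.1.1 : Matrix (Fin n) (Fin n) F) = c • (1 : Matrix (Fin n) (Fin n) F) := by
  obtain ⟨c, hc⟩ : ∃ c : F, c = (z.1.1 : Matrix (Fin n) (Fin n) F) ⟨0, by omega⟩ ⟨0, by omega⟩ :=
    ⟨_, rfl⟩
  refine ⟨c, ?_⟩
  apply Matrix.ext
  intro i j
  rw [Matrix.smul_apply, Matrix.one_apply, smul_eq_mul]
  by_cases hij : i = j
  · subst hij
    rw [if_pos rfl, mul_one, hc]
    by_cases hi0 : i = ⟨0, by omega⟩
    · rw [hi0]
    · exact Cfsg.Agent.Lib.Helper7.su_center_diag_eq hF z hz i ⟨0, by omega⟩ hi0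
  · rw [if_neg hij, mul_zero]
    exact Cfsg.Agent.Lib.Helper7.su_center_offdiag hF z hz i j hij

lemma su_mem_center_of_scalar (g : ↥(Cfsg.SU n F q)) (c : F)
    (hg : (g.1.1 : Matrix (Fin n) (Fin n) F) = c • (1 : Matrix (Fin n) (Fin n) F)) :
    g ∈ Subgroup.center ↥(Cfsg.SU n F q) := by
  rw [Subgroup.mem_center_iff]
  intro h
  apply su_ext
  rw [su_coe_mul, su_coe_mul, hg, Matrix.mul_smul, Matrix.smul_mul, mul_one, one_mul]

lemma su_coe_pow (g : ↥(Cfsg.SU n F q)) (k : ℕ) :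
    ((g ^ k).1.1 : Matrix (Fin n) (Fin n) F) = g.1.1 ^ k := by
  induction k with
  | zero => rfl
  | succ k ih => rw [pow_succ, pow_succ, su_coe_mul, ih]

theorem psu_pow_eq_one_iff (hF : Fintype.card F = q ^ 2) (hn : 1 ≤ n) (g : ↥(Cfsg.SU n F q))
    (k : ℕ) :
    ((g : Cfsg.PSU n F q)) ^ k = 1
      ↔ ∃ c : F, (g.1.1 : Matrix (Fin n) (Fin n) F) ^ k = c • (1 : Matrix (Fin n) (Fin n) F) := by
  rw [← QuotientGroup.mk_pow, QuotientGroup.eq_one_iff]
  constructor
  · intro h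
    obtain ⟨c, hc⟩ := su_center_scalar hF hn _ h
    exact ⟨c, by rw [← su_coe_pow]; exact hc⟩
  · rintro ⟨c, hc⟩
    exact su_mem_center_of_scalar _ c (by rw [su_coe_pow]; exact hc)

theorem psu_orderOf_dvd (hF : Fintype.card F = q ^ 2) (hn : 1 ≤ n) (g : ↥(Cfsg.SU n F q))
    (N : ℕ)
    (h : ∃ c : F, (g.1.1 : Matrix (Fin n) (Fin n) F) ^ N = c • (1 : Matrix (Fin n) (Fin n) F)) :
    orderOf (g : Cfsg.PSU n F q) ∣ N :=
  orderOf_dvd_of_pow_eq_one ((psu_pow_eq_one_iff hF hn g N).mpr h)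

theorem psu_orderOf_eq (hF : Fintype.card F = q ^ 2) (hn : 1 ≤ n) (g : ↥(Cfsg.SU n F q))
    (N : ℕ)
    (h : ∀ k : ℕ, (∃ c : F, (g.1.1 : Matrix (Fin n) (Fin n) F) ^ k
      = c • (1 : Matrix (Fin n) (Fin n) F)) ↔ N ∣ k) :
    orderOf (g : Cfsg.PSU n F q) = N :=
  Nat.dvd_antisymm (psu_orderOf_dvd hF hn g N ((h N).mpr dvd_rfl))
    ((h _).mp ((psu_pow_eq_one_iff hF hn g _).mp (pow_orderOf_eq_one _)))

end Center

section Similar

variable {F : Type*} [Field F] {n : ℕ}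

lemma scalar_pow_iff_of_similar {y M B : Matrix (Fin n) (Fin n) F} (hy : IsUnit y.det)
    (h : y * M = B * y) (k : ℕ) :
    (∃ c : F, B ^ k = c • (1 : Matrix (Fin n) (Fin n) F))
      ↔ ∃ c : F, M ^ k = c • (1 : Matrix (Fin n) (Fin n) F) := by
  have h1 : B ^ k * y = y * M ^ k := pow_intertwine h.symm k
  constructor
  · rintro ⟨c, hc⟩
    refine ⟨c, ?_⟩
    rw [hc, Matrix.smul_mul, one_mul] at h1
    calc M ^ k = y⁻¹ * (y * M ^ k) := by
          rw [← mul_assoc, Matrix.nonsing_inv_mul y hy, one_mul]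
      _ = c • (1 : Matrix (Fin n) (Fin n) F) := by
          rw [← h1, Matrix.mul_smul, Matrix.nonsing_inv_mul y hy]
  · rintro ⟨c, hc⟩
    refine ⟨c, ?_⟩
    rw [hc, Matrix.mul_smul, mul_one] at h1
    calc B ^ k = B ^ k * (y * y⁻¹) := by rw [Matrix.mul_nonsing_inv y hy, mul_one]
      _ = c • (1 : Matrix (Fin n) (Fin n) F) := by
          rw [← mul_assoc, h1, Matrix.smul_mul, Matrix.mul_nonsing_inv y hy]

/-- A matrix of determinant one preserving a non-degenerate sesquilinear form is similar to an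
element of `SU_n(q)`. -/
theorem exists_su_similar [Fintype F] {q : ℕ} {σ : F →+* F} (hσq : ∀ x, σ x = x ^ q)
    (hσ : ∀ x, σ (σ x) = x) (hne : ∃ c, σ c ≠ c) (p : ℕ) [Fact p.Prime] [CharP F p]
    (M x : Matrix (Fin n) (Fin n) F) (hdet : M.det = 1) (hx : IsUnit x.det)
    (hxM : sT σ M * x * M = x) :
    ∃ (g : ↥(Cfsg.SU n F q)) (y : Matrix (Fin n) (Fin n) F), IsUnit y.det ∧
      y * M = (g.1.1 : Matrix (Fin n) (Fin n) F) * y := by
  obtain ⟨y, B, hyU, hyMB, hBB⟩ := exists_unitary_similar p hσ hne M x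
    ((Matrix.isUnit_iff_isUnit_det M).mpr (by rw [hdet]; exact isUnit_one))
    ((Matrix.isUnit_iff_isUnit_det x).mpr hx) hxM
  have hydet : IsUnit y.det := (Matrix.isUnit_iff_isUnit_det y).mp hyU
  have hBdet : B.det = 1 := by
    have h1 := congrArg Matrix.det hyMB
    rw [Matrix.det_mul, Matrix.det_mul, hdet, mul_one] at h1
    have h2 : 1 * y.det = B.det * y.det := by rw [one_mul]; exact h1
    exact (mul_right_cancel₀ hydet.ne_zero h2).symm
  obtain ⟨g₀, hg₀⟩ : ∃ g₀ : Matrix.SpecialLinearGroup (Fin n) F,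
      (g₀.1 : Matrix (Fin n) (Fin n) F) = B := ⟨⟨B, hBdet⟩, rfl⟩
  have hmem : g₀ ∈ Cfsg.SU n F q := by
    rw [mem_SU_iff_sT hσq hσ, hg₀]
    exact hBB
  exact ⟨⟨g₀, hmem⟩, y, hydet, by rw [hyMB]; exact congrArg (· * y) hg₀.symm⟩

end Similar

section CayleyHamilton

variable {F : Type*} [Field F] {n : ℕ}

lemma aeval_eq_zero_of_charpoly_dvd (M : Matrix (Fin n) (Fin n) F) (P : F[X])
    (h : M.charpoly ∣ P) : aeval M P = 0 := by
  obtain ⟨Q, rfl⟩ := h
  rw [map_mul, Matrix.aeval_self_charpoly, zero_mul]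

lemma aeval_X_pow_sub_C (M : Matrix (Fin n) (Fin n) F) (k : ℕ) (e : F) :
    aeval M (X ^ k - C e : F[X]) = M ^ k - e • (1 : Matrix (Fin n) (Fin n) F) := by
  rw [map_sub, map_pow, aeval_X, aeval_C, Algebra.algebraMap_eq_smul_one]

/-- If the characteristic polynomial has three distinct roots with the same `k`-th power `e`,
then `M ^ k = e`. -/
theorem pow_eq_scalar_of_roots_distinct (M : Matrix (Fin n) (Fin n) F) {a b c : F}
    (hf : M.charpoly = (X - C a) * (X - C b) * (X - C c)) (hab : a ≠ b) (hac : a ≠ c)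
    (hbc : b ≠ c) (k : ℕ) (e : F) (ha : a ^ k = e) (hb : b ^ k = e) (hc : c ^ k = e) :
    M ^ k = e • (1 : Matrix (Fin n) (Fin n) F) := by
  have hroot : ∀ x : F, x ^ k = e → (X - C x : F[X]) ∣ X ^ k - C e := by
    intro x hx
    rw [dvd_iff_isRoot, IsRoot.def, eval_sub, eval_pow, eval_X, eval_C, hx, sub_self]
  have hcop : ∀ x y : F, x ≠ y → IsCoprime (X - C x : F[X]) (X - C y) := by
    intro x y hxy
    exact isCoprime_X_sub_C_of_isUnit_sub (isUnit_iff_ne_zero.mpr (sub_ne_zero.mpr hxy))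
  have h1 : (X - C a) * (X - C b) * (X - C c) ∣ (X ^ k - C e : F[X]) := by
    apply IsCoprime.mul_dvd _ _ (hroot c hc)
    · exact IsCoprime.mul_left (hcop a c hac) (hcop b c hbc)
    · exact IsCoprime.mul_dvd (hcop a b hab) (hroot a ha) (hroot b hb)
  have h2 := aeval_eq_zero_of_charpoly_dvd M _ (hf ▸ h1)
  rw [aeval_X_pow_sub_C] at h2
  exact sub_eq_zero.mp h2

/-- If all three roots of the characteristic polynomial have the same `k`-th power `e`, then
`M ^ (k * p) = e ^ p` in characteristic `p ≥ 3`. -/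
theorem pow_eq_scalar_of_roots (p : ℕ) [Fact p.Prime] [CharP F p] (hp : 3 ≤ p)
    (hn : 0 < n) (M : Matrix (Fin n) (Fin n) F) {a b c : F}
    (hf : M.charpoly = (X - C a) * (X - C b) * (X - C c)) (k : ℕ) (e : F) (ha : a ^ k = e)
    (hb : b ^ k = e) (hc : c ^ k = e) :
    M ^ (k * p) = (e ^ p) • (1 : Matrix (Fin n) (Fin n) F) := by
  have hroot : ∀ x : F, x ^ k = e → (X - C x : F[X]) ∣ X ^ k - C e := by
    intro x hx
    rw [dvd_iff_isRoot, IsRoot.def, eval_sub, eval_pow, eval_X, eval_C, hx, sub_self]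
  have h1 : (X - C a) * (X - C b) * (X - C c) ∣ (X ^ k - C e : F[X]) ^ 3 := by
    have : (X ^ k - C e : F[X]) ^ 3 = (X ^ k - C e) * (X ^ k - C e) * (X ^ k - C e) := by ring
    rw [this]
    exact mul_dvd_mul (mul_dvd_mul (hroot a ha) (hroot b hb)) (hroot c hc)
  have h2 := aeval_eq_zero_of_charpoly_dvd M _ (hf ▸ h1)
  rw [map_pow, aeval_X_pow_sub_C] at h2
  have hne : Nonempty (Fin n) := ⟨⟨0, hn⟩⟩
  have hcomm : Commute (M ^ k) (e • (1 : Matrix (Fin n) (Fin n) F)) := by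
    rw [Commute, SemiconjBy, Matrix.mul_smul, Matrix.smul_mul, mul_one, one_mul]
  have h3 : (M ^ k - e • (1 : Matrix (Fin n) (Fin n) F)) ^ p = 0 := by
    have h4 : p = 3 + (p - 3) := by omega
    rw [h4, pow_add, h2, zero_mul]
  rw [sub_pow_char_of_commute p hcomm, sub_eq_zero, ← pow_mul, _root_.smul_pow, one_pow] at h3
  exact h3

end CayleyHamilton

section GroupPow

lemma exists_orderOf_eq_of_dvd {G : Type*} [Group G] (x : G) {N s : ℕ} (hx : orderOf x = N)
    (hN : N ≠ 0) (hs : s ∣ N) : ∃ y : G, orderOf y = s := by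
  obtain ⟨t, rfl⟩ := hs
  have ht : t ≠ 0 := by
    rintro rfl
    exact hN (mul_zero s)
  have hs0 : s ≠ 0 := by
    rintro rfl
    exact hN (zero_mul t)
  refine ⟨x ^ t, ?_⟩
  rw [orderOf_pow_of_dvd ht (by rw [hx]; exact dvd_mul_left t s), hx,
    Nat.mul_div_cancel _ (Nat.pos_of_ne_zero ht)]

end GroupPow

end Cfsg.Agent.Lib.Helper47
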