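import Cfsg.Agent.Lib.Helper22.PTDefs

/-!
# S4705 project PT (helper22), piece MOM3B: the mixed moment over the `p`-regular elements
-/

set_option autoImplicit false
set_option linter.unusedVariables false

namespace Cfsg.Agent.Lib.Helper47.PT

open Cfsg Cfsg.Agent.Lib.Helper22.BFD Cfsg.Agent.Lib.Helper22.PT
open scoped ComplexConjugate

universe u

variable {G : Type u} [Group G] [Fintype G]

/-- PIECE MOM3B -/
theorem mom3b (p : ℕ) [Fact p.Prime] (z : G) (ζ : G → ℂ) (h : Hyp G p z ζ) (s : ℕ)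
    (hs : Sq2 G p s)
    (hE1 : ∀ g, ¬ p ∣ orderOf g → ζ g ^ 2 - ζ (g ^ 2) = ((p : ℂ) - 3) * ζ (g ^ s))
    (hM2 : ∑ g : G, (if p ∣ orderOf g then 0 else ζ g * conj (ζ g)) =
      2 * (Nat.card G : ℂ) / p)
    (hM3 : ∑ g : G, (if p ∣ orderOf g then 0 else ζ g ^ 2 * conj (ζ (g ^ s))) =
      (Nat.card G : ℂ) * ((p : ℂ) - 4) / p) :
    ∑ g : G, (if p ∣ orderOf g then 0 else ζ (g ^ 2) * conj (ζ (g ^ s))) =
      -(((p : ℂ) - 2) * (Nat.card G : ℂ) / p) := by
  classical
  have hcop : (Nat.card G).Coprime s := hs.cop.symm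
  have hord : ∀ g : G, orderOf (g ^ s) = orderOf g := fun g =>
    Nat.Coprime.orderOf_pow (Nat.Coprime.coprime_dvd_left (orderOf_dvd_natCard g) hcop)
  have hB : ∑ g : G, (if p ∣ orderOf g then 0 else ζ (g ^ s) * conj (ζ (g ^ s))) =
      2 * (Nat.card G : ℂ) / p := by
    rw [← hM2,
      ← Equiv.sum_comp (powCoprime hcop) (fun g => if p ∣ orderOf g then 0 else ζ g * conj (ζ g))]
    apply Finset.sum_congr rfl
    intro g _
    simp only [powCoprime_apply, hord]
  have key : ∀ g : G, (if p ∣ orderOf g then 0 else ζ (g ^ 2) * conj (ζ (g ^ s))) =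
      (if p ∣ orderOf g then 0 else ζ g ^ 2 * conj (ζ (g ^ s))) -
        ((p : ℂ) - 3) * (if p ∣ orderOf g then 0 else ζ (g ^ s) * conj (ζ (g ^ s))) := by
    intro g
    by_cases hg : p ∣ orderOf g
    · simp [hg]
    · simp only [if_neg hg]
      have e : ζ (g ^ 2) = ζ g ^ 2 - ((p : ℂ) - 3) * ζ (g ^ s) := by
        rw [← hE1 g hg]
        ring
      rw [e]
      ring
  rw [Finset.sum_congr rfl (fun g _ => key g), Finset.sum_sub_distrib, ← Finset.mul_sum, hM3, hB]
  ring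

end Cfsg.Agent.Lib.Helper47.PT
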