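import Cfsg.Agent.Lib.Helper47.QuadMain

/-!
# Class counts of elements of odd prime order in `O^±_{2m}(q)` (for S2674, S2675)
-/

set_option autoImplicit false

namespace Cfsg.Agent.Lib.Helper47

open Polynomial Module Matrix

open Cfsg.Agent.Lib.Helper2.QuadMINUSTYP Cfsg.Agent.Lib.Helper5.QuadAC
  Cfsg.Agent.Lib.Helper23.Quad Cfsg.Agent.Lib.Helper58.QuadCOUNTEVEN
  Cfsg.Agent.Lib.Helper58.QuadCOUNTODD Cfsg.Agent.Lib.Helper66.QuadSTD
open Cfsg.Agent.Lib.Helper78.Quad

universe u

section QuadFinal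

variable {F : Type u} [Field F] [Fintype F]

/-- The four counting formulas (by parity of `i` and type `ε`). -/
theorem quad_card_classes_cases (hf : QFacts F) {p q : ℕ} [Fact p.Prime] [CharP F p]
    (hF : Fintype.card F = q) {ι : Type} [Fintype ι] [DecidableEq ι] (Q : (ι → F) → F)
    (B : (ι → F) → (ι → F) → F) (hQ : IsQuad Q B) (hnd : Nondeg B) (k : ℕ)
    (hι : Fintype.card ι = 2 * k + 2) (ε : ℤ) (hε : ε = 1 ∨ ε = -1) (htyp : IsTyp Q k ε)
    (r i t : ℕ) (hr : r.Prime) (hr2 : r ≠ 2) (hrp : r ≠ p) (hi : i = orderOf (q : ZMod r))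
    (ht : t * i = r - 1) :
    (Odd i → ε = 1 →
      Nat.card {C : ConjClasses ↥(Cfsg.isometryGroup F Q) //
        ∃ g : ↥(Cfsg.isometryGroup F Q), ConjClasses.mk g = C ∧ orderOf g = r}
        = Nat.choose ((k + 1) / i + t / 2) (t / 2) - 1) ∧
    (Odd i → ε = -1 →
      Nat.card {C : ConjClasses ↥(Cfsg.isometryGroup F Q) //
        ∃ g : ↥(Cfsg.isometryGroup F Q), ConjClasses.mk g = C ∧ orderOf g = r}
        = Nat.choose ((k + 1) / i + t / 2) (t / 2) - 1
          - (if i ∣ (k + 1) then Nat.choose ((k + 1) / i + t / 2 - 1) (t / 2 - 1) else 0)) ∧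
    (¬ Odd i → ε = 1 →
      Nat.card {C : ConjClasses ↥(Cfsg.isometryGroup F Q) //
        ∃ g : ↥(Cfsg.isometryGroup F Q), ConjClasses.mk g = C ∧ orderOf g = r}
        = Nat.choose (2 * (k + 1) / i + t) t - 1
          - (if i ∣ 2 * (k + 1) ∧ Odd (2 * (k + 1) / i)
              then Nat.choose (2 * (k + 1) / i + t - 1) (t - 1) else 0)) ∧
    (¬ Odd i → ε = -1 →
      Nat.card {C : ConjClasses ↥(Cfsg.isometryGroup F Q) //
        ∃ g : ↥(Cfsg.isometryGroup F Q), ConjClasses.mk g = C ∧ orderOf g = r}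
        = Nat.choose (2 * (k + 1) / i + t) t - 1
          - (if i ∣ 2 * (k + 1) ∧ Even (2 * (k + 1) / i)
              then Nat.choose (2 * (k + 1) / i + t - 1) (t - 1) else 0)) := by
  classical
  have hfact : Fact r.Prime := ⟨hr⟩
  have hσ : ∀ x, (RingHom.id F) ((RingHom.id F) x) = x := fun _ => rfl
  have hipos : 0 < i := by
    rcases Nat.eq_zero_or_pos i with h0 | h
    · rw [h0, mul_zero] at ht
      have := hr.two_le
      omega
    · exact h
  obtain ⟨hfinα, hcardα⟩ := card_isCycFactor hF hr hrp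
  rw [← hi] at hcardα
  have hcardα' : Nat.card {f : F[X] // IsCycFactor r f} = t := by
    rw [hcardα, ← ht, Nat.mul_div_cancel _ hipos]
  have htpos : 0 < t := by
    rcases Nat.eq_zero_or_pos t with h0 | h
    · rw [h0, zero_mul] at ht
      have := hr.two_le
      omega
    · exact h
  have hαpos : 0 < Nat.card {f : F[X] // IsCycFactor r f} := by rw [hcardα']; exact htpos
  obtain ⟨δ, hδdef⟩ : ∃ δ : {f : F[X] // IsCycFactor r f} → {f : F[X] // IsCycFactor r f},
      ∀ a, (δ a).1 = dualP (RingHom.id F) a.1 :=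
    ⟨fun f => ⟨dualP (RingHom.id F) f.1, dualP_isCycFactor p hσ hr hrp f.2⟩, fun _ => rfl⟩
  have hδδ : ∀ a, δ (δ a) = a := by
    intro a
    apply Subtype.ext
    rw [hδdef, hδdef]
    exact (dualP_props p hσ a.1 a.2.1 (a.2.coeff_zero_ne hr.pos)).2.2.2
  have hδfix : ∀ a, δ a = a ↔ Even i := by
    intro a
    rw [hi, ← dualP_id_eq_self_iff hF hr hr2 hrp a.2, Subtype.ext_iff, hδdef]
  have hmain := quad_card_classes hf hF Q B hQ hnd k hι ε hε htyp r i hr hr2 hrp hi δ hδdef
  have hneg : (-1 : ℤ) ≠ 1 := by norm_num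
  have htau_odd : Odd i → ∀ u : Multiset {f : F[X] // IsCycFactor r f},
      tauSign (u.map Subtype.val) = 1 := by
    intro hodd u
    apply tauSign_of_forall_ne
    intro f hf
    obtain ⟨a, -, rfl⟩ := Multiset.mem_map.mp hf
    intro h
    have : δ a = a := Subtype.ext (by rw [hδdef]; exact h)
    exact (Nat.not_even_iff_odd.mpr hodd) ((hδfix a).mp this)
  have htau_even : ¬ Odd i → ∀ u : Multiset {f : F[X] // IsCycFactor r f},
      tauSign (u.map Subtype.val) = (-1) ^ Multiset.card u := by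
    intro hodd u
    rw [tauSign_of_forall_self, Multiset.card_map]
    intro f hf
    obtain ⟨a, -, rfl⟩ := Multiset.mem_map.mp hf
    have := (hδfix a).mpr (Nat.not_odd_iff_even.mp hodd)
    rw [← hδdef, this]
  have hmapid : ¬ Odd i → ∀ u : Multiset {f : F[X] // IsCycFactor r f}, u.map δ = u := by
    intro hodd u
    have hid : ∀ a, δ a = a := fun a => (hδfix a).mpr (Nat.not_odd_iff_even.mp hodd)
    rw [Multiset.map_congr rfl (fun a _ => hid a), Multiset.map_id']
  refine ⟨fun hodd h1 => ?_, fun hodd h1 => ?_, fun hodd h1 => ?_, fun hodd h1 => ?_⟩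
  · have hne : ∀ a, δ a ≠ a := fun a h =>
      (Nat.not_even_iff_odd.mpr hodd) ((hδfix a).mp h)
    have e1 : {u : Multiset {f : F[X] // IsCycFactor r f} //
          0 < Multiset.card u ∧ i * Multiset.card u ≤ 2 * k + 2 ∧ u.map δ = u ∧
            (i * Multiset.card u = 2 * k + 2 → tauSign (u.map Subtype.val) = ε)}
        ≃ {u : Multiset {f : F[X] // IsCycFactor r f} //
          0 < Multiset.card u ∧ i * Multiset.card u ≤ 2 * (k + 1) ∧ u.map δ = u} :=
      Equiv.subtypeEquivRight (fun u => ⟨fun h => ⟨h.1, by omega, h.2.2.1⟩,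
        fun h => ⟨h.1, by omega, h.2.2, fun _ => by rw [htau_odd hodd, h1]⟩⟩)
    rw [hmain, Nat.card_congr e1, card_invariant_multisets δ hδδ hne i (2 * (k + 1)) hipos,
      hcardα', Nat.mul_div_mul_left (k + 1) i (by norm_num : 0 < 2)]
  · have hne : ∀ a, δ a ≠ a := fun a h =>
      (Nat.not_even_iff_odd.mpr hodd) ((hδfix a).mp h)
    have e1 : {u : Multiset {f : F[X] // IsCycFactor r f} //
          0 < Multiset.card u ∧ i * Multiset.card u ≤ 2 * k + 2 ∧ u.map δ = u ∧
            (i * Multiset.card u = 2 * k + 2 → tauSign (u.map Subtype.val) = ε)}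
        ≃ {u : Multiset {f : F[X] // IsCycFactor r f} //
          0 < Multiset.card u ∧ i * Multiset.card u ≤ 2 * (k + 1) ∧ u.map δ = u ∧
            i * Multiset.card u ≠ 2 * (k + 1)} :=
      Equiv.subtypeEquivRight (fun u => ⟨fun h => ⟨h.1, by omega, h.2.2.1, fun h2 => by
          have h3 := h.2.2.2 (by omega)
          rw [htau_odd hodd, h1] at h3
          norm_num at h3⟩,
        fun h => ⟨h.1, by omega, h.2.2.1, fun h2 => absurd (by omega) h.2.2.2⟩⟩)
    rw [hmain, Nat.card_congr e1, card_inv_multisets_ne hαpos δ hδδ hne i (k + 1) hipos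
      (by omega), hcardα']
  · have e1 : {u : Multiset {f : F[X] // IsCycFactor r f} //
          0 < Multiset.card u ∧ i * Multiset.card u ≤ 2 * k + 2 ∧ u.map δ = u ∧
            (i * Multiset.card u = 2 * k + 2 → tauSign (u.map Subtype.val) = ε)}
        ≃ {u : Multiset {f : F[X] // IsCycFactor r f} //
          0 < Multiset.card u ∧ i * Multiset.card u ≤ 2 * (k + 1) ∧
            (i * Multiset.card u = 2 * (k + 1) → Even (Multiset.card u))} :=
      Equiv.subtypeEquivRight (fun u => ⟨fun h => ⟨h.1, by omega, fun h2 => by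
          have h3 := h.2.2.2 (by omega)
          rw [htau_even hodd, h1] at h3
          exact (neg_one_pow_eq_one_iff_even hneg).mp h3⟩,
        fun h => ⟨h.1, by omega, hmapid hodd u, fun h2 => by
          rw [htau_even hodd, h1]
          exact (neg_one_pow_eq_one_iff_even hneg).mpr (h.2.2 (by omega))⟩⟩)
    rw [hmain, Nat.card_congr e1, card_multisets_full_even hαpos i (k + 1) hipos (by omega),
      hcardα']
  · have e1 : {u : Multiset {f : F[X] // IsCycFactor r f} //
          0 < Multiset.card u ∧ i * Multiset.card u ≤ 2 * k + 2 ∧ u.map δ = u ∧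
            (i * Multiset.card u = 2 * k + 2 → tauSign (u.map Subtype.val) = ε)}
        ≃ {u : Multiset {f : F[X] // IsCycFactor r f} //
          0 < Multiset.card u ∧ i * Multiset.card u ≤ 2 * (k + 1) ∧
            (i * Multiset.card u = 2 * (k + 1) → Odd (Multiset.card u))} :=
      Equiv.subtypeEquivRight (fun u => ⟨fun h => ⟨h.1, by omega, fun h2 => by
          have h3 := h.2.2.2 (by omega)
          rw [htau_even hodd, h1] at h3
          exact (neg_one_pow_eq_neg_one_iff_odd hneg).mp h3⟩,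
        fun h => ⟨h.1, by omega, hmapid hodd u, fun h2 => by
          rw [htau_even hodd, h1]
          exact (neg_one_pow_eq_neg_one_iff_odd hneg).mpr (h.2.2 (by omega))⟩⟩)
    rw [hmain, Nat.card_congr e1, card_multisets_full_odd hαpos i (k + 1) hipos (by omega),
      hcardα']

/-- `O^+_{2m}(q)`. -/
theorem plus_card_prime_order_classes {p q : ℕ} [Fact p.Prime] [CharP F p]
    (hF : Fintype.card F = q) (m r i t : ℕ) (hm : 1 ≤ m) (hr : r.Prime) (hr2 : r ≠ 2)
    (hrp : r ≠ p) (hi : i = orderOf (q : ZMod r)) (ht : t * i = r - 1) :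
    Nat.card {C : ConjClasses ↥(Cfsg.isometryGroup F (Cfsg.quadFormPlus m F)) //
        ∃ g : ↥(Cfsg.isometryGroup F (Cfsg.quadFormPlus m F)),
          ConjClasses.mk g = C ∧ orderOf g = r}
      = if Odd i then Nat.choose (m / i + t / 2) (t / 2) - 1
        else Nat.choose (2 * m / i + t) t - 1
          - (if i ∣ 2 * m ∧ Odd (2 * m / i) then Nat.choose (2 * m / i + t - 1) (t - 1)
              else 0) := by
  obtain ⟨k, rfl⟩ : ∃ k, m = k + 1 := ⟨m - 1, by omega⟩
  have hf : QFacts F := qfacts p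
  have hcases := quad_card_classes_cases hf hF (Cfsg.quadFormPlus (k + 1) F) (plusB (k + 1) F)
    (quadFormPlus_isQuad (k + 1)) (plusB_nondeg (k + 1)) k (by simp; ring) 1 (Or.inl rfl)
    (isTyp_quadFormPlus k) r i t hr hr2 hrp hi ht
  by_cases hodd : Odd i
  · rw [if_pos hodd]
    exact hcases.1 hodd rfl
  · rw [if_neg hodd]
    exact hcases.2.2.1 hodd rfl

/-- `O^-_{2m}(q)`, `m = k + 1`. -/
theorem minus_card_prime_order_classes {p q : ℕ} [Fact p.Prime] [CharP F p]
    (hF : Fintype.card F = q) (k : ℕ) (a c : F) (hac : IsAniso a c) (m r i t : ℕ)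
    (hm : m = k + 1) (hr : r.Prime) (hr2 : r ≠ 2)
    (hrp : r ≠ p) (hi : i = orderOf (q : ZMod r)) (ht : t * i = r - 1) :
    Nat.card {C : ConjClasses ↥(Cfsg.isometryGroup F (Cfsg.quadFormMinus k F a c)) //
        ∃ g : ↥(Cfsg.isometryGroup F (Cfsg.quadFormMinus k F a c)),
          ConjClasses.mk g = C ∧ orderOf g = r}
      = if Odd i then Nat.choose (m / i + t / 2) (t / 2) - 1
          - (if i ∣ m then Nat.choose (m / i + t / 2 - 1) (t / 2 - 1) else 0)
        else Nat.choose (2 * m / i + t) t - 1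
          - (if i ∣ 2 * m ∧ Even (2 * m / i) then Nat.choose (2 * m / i + t - 1) (t - 1)
              else 0) := by
  subst hm
  have hf : QFacts F := qfacts p
  have hcases := quad_card_classes_cases hf hF (Cfsg.quadFormMinus k F a c) (minusB k F a c)
    (quadFormMinus_isQuad k a c) (minusB_nondeg k a c hac) k (by simp; ring) (-1)
    (Or.inr rfl)
    (isTyp_quadFormMinus_of k a c (fun Q₁ Q₂ _ _ _ _ h₁ h₂ => isTyp_prod Q₁ Q₂ h₁ h₂)
      isTyp_quadFormPlus (isTyp_aniso a c hac)) r i t hr hr2 hrp hi ht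
  by_cases hodd : Odd i
  · rw [if_pos hodd]
    exact hcases.2.1 hodd rfl
  · rw [if_neg hodd]
    exact hcases.2.2.2 hodd rfl

end QuadFinal

end Cfsg.Agent.Lib.Helper47
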