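import Mathlib
import Cfsg.Agent.Lib.Helper47.FinExt
import Cfsg.Agent.Lib.Helper47.PSUTools

/-!
# Orders of elements of `PSU_3(q)`, `q` odd: the upper bound

Every unitary `3 × 3` matrix `M` of determinant one over the field of order `q²` has a scalar
power `M ^ N` with `N ∈ {q+1, p(q+1)/d, (q²-1)/d, (q²-q+1)/d}`, `d = gcd(3, q+1)`
(`su3_exists_scalar_pow`).
-/

set_option autoImplicit false

namespace Cfsg.Agent.Lib.Helper47

open Polynomial Matrix

section DualRoots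

variable {F : Type*} [Field F] {σ : F →+* F}

lemma dualP_isRoot {f : F[X]} {x : F} (hx : x ≠ 0) (h : f.IsRoot x) :
    (dualP σ f).IsRoot (σ x)⁻¹ := by
  have hσx : σ x ≠ 0 := (map_ne_zero σ).mpr hx
  have : Invertible (σ x) := invertibleOfNonzero hσx
  have h2 := eval₂_reverse_mul_pow (RingHom.id F) (σ x) (f.map σ)
  have h3 : eval₂ (RingHom.id F) (σ x) (f.map σ) = 0 := by
    rw [eval₂_map, RingHom.id_comp]
    have h4 := hom_eval₂ f (RingHom.id F) σ x
    rw [RingHom.comp_id] at h4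
    rw [← h4]
    have h5 : eval₂ (RingHom.id F) x f = 0 := by
      rw [eval₂_id]
      exact h
    rw [h5, map_zero]
  rw [h3, invOf_eq_inv, eval₂_id] at h2
  have h6 : eval (σ x)⁻¹ (f.map σ).reverse = 0 := by
    rcases mul_eq_zero.mp h2 with h | h
    · exact h
    · exact absurd h (pow_ne_zero _ hσx)
  unfold dualP
  rw [IsRoot.def, eval_mul, h6, mul_zero]

lemma dualP_X_sub_C [Finite F] (p : ℕ) [Fact p.Prime] [CharP F p] (hσ : ∀ x, σ (σ x) = x)
    {a : F} (ha : a ≠ 0) : dualP σ (X - C a) = X - C (σ a)⁻¹ := by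
  obtain ⟨hm, hd, -, -⟩ := dualP_props p hσ (X - C a) (monic_X_sub_C a) (by simp [ha])
  have hr : (dualP σ (X - C a)).IsRoot (σ a)⁻¹ := dualP_isRoot ha (root_X_sub_C.mpr rfl)
  rw [natDegree_X_sub_C] at hd
  have h1 := hm.eq_X_add_C hd
  rw [h1, IsRoot.def, eval_add, eval_X, eval_C] at hr
  rw [h1, eq_neg_of_add_eq_zero_right hr, C_neg, sub_eq_add_neg]

lemma charpoly_selfdual {n : ℕ} (M : Matrix (Fin n) (Fin n) F) (hM : sT σ M * M = 1) :
    dualP σ M.charpoly = M.charpoly := by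
  have hdet : IsUnit M.det := by
    have h1 := congrArg Matrix.det hM
    rw [Matrix.det_mul, Matrix.det_one] at h1
    have h2 : M.det * (sT σ M).det = 1 := by rw [mul_comm]; exact h1
    exact IsUnit.of_mul_eq_one _ h2
  have h1 := charpoly_sT_inv (σ := σ) M hdet
  have h2 : (sT σ M)⁻¹ = M := Matrix.inv_eq_right_inv hM
  rw [h2] at h1
  exact h1.symm

end DualRoots

section Split

variable {F : Type*} [Field F] [Fintype F] {q : ℕ}

/-- The characteristic polynomial of a unitary `3 × 3` matrix is irreducible or splits. -/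
theorem su3_charpoly_cases (p : ℕ) [Fact p.Prime] [CharP F p] (hF : Fintype.card F = q ^ 2)
    {σ : F →+* F} (hσq : ∀ x, σ x = x ^ q) (hσ : ∀ x, σ (σ x) = x)
    (M : Matrix (Fin 3) (Fin 3) F) (hM : sT σ M * M = 1) (hdet : M.det = 1) :
    Irreducible M.charpoly ∨
      ∃ a b c : F, M.charpoly = (X - C a) * (X - C b) * (X - C c) := by
  obtain ⟨f, hf⟩ : ∃ f : F[X], f = M.charpoly := ⟨_, rfl⟩
  have hfm : f.Monic := hf ▸ Matrix.charpoly_monic M
  have hfd : f.natDegree = 3 := by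
    rw [hf, Matrix.charpoly_natDegree_eq_dim, Fintype.card_fin]
  have hf0 : f.coeff 0 = -1 := by
    rw [hf, charpoly_coeff_zero, hdet]
    norm_num
  have hdual : dualP σ f = f := hf ▸ charpoly_selfdual M hM
  rw [← hf]
  by_cases hroot : ∃ a, f.IsRoot a
  · right
    obtain ⟨a, ha⟩ := hroot
    have ha0 : a ≠ 0 := by
      rintro rfl
      rw [IsRoot.def, ← coeff_zero_eq_eval_zero, hf0] at ha
      norm_num at ha
    obtain ⟨g₂, hg₂⟩ : ∃ g₂ : F[X], f = (X - C a) * g₂ :=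
      ⟨f /ₘ (X - C a), (mul_divByMonic_eq_iff_isRoot.mpr ha).symm⟩
    have hg₂m : g₂.Monic := (monic_X_sub_C a).of_mul_monic_left (hg₂ ▸ hfm)
    have hg₂d : g₂.natDegree = 2 := by
      have h1 := congrArg natDegree hg₂
      rw [(monic_X_sub_C a).natDegree_mul hg₂m, natDegree_X_sub_C, hfd] at h1
      omega
    have hg₂root : ∃ b, g₂.IsRoot b := by
      by_contra hno
      push Not at hno
      have hirr : Irreducible g₂ :=
        irreducible_of_degree_le_three_of_not_isRoot (by rw [hg₂d]; decide) hno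
      have h1 : f.IsRoot (σ a)⁻¹ := by
        have := dualP_isRoot (σ := σ) ha0 ha
        rwa [hdual] at this
      have h2 : (σ a)⁻¹ = a := by
        rw [hg₂, IsRoot.def, eval_mul, eval_sub, eval_X, eval_C] at h1
        rcases mul_eq_zero.mp h1 with h | h
        · exact sub_eq_zero.mp h
        · exact absurd h (hno _)
      have h3 : dualP σ g₂ = g₂ := by
        have h4 : dualP σ f = (X - C a) * dualP σ g₂ := by
          rw [hg₂, dualP_mul, dualP_X_sub_C p hσ ha0, h2]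
        rw [hdual, hg₂] at h4
        exact (mul_left_cancel₀ (X_sub_C_ne_zero a) h4).symm
      exact selfdual_quadratic_false p hF hσq g₂ hg₂m hirr hg₂d h3
    obtain ⟨b, hb⟩ := hg₂root
    obtain ⟨h, hh⟩ : ∃ h : F[X], g₂ = (X - C b) * h :=
      ⟨g₂ /ₘ (X - C b), (mul_divByMonic_eq_iff_isRoot.mpr hb).symm⟩
    have hhm : h.Monic := (monic_X_sub_C b).of_mul_monic_left (hh ▸ hg₂m)
    have hhd : h.natDegree = 1 := by
      have h1 := congrArg natDegree hh
      rw [(monic_X_sub_C b).natDegree_mul hhm, natDegree_X_sub_C, hg₂d] at h1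
      omega
    refine ⟨a, b, -h.coeff 0, ?_⟩
    rw [hg₂, hh, mul_assoc]
    congr 2
    rw [C_neg, sub_neg_eq_add]
    exact hhm.eq_X_add_C hhd
  · left
    push Not at hroot
    exact irreducible_of_degree_le_three_of_not_isRoot (by rw [hfd]; decide) hroot

end Split

section Scalar

variable {F : Type*} [Field F] [Fintype F] {q : ℕ}

lemma gcd_three_cases (q : ℕ) : Nat.gcd 3 (q + 1) = 1 ∨ Nat.gcd 3 (q + 1) = 3 :=
  (Nat.dvd_prime Nat.prime_three).mp (Nat.gcd_dvd_left 3 (q + 1))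

lemma three_dvd_sq_sub_add (h : 3 ∣ q + 1) : 3 ∣ q ^ 2 - q + 1 := by
  obtain ⟨k, hk⟩ := h
  obtain ⟨j, rfl⟩ : ∃ j, k = j + 1 := ⟨k - 1, by omega⟩
  have hq : q = 3 * j + 2 := by omega
  subst hq
  have : (3 * j + 2) ^ 2 - (3 * j + 2) = 9 * j ^ 2 + 9 * j + 2 := Nat.sub_eq_of_eq_add (by ring)
  rw [this]
  exact ⟨3 * j ^ 2 + 3 * j + 1, by ring⟩

lemma one_le_q (hF : Fintype.card F = q ^ 2) : 1 ≤ q := by
  rcases Nat.eq_zero_or_pos q with h0 | h
  · exfalso
    rw [h0] at hF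
    have := Fintype.one_lt_card (α := F)
    omega
  · exact h

lemma q_add_one_dvd (hq : 1 ≤ q) : (q + 1) ∣ q ^ 2 - 1 := by
  refine ⟨q - 1, ?_⟩
  obtain ⟨t, rfl⟩ : ∃ t, q = t + 1 := ⟨q - 1, by omega⟩
  have h1 : (t + 1) ^ 2 = (t + 1 + 1) * t + 1 := by ring
  rw [h1]
  simp

/-- A primitive `(q+1)`-th root of unity in the field of order `q²`. -/
lemma exists_prim_root_q_add_one (hF : Fintype.card F = q ^ 2) :
    ∃ ξ : F, IsPrimitiveRoot ξ (q + 1) := by
  obtain ⟨γ, m, -, -, -, -, hξ⟩ := exists_gen_root hF (q_add_one_dvd (one_le_q hF))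
  exact ⟨_, hξ⟩

lemma exists_cube_root (hF : Fintype.card F = q ^ 2) (h3 : 3 ∣ q + 1) :
    ∃ ω : F, ω ^ 3 = 1 ∧ ω ^ 2 + ω + 1 = 0 := by
  obtain ⟨ξ, hξ⟩ := exists_prim_root_q_add_one hF
  obtain ⟨k, hk⟩ := h3
  have hω : IsPrimitiveRoot (ξ ^ k) 3 := hξ.pow (by omega) (by rw [hk, mul_comm])
  refine ⟨ξ ^ k, hω.pow_eq_one, ?_⟩
  have h1 : ξ ^ k ≠ 1 := hω.ne_one (by norm_num)
  have h2 : (ξ ^ k - 1) * ((ξ ^ k) ^ 2 + ξ ^ k + 1) = 0 := by
    have := hω.pow_eq_one
    linear_combination this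
  rcases mul_eq_zero.mp h2 with h | h
  · exact absurd (sub_eq_zero.mp h) h1
  · exact h

/-- The split case with a root that is not of norm one. -/
lemma su3_split_b (hF : Fintype.card F = q ^ 2) {σ : F →+* F} (hσq : ∀ x, σ x = x ^ q)
    (M : Matrix (Fin 3) (Fin 3) F) {x y z : F}
    (hf : M.charpoly = (X - C x) * (X - C y) * (X - C z)) (hy : y * x ^ q = 1)
    (hx : x ^ (q + 1) ≠ 1) (hxyz : x * y * z = 1) :
    ∃ c : F, M ^ ((q ^ 2 - 1) / Nat.gcd 3 (q + 1)) = c • (1 : Matrix (Fin 3) (Fin 3) F) := by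
  have hq1 := one_le_q hF
  have hx0 : x ≠ 0 := by
    rintro rfl
    simp at hxyz
  have hxq : x ^ (q ^ 2 - 1) = 1 := by
    rw [← hF]
    exact FiniteField.pow_card_sub_one_eq_one x hx0
  have hinj : ∀ u : F, u ^ q = 1 → u = 1 := by
    intro u hu
    apply σ.injective
    rw [hσq, hσq, hu, one_pow]
  have hxy : x ≠ y := by
    intro h
    apply hx
    rw [← h] at hy
    rw [pow_succ, mul_comm]
    exact hy
  have hyq : y ^ (q + 1) * (x ^ (q + 1)) ^ q = 1 := by
    rw [← pow_mul, mul_comm (q + 1) q, pow_mul, ← mul_pow, hy, one_pow]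
  have hxyq : x ^ (q + 1) * y ^ (q + 1) = 1 := by
    have h1 : x ^ (q + 1) * x ^ (q ^ 2 - 1) = (x ^ (q + 1)) ^ q := by
      rw [← pow_mul, ← pow_add]
      congr 1
      obtain ⟨t, rfl⟩ : ∃ t, q = t + 1 := ⟨q - 1, by omega⟩
      have h2 : (t + 1) ^ 2 - 1 = t ^ 2 + 2 * t := Nat.sub_eq_of_eq_add (by ring)
      rw [h2]
      ring
    calc x ^ (q + 1) * y ^ (q + 1) = y ^ (q + 1) * (x ^ (q + 1) * x ^ (q ^ 2 - 1)) := by
          rw [hxq]; ring
      _ = 1 := by rw [h1, hyq]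
  have hzq : z ^ (q + 1) = 1 := by
    have h1 := congrArg (· ^ (q + 1)) hxyz
    simp only [mul_pow, one_pow] at h1
    rw [hxyq, one_mul] at h1
    exact h1
  have hxz : x ≠ z := by
    intro h
    apply hx
    rw [h]
    exact hzq
  have hyz : y ≠ z := by
    intro h
    apply hx
    apply hinj
    rw [h, hzq, one_mul] at hyq
    exact hyq
  obtain ⟨d, hd⟩ : ∃ d, d = Nat.gcd 3 (q + 1) := ⟨_, rfl⟩
  rw [← hd]
  have hd3 : d ∣ 3 := hd ▸ Nat.gcd_dvd_left 3 (q + 1)
  have hdq : d ∣ q + 1 := hd ▸ Nat.gcd_dvd_right 3 (q + 1)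
  have hdq2 : d ∣ q ^ 2 - 1 := hdq.trans (q_add_one_dvd hq1)
  obtain ⟨K, hK⟩ := hdq2
  have hd0 : 0 < d := Nat.pos_of_dvd_of_pos hd3 (by norm_num)
  rw [hK, Nat.mul_div_cancel_left K hd0]
  obtain ⟨ω, hω⟩ : ∃ ω : F, ω = x ^ K := ⟨_, rfl⟩
  have hω1 : ω ^ (q + 1) = 1 := by
    obtain ⟨m, hm⟩ := hdq
    rw [hω, ← pow_mul, hm, ← mul_assoc, mul_comm K d, ← hK, pow_mul, hxq, one_pow]
  have hω3 : ω ^ 3 = 1 := by
    obtain ⟨t, ht⟩ := hd3
    rw [hω, ← pow_mul, ht, ← mul_assoc, mul_comm K d, ← hK, pow_mul, hxq, one_pow]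
  have hω0 : ω ≠ 0 := by
    rw [hω]
    exact pow_ne_zero _ hx0
  have hyK : y ^ K = ω := by
    have h1 := congrArg (· ^ K) hy
    simp only [mul_pow, one_pow] at h1
    rw [← pow_mul, mul_comm q K, pow_mul, ← hω] at h1
    have h2 : ω * ω ^ q = 1 := by rw [← pow_succ', hω1]
    exact mul_right_cancel₀ (pow_ne_zero q hω0) (h1.trans h2.symm)
  have hzK : z ^ K = ω := by
    have h1 := congrArg (· ^ K) hxyz
    simp only [mul_pow, one_pow] at h1
    rw [← hω, hyK] at h1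
    have h2 : ω * ω * ω = 1 := by rw [← hω3]; ring
    exact mul_left_cancel₀ (mul_ne_zero hω0 hω0) (h1.trans h2.symm)
  exact ⟨ω, pow_eq_scalar_of_roots_distinct M hf hxy hxz hyz K ω hω.symm hyK hzK⟩

/-- The split case with all roots of norm one. -/
lemma su3_split_a (p : ℕ) [Fact p.Prime] [CharP F p] (hp3 : 3 ≤ p)
    (M : Matrix (Fin 3) (Fin 3) F) {a b c : F}
    (hf : M.charpoly = (X - C a) * (X - C b) * (X - C c)) (ha : a ^ (q + 1) = 1)
    (hb : b ^ (q + 1) = 1) (hc : c ^ (q + 1) = 1) (habc : a * b * c = 1) :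
    (∃ e : F, M ^ (q + 1) = e • (1 : Matrix (Fin 3) (Fin 3) F)) ∨
      ∃ e : F, M ^ (p * (q + 1) / Nat.gcd 3 (q + 1)) = e • (1 : Matrix (Fin 3) (Fin 3) F) := by
  rcases gcd_three_cases q with hd | hd
  · right
    rw [hd, Nat.div_one, mul_comm]
    exact ⟨1 ^ p, pow_eq_scalar_of_roots p hp3 (by norm_num) M hf (q + 1) 1 ha hb hc⟩
  · have h3 : 3 ∣ q + 1 := hd ▸ Nat.gcd_dvd_right 3 (q + 1)
    obtain ⟨k, hk⟩ := h3
    by_cases hdist : a ≠ b ∧ a ≠ c ∧ b ≠ c
    · left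
      exact ⟨1, pow_eq_scalar_of_roots_distinct M hf hdist.1 hdist.2.1 hdist.2.2 (q + 1) 1 ha hb
        hc⟩
    · right
      have hNk : p * (q + 1) / Nat.gcd 3 (q + 1) = k * p := by
        rw [hd, hk, mul_comm 3 k, ← mul_assoc, Nat.mul_div_cancel _ (by norm_num), mul_comm]
      rw [hNk]
      have key : ∀ x z : F, x ^ (q + 1) = 1 → x * x * z = 1 → z ^ k = x ^ k := by
        intro x z hx hxz
        have hx0 : x ≠ 0 := by
          rintro rfl
          simp at hxz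
        have h1 := congrArg (· ^ k) hxz
        simp only [mul_pow, one_pow] at h1
        have h2 : x ^ k * x ^ k * x ^ k = 1 := by
          rw [← pow_add, ← pow_add, ← hx, hk]
          congr 1
          ring
        exact mul_left_cancel₀ (mul_ne_zero (pow_ne_zero k hx0) (pow_ne_zero k hx0))
          (h1.trans h2.symm)
      have hall : a ^ k = b ^ k ∧ c ^ k = b ^ k := by
        by_cases hab : a = b
        · subst hab
          exact ⟨rfl, key a c ha habc⟩
        · by_cases hac : a = c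
          · subst hac
            have := key a b ha (by rw [← habc]; ring)
            exact ⟨this.symm, this.symm⟩
          · have hbc : b = c := by
              by_contra hbc
              exact hdist ⟨hab, hac, hbc⟩
            subst hbc
            exact ⟨key b a hb (by rw [← habc]; ring), rfl⟩
      exact ⟨(b ^ k) ^ p, pow_eq_scalar_of_roots p hp3 (by norm_num) M hf k (b ^ k) hall.1 rfl
        hall.2⟩

/-- A matrix whose characteristic polynomial is irreducible and divides `X^(q²-q+1) - 1` has a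
scalar `(q²-q+1)/gcd(3,q+1)`-th power. -/
lemma irreducible_cubic_scalar_pow (hF : Fintype.card F = q ^ 2)
    (M : Matrix (Fin 3) (Fin 3) F) (hirr : Irreducible M.charpoly)
    (hdvd : M.charpoly ∣ X ^ (q ^ 2 - q + 1) - 1) :
    ∃ e : F, M ^ ((q ^ 2 - q + 1) / Nat.gcd 3 (q + 1))
      = e • (1 : Matrix (Fin 3) (Fin 3) F) := by
  rcases gcd_three_cases q with hd | hd
  · rw [hd, Nat.div_one]
    refine ⟨1, ?_⟩
    have h2 := aeval_eq_zero_of_charpoly_dvd M _ hdvd
    rw [← C_1, aeval_X_pow_sub_C] at h2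
    exact sub_eq_zero.mp h2
  · have h3 : 3 ∣ q + 1 := hd ▸ Nat.gcd_dvd_right 3 (q + 1)
    obtain ⟨n₀, hn₀⟩ := three_dvd_sq_sub_add h3
    obtain ⟨ω, hω3, hω2⟩ := exists_cube_root hF h3
    rw [hd, hn₀, Nat.mul_div_cancel_left n₀ (by norm_num)]
    have hfac : (X ^ n₀ - C (1 : F)) * (X ^ n₀ - C ω) * (X ^ n₀ - C (ω ^ 2))
        = (X ^ (3 * n₀) - 1 : F[X]) := by
      have e1 : C (ω ^ 2) = (C ω : F[X]) ^ 2 := by rw [C_pow]
      have e2 : (C ω : F[X]) ^ 3 = 1 := by rw [← C_pow, hω3, C_1]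
      have e3 : (C ω : F[X]) ^ 2 + C ω + 1 = 0 := by
        rw [← C_pow, ← C_add, ← C_1, ← C_add, hω2, C_0]
      rw [e1, C_1, mul_comm 3 n₀, pow_mul]
      linear_combination (-(X ^ n₀ : F[X]) ^ 2 + (X ^ n₀ : F[X]) * C ω) * e3 - e2
    have h4 : M.charpoly ∣ (X ^ n₀ - C (1 : F)) * (X ^ n₀ - C ω) * (X ^ n₀ - C (ω ^ 2)) := by
      rw [hfac, ← hn₀]
      exact hdvd
    have hfin : ∀ e : F, M.charpoly ∣ (X ^ n₀ - C e : F[X]) →
        M ^ n₀ = e • (1 : Matrix (Fin 3) (Fin 3) F) := by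
      intro e he
      have h2 := aeval_eq_zero_of_charpoly_dvd M _ he
      rw [aeval_X_pow_sub_C] at h2
      exact sub_eq_zero.mp h2
    rcases hirr.prime.dvd_or_dvd h4 with h5 | h5
    · rcases hirr.prime.dvd_or_dvd h5 with h6 | h6
      · exact ⟨1, hfin 1 h6⟩
      · exact ⟨ω, hfin ω h6⟩
    · exact ⟨ω ^ 2, hfin _ h5⟩

/-- The irreducible case. -/
lemma su3_irreducible_case (p : ℕ) [Fact p.Prime] [CharP F p] (hF : Fintype.card F = q ^ 2)
    {σ : F →+* F} (hσq : ∀ x, σ x = x ^ q) (M : Matrix (Fin 3) (Fin 3) F)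
    (hM : sT σ M * M = 1) (hdet : M.det = 1) (hirr : Irreducible M.charpoly) :
    ∃ e : F, M ^ ((q ^ 2 - q + 1) / Nat.gcd 3 (q + 1))
      = e • (1 : Matrix (Fin 3) (Fin 3) F) := by
  have hfm := Matrix.charpoly_monic M
  have hfd : M.charpoly.natDegree = 3 := by
    rw [Matrix.charpoly_natDegree_eq_dim, Fintype.card_fin]
  have hf0 : M.charpoly.coeff 0 = -1 := by
    rw [charpoly_coeff_zero, hdet]
    norm_num
  have hdual := charpoly_selfdual M hM
  exact irreducible_cubic_scalar_pow hF M hirr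
    (selfdual_cubic_dvd p hF hσq M.charpoly hfm hirr hfd hdual hf0)

/-- **Upper bound for the spectrum of `PSU_3(q)`**: some power `M ^ N` with `N` one of the four
numbers is scalar. -/
theorem su3_exists_scalar_pow (p : ℕ) [Fact p.Prime] [CharP F p] (hp : p ≠ 2)
    (hF : Fintype.card F = q ^ 2) {σ : F →+* F} (hσq : ∀ x, σ x = x ^ q)
    (hσ : ∀ x, σ (σ x) = x) (M : Matrix (Fin 3) (Fin 3) F) (hM : sT σ M * M = 1)
    (hdet : M.det = 1) :
    ∃ N : ℕ, (N = q + 1 ∨ N = p * (q + 1) / Nat.gcd 3 (q + 1) ∨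
        N = (q ^ 2 - 1) / Nat.gcd 3 (q + 1) ∨ N = (q ^ 2 - q + 1) / Nat.gcd 3 (q + 1)) ∧
      ∃ e : F, M ^ N = e • (1 : Matrix (Fin 3) (Fin 3) F) := by
  have hp3 : 3 ≤ p := by
    have h2 := (Fact.out : p.Prime).two_le
    omega
  rcases su3_charpoly_cases p hF hσq hσ M hM hdet with hirr | ⟨a, b, c, hf⟩
  · exact ⟨_, Or.inr (Or.inr (Or.inr rfl)), su3_irreducible_case p hF hσq M hM hdet hirr⟩
  · have habc : a * b * c = 1 := by
      have h1 := congrArg (fun P : F[X] => P.coeff 0) hf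
      rw [charpoly_coeff_zero, hdet, coeff_zero_eq_eval_zero] at h1
      simp only [eval_mul, eval_sub, eval_X, eval_C, zero_sub] at h1
      linear_combination h1
    have hstar : ∀ x : F, M.charpoly.IsRoot x → x ≠ 0 → M.charpoly.IsRoot (σ x)⁻¹ := by
      intro x hx hx0
      have := dualP_isRoot (σ := σ) hx0 hx
      rwa [charpoly_selfdual M hM] at this
    have key : ∀ x y z : F, M.charpoly = (X - C x) * (X - C y) * (X - C z) → x * y * z = 1 →
        x ^ (q + 1) ≠ 1 →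
        ∃ e : F, M ^ ((q ^ 2 - 1) / Nat.gcd 3 (q + 1)) = e • (1 : Matrix (Fin 3) (Fin 3) F) := by
      intro x y z hf' hxyz hx
      have hx0 : x ≠ 0 := by
        rintro rfl
        simp at hxyz
      have hxr : M.charpoly.IsRoot x := by
        rw [hf', IsRoot.def]
        simp
      have h1 := hstar x hxr hx0
      have hinv : (σ x)⁻¹ * x ^ q = 1 := by
        rw [hσq, inv_mul_cancel₀ (pow_ne_zero _ hx0)]
      rw [hf', IsRoot.def, eval_mul, eval_mul, eval_sub, eval_sub, eval_sub, eval_X, eval_C,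
        eval_C, eval_C, mul_eq_zero, mul_eq_zero, sub_eq_zero, sub_eq_zero, sub_eq_zero] at h1
      rcases h1 with (h1 | h1) | h1
      · exfalso
        apply hx
        rw [h1] at hinv
        rw [pow_succ, mul_comm]
        exact hinv
      · exact su3_split_b hF hσq M hf' (h1 ▸ hinv) hx hxyz
      · exact su3_split_b hF hσq M (x := x) (y := z) (z := y) (by rw [hf']; ring) (h1 ▸ hinv) hx
          (by rw [← hxyz]; ring)
    by_cases hall : a ^ (q + 1) = 1 ∧ b ^ (q + 1) = 1 ∧ c ^ (q + 1) = 1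
    · rcases su3_split_a p hp3 M hf hall.1 hall.2.1 hall.2.2 habc with h | h
      · exact ⟨_, Or.inl rfl, h⟩
      · exact ⟨_, Or.inr (Or.inl rfl), h⟩
    · refine ⟨_, Or.inr (Or.inr (Or.inl rfl)), ?_⟩
      by_cases ha : a ^ (q + 1) = 1
      · by_cases hb : b ^ (q + 1) = 1
        · have hc : c ^ (q + 1) ≠ 1 := fun hc => hall ⟨ha, hb, hc⟩
          exact key c a b (by rw [hf]; ring) (by rw [← habc]; ring) hc
        · exact key b a c (by rw [hf]; ring) (by rw [← habc]; ring) hb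
      · exact key a b c hf habc ha

end Scalar

end Cfsg.Agent.Lib.Helper47
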