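import Mathlib
import Cfsg.Agent.Lib.Helper47.SU3SpecA

/-!
# Orders of elements of `PSU_3(q)`, `q` odd: existence

Elements of `PSU_3(q)` of orders `q+1`, `p(q+1)/d`, `(q²-1)/d` and `(q²-q+1)/d`, where
`d = gcd(3, q+1)`.
-/

set_option autoImplicit false

namespace Cfsg.Agent.Lib.Helper47

open Polynomial Matrix

section Generic

variable {F : Type*} [Field F] [Fintype F] {q : ℕ}

/-- An element of `PSU_3(q)` from a matrix preserving some non-degenerate sesquilinear form. -/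
theorem exists_psu_orderOf (hF : Fintype.card F = q ^ 2) {σ : F →+* F}
    (hσq : ∀ x, σ x = x ^ q) (hσ : ∀ x, σ (σ x) = x) (hne : ∃ c, σ c ≠ c) (p : ℕ)
    [Fact p.Prime] [CharP F p] (M x : Matrix (Fin 3) (Fin 3) F) (hdet : M.det = 1)
    (hx : IsUnit x.det) (hxM : sT σ M * x * M = x) (N : ℕ)
    (h : ∀ k : ℕ, (∃ c : F, M ^ k = c • (1 : Matrix (Fin 3) (Fin 3) F)) ↔ N ∣ k) :
    ∃ y : Cfsg.PSU 3 F q, orderOf y = N := by
  obtain ⟨g, y, hy, hyM⟩ := exists_su_similar hσq hσ hne p M x hdet hx hxM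
  exact ⟨(g : Cfsg.PSU 3 F q), psu_orderOf_eq hF (by norm_num) g N
    (fun k => (scalar_pow_iff_of_similar hy hyM k).trans (h k))⟩

lemma form_pow {σ : F →+* F} (M x : Matrix (Fin 3) (Fin 3) F) (hxM : sT σ M * x * M = x)
    (j : ℕ) : sT σ (M ^ j) * x * M ^ j = x := by
  induction j with
  | zero => rw [pow_zero, sT_one, one_mul, mul_one]
  | succ j ih =>
    calc sT σ (M ^ (j + 1)) * x * M ^ (j + 1)
        = sT σ M * (sT σ (M ^ j) * x * M ^ j) * M := by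
          rw [pow_succ, sT_mul]
          simp only [mul_assoc]
      _ = x := by rw [ih, hxM]

/-- A scalar power of a determinant-one matrix preserving a non-degenerate form: the scalar is
a `gcd(3, q+1)`-th root of unity. -/
lemma scalar_pow_gcd {σ : F →+* F} (hσq : ∀ x, σ x = x ^ q)
    (M x : Matrix (Fin 3) (Fin 3) F) (hdet : M.det = 1)
    (hx : IsUnit x.det) (hxM : sT σ M * x * M = x) (k : ℕ) (c : F)
    (hc : M ^ k = c • (1 : Matrix (Fin 3) (Fin 3) F)) : c ^ Nat.gcd 3 (q + 1) = 1 := by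
  have hc3 : c ^ 3 = 1 := by
    have h1 := congrArg Matrix.det hc
    rw [Matrix.det_pow, hdet, one_pow, Matrix.det_smul, Matrix.det_one, mul_one,
      Fintype.card_fin] at h1
    exact h1.symm
  have hcq : c ^ (q + 1) = 1 := by
    have h1 := form_pow M x hxM k
    rw [hc, sT_smul, sT_one, Matrix.smul_mul, one_mul, Matrix.mul_smul, mul_one, smul_smul] at h1
    have hx0 : x ≠ 0 := by
      rintro rfl
      rw [Matrix.det_zero] at hx
      exact not_isUnit_zero hx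
    obtain ⟨i, j, hij⟩ : ∃ i j, x i j ≠ 0 := by
      by_contra hcon
      push Not at hcon
      exact hx0 (Matrix.ext hcon)
    have h2 := congrFun (congrFun h1 i) j
    rw [Matrix.smul_apply, smul_eq_mul] at h2
    have h3 : c * σ c = 1 := mul_right_cancel₀ hij (h2.trans (one_mul _).symm)
    rw [pow_succ', ← hσq]
    exact h3
  exact pow_gcd_eq_one.mpr ⟨hc3, hcq⟩

/-- The version with the exact order of the matrix. -/
theorem exists_psu_orderOf_div (hF : Fintype.card F = q ^ 2) {σ : F →+* F}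
    (hσq : ∀ x, σ x = x ^ q) (hσ : ∀ x, σ (σ x) = x) (hne : ∃ c, σ c ≠ c) (p : ℕ)
    [Fact p.Prime] [CharP F p] (M x : Matrix (Fin 3) (Fin 3) F) (hdet : M.det = 1)
    (hx : IsUnit x.det) (hxM : sT σ M * x * M = x) (n₀ K : ℕ)
    (hn₀ : ∀ j : ℕ, M ^ j = 1 ↔ n₀ ∣ j) (hK : n₀ = Nat.gcd 3 (q + 1) * K)
    (hsc : ∃ e : F, M ^ K = e • (1 : Matrix (Fin 3) (Fin 3) F)) :
    ∃ y : Cfsg.PSU 3 F q, orderOf y = K := by
  apply exists_psu_orderOf hF hσq hσ hne p M x hdet hx hxM K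
  intro k
  constructor
  · rintro ⟨c, hc⟩
    have hcd := scalar_pow_gcd hσq M x hdet hx hxM k c hc
    have h4 : M ^ (k * Nat.gcd 3 (q + 1)) = 1 := by
      rw [pow_mul, hc, _root_.smul_pow, one_pow, hcd, one_smul]
    have h5 := (hn₀ _).mp h4
    rw [hK, mul_comm k] at h5
    exact Nat.dvd_of_mul_dvd_mul_left (Nat.gcd_pos_of_pos_left _ (by norm_num)) h5
  · rintro ⟨j, rfl⟩
    obtain ⟨e, he⟩ := hsc
    exact ⟨e ^ j, by rw [pow_mul, he, _root_.smul_pow, one_pow]⟩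

end Generic

section Explicit

variable {F : Type*} [Field F]

lemma sT_of3 (σ : F →+* F) (a b c d e f g h i : F) :
    sT σ !![a, b, c; d, e, f; g, h, i] = !![σ a, σ d, σ g; σ b, σ e, σ h; σ c, σ f, σ i] := by
  ext r s
  fin_cases r <;> fin_cases s <;> simp [sT]

lemma det_of3 (a b c d e f g h i : F) :
    Matrix.det !![a, b, c; d, e, f; g, h, i]
      = a * e * i - a * f * h - b * d * i + b * f * g + c * d * h - c * e * g := by
  rw [Matrix.det_fin_three]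
  simp

lemma diag3_pow (a b c : F) (k : ℕ) :
    !![a, 0, 0; 0, b, 0; 0, 0, c] ^ k = !![a ^ k, 0, 0; 0, b ^ k, 0; 0, 0, c ^ k] := by
  induction k with
  | zero => simp [Matrix.one_fin_three]
  | succ k ih =>
    rw [pow_succ, ih, Matrix.mul_fin_three]
    ext r s
    fin_cases r <;> fin_cases s <;> simp [pow_succ]

lemma jordan3_pow (a c : F) (k : ℕ) :
    !![a, a, 0; 0, a, 0; 0, 0, c] ^ k
      = !![a ^ k, (k : F) * a ^ k, 0; 0, a ^ k, 0; 0, 0, c ^ k] := by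
  induction k with
  | zero => simp [Matrix.one_fin_three]
  | succ k ih =>
    rw [pow_succ, ih, Matrix.mul_fin_three]
    ext r s
    fin_cases r <;> fin_cases s <;> simp [pow_succ] <;> ring

lemma of3_eq_smul_one_iff (a b c d e f g h i x : F) :
    !![a, b, c; d, e, f; g, h, i] = x • (1 : Matrix (Fin 3) (Fin 3) F) ↔
      (a = x ∧ b = 0 ∧ c = 0) ∧ (d = 0 ∧ e = x ∧ f = 0) ∧ (g = 0 ∧ h = 0 ∧ i = x) := by
  constructor
  · intro hh
    have h00 := congrFun (congrFun hh 0) 0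
    have h01 := congrFun (congrFun hh 0) 1
    have h02 := congrFun (congrFun hh 0) 2
    have h10 := congrFun (congrFun hh 1) 0
    have h11 := congrFun (congrFun hh 1) 1
    have h12 := congrFun (congrFun hh 1) 2
    have h20 := congrFun (congrFun hh 2) 0
    have h21 := congrFun (congrFun hh 2) 1
    have h22 := congrFun (congrFun hh 2) 2
    simp at h00 h01 h02 h10 h11 h12 h20 h21 h22
    exact ⟨⟨h00, h01, h02⟩, ⟨h10, h11, h12⟩, ⟨h20, h21, h22⟩⟩
  · rintro ⟨⟨rfl, rfl, rfl⟩, ⟨rfl, rfl, rfl⟩, ⟨rfl, rfl, rfl⟩⟩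
    ext r s
    fin_cases r <;> fin_cases s <;> simp

end Explicit

section Constructions

variable {F : Type*} [Field F] [Fintype F] {q : ℕ}

lemma two_le_q (hF : Fintype.card F = q ^ 2) : 2 ≤ q := by
  have h1 := Fintype.one_lt_card (α := F)
  rw [hF] at h1
  by_contra hcon
  have h2 : q = 0 ∨ q = 1 := by omega
  rcases h2 with h | h <;> rw [h] at h1 <;> omega

lemma p_dvd_q (p : ℕ) [Fact p.Prime] [CharP F p] (hF : Fintype.card F = q ^ 2) : p ∣ q := by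
  obtain ⟨j, hj⟩ := exists_q_eq_pow p hF
  have h2 := two_le_q hF
  have hj0 : j ≠ 0 := by
    rintro rfl
    rw [pow_zero] at hj
    omega
  rw [hj]
  exact dvd_pow_self p hj0

/-- An element of order `q + 1`. -/
theorem exists_psu_order_one (hF : Fintype.card F = q ^ 2) {σ : F →+* F}
    (hσq : ∀ x, σ x = x ^ q) (hσ : ∀ x, σ (σ x) = x) (hne : ∃ c, σ c ≠ c) (p : ℕ)
    [Fact p.Prime] [CharP F p] : ∃ y : Cfsg.PSU 3 F q, orderOf y = q + 1 := by
  obtain ⟨ζ, hζ⟩ := exists_prim_root_q_add_one hF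
  have hζ0 : ζ ≠ 0 := hζ.ne_zero (by omega)
  have hζq : ζ ^ (q + 1) = 1 := hζ.pow_eq_one
  have hs1 : σ ζ * ζ = 1 := by rw [hσq, ← pow_succ, hζq]
  have hs2 : (σ ζ)⁻¹ * ζ⁻¹ = 1 := by rw [← mul_inv, hs1, inv_one]
  apply exists_psu_orderOf hF hσq hσ hne p !![ζ, 0, 0; 0, ζ⁻¹, 0; 0, 0, 1] 1 ?_ ?_ ?_ (q + 1) ?_
  · rw [det_of3]
    simp [hζ0]
  · rw [Matrix.det_one]
    exact isUnit_one
  · rw [mul_one, sT_of3, Matrix.mul_fin_three, Matrix.one_fin_three]
    simp [hs1, hs2]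
  · intro k
    rw [diag3_pow]
    constructor
    · rintro ⟨c, hc⟩
      rw [of3_eq_smul_one_iff] at hc
      obtain ⟨⟨h1, -, -⟩, -, ⟨-, -, h3⟩⟩ := hc
      rw [one_pow] at h3
      rw [← h3] at h1
      exact (hζ.pow_eq_one_iff_dvd k).mp h1
    · rintro ⟨j, rfl⟩
      refine ⟨1, ?_⟩
      rw [of3_eq_smul_one_iff]
      simp [pow_mul, hζq]

/-- An element of order `(q² - 1) / gcd(3, q+1)`. -/
theorem exists_psu_order_three (hF : Fintype.card F = q ^ 2) {σ : F →+* F}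
    (hσq : ∀ x, σ x = x ^ q) (hσ : ∀ x, σ (σ x) = x) (hne : ∃ c, σ c ≠ c) (p : ℕ)
    [Fact p.Prime] [CharP F p] :
    ∃ y : Cfsg.PSU 3 F q, orderOf y = (q ^ 2 - 1) / Nat.gcd 3 (q + 1) := by
  have hq1 := one_le_q hF
  have hq2 := two_le_q hF
  have hq3 : 2 ≤ q ^ 2 - 1 := by nlinarith [Nat.sub_add_cancel (Nat.one_le_pow 2 q hq1)]
  obtain ⟨γ, m, -, -, hm, -, hlam⟩ := exists_gen_root hF (dvd_refl (q ^ 2 - 1))
  obtain ⟨lam, hlamdef⟩ : ∃ lam : F, lam = γ ^ m := ⟨_, rfl⟩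
  rw [← hlamdef] at hlam
  have hlam0 : lam ≠ 0 := hlam.ne_zero (by omega)
  have hlamq2 : lam ^ (q ^ 2) = lam := by
    rw [← hF]
    exact FiniteField.pow_card lam
  obtain ⟨b, hb⟩ : ∃ b : F, b = (lam ^ q)⁻¹ := ⟨_, rfl⟩
  obtain ⟨c, hc⟩ : ∃ c : F, c = (lam * b)⁻¹ := ⟨_, rfl⟩
  have hb0 : b ≠ 0 := by
    rw [hb]
    exact inv_ne_zero (pow_ne_zero _ hlam0)
  have hs1 : σ lam * b = 1 := by rw [hσq, hb, mul_inv_cancel₀ (pow_ne_zero _ hlam0)]
  have hs2 : σ b * lam = 1 := by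
    rw [hσq, hb, inv_pow, ← pow_mul, ← sq, hlamq2, inv_mul_cancel₀ hlam0]
  have hs3 : σ c * c = 1 := by
    rw [hc, map_inv₀, map_mul, ← mul_inv]
    have h1 : σ lam * σ b * (lam * b) = 1 := by
      calc σ lam * σ b * (lam * b) = (σ lam * b) * (σ b * lam) := by ring
        _ = 1 := by rw [hs1, hs2, one_mul]
    rw [h1, inv_one]
  have hdet : lam * b * c = 1 := by
    rw [hc]
    exact mul_inv_cancel₀ (mul_ne_zero hlam0 hb0)
  apply exists_psu_orderOf_div hF hσq hσ hne p !![lam, 0, 0; 0, b, 0; 0, 0, c]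
    !![0, 1, 0; 1, 0, 0; 0, 0, 1] ?_ ?_ ?_ (q ^ 2 - 1) _ ?_ ?_ ?_
  · rw [det_of3]
    simp [hdet]
  · rw [det_of3]
    norm_num
  · rw [sT_of3, Matrix.mul_fin_three, Matrix.mul_fin_three]
    simp [hs1, hs2, hs3]
  · intro j
    rw [diag3_pow, ← one_smul F (1 : Matrix (Fin 3) (Fin 3) F), of3_eq_smul_one_iff]
    constructor
    · rintro ⟨⟨h1, -, -⟩, -, -⟩
      exact (hlam.pow_eq_one_iff_dvd j).mp h1
    · intro hj
      have h1 : lam ^ j = 1 := (hlam.pow_eq_one_iff_dvd j).mpr hj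
      have h2 : b ^ j = 1 := by
        rw [hb, inv_pow, ← pow_mul, mul_comm, pow_mul, h1, one_pow, inv_one]
      have h3 : c ^ j = 1 := by rw [hc, inv_pow, mul_pow, h1, h2, one_mul, inv_one]
      exact ⟨⟨h1, rfl, rfl⟩, ⟨rfl, h2, rfl⟩, ⟨rfl, rfl, h3⟩⟩
  · exact (Nat.mul_div_cancel' ((Nat.gcd_dvd_right 3 (q + 1)).trans (q_add_one_dvd hq1))).symm
  · obtain ⟨d, hd⟩ : ∃ d, d = Nat.gcd 3 (q + 1) := ⟨_, rfl⟩
    rw [← hd]
    have hd3 : d ∣ 3 := hd ▸ Nat.gcd_dvd_left 3 (q + 1)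
    have hdq : d ∣ q + 1 := hd ▸ Nat.gcd_dvd_right 3 (q + 1)
    obtain ⟨K, hK⟩ := hdq.trans (q_add_one_dvd hq1)
    have hd0 : 0 < d := Nat.pos_of_dvd_of_pos hd3 (by norm_num)
    rw [hK, Nat.mul_div_cancel_left K hd0]
    obtain ⟨ω, hω⟩ : ∃ ω : F, ω = lam ^ K := ⟨_, rfl⟩
    have hωd : ω ^ d = 1 := by
      rw [hω, ← pow_mul, mul_comm, ← hK]
      exact hlam.pow_eq_one
    have hω3 : ω ^ 3 = 1 := by
      obtain ⟨t, ht⟩ := hd3
      rw [ht, pow_mul, hωd, one_pow]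
    have hωq : ω ^ (q + 1) = 1 := by
      obtain ⟨t, ht⟩ := hdq
      rw [ht, pow_mul, hωd, one_pow]
    have hbK : b ^ K = ω := by
      rw [hb, inv_pow, ← pow_mul, mul_comm q K, pow_mul, ← hω, inv_eq_iff_eq_inv]
      exact eq_inv_of_mul_eq_one_left (by rw [← pow_succ, hωq])
    have hcK : c ^ K = ω := by
      rw [hc, inv_pow, mul_pow, ← hω, hbK, inv_eq_iff_eq_inv]
      exact eq_inv_of_mul_eq_one_left (by rw [← hω3]; ring)
    refine ⟨ω, ?_⟩
    rw [diag3_pow, of3_eq_smul_one_iff]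
    exact ⟨⟨hω.symm, rfl, rfl⟩, ⟨rfl, hbK, rfl⟩, ⟨rfl, rfl, hcK⟩⟩

/-- An element of order `p (q + 1) / gcd(3, q+1)`. -/
theorem exists_psu_order_two (hF : Fintype.card F = q ^ 2) {σ : F →+* F}
    (hσq : ∀ x, σ x = x ^ q) (hσ : ∀ x, σ (σ x) = x) (hne : ∃ c, σ c ≠ c) (p : ℕ)
    [Fact p.Prime] [CharP F p] :
    ∃ y : Cfsg.PSU 3 F q, orderOf y = p * (q + 1) / Nat.gcd 3 (q + 1) := by
  have hpp : p.Prime := Fact.out
  have hpq : p ∣ q := p_dvd_q p hF
  have hcop : Nat.Coprime p (q + 1) := by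
    rw [Nat.Prime.coprime_iff_not_dvd hpp]
    intro h
    have h1 := (Nat.dvd_add_right hpq).mp h
    exact hpp.one_lt.ne' (Nat.dvd_one.mp h1)
  obtain ⟨a, ha⟩ := exists_prim_root_q_add_one hF
  have ha0 : a ≠ 0 := ha.ne_zero (by omega)
  have haq : a ^ (q + 1) = 1 := ha.pow_eq_one
  obtain ⟨c, hc⟩ : ∃ c : F, c = (a * a)⁻¹ := ⟨_, rfl⟩
  have hs1 : σ a * a = 1 := by rw [hσq, ← pow_succ, haq]
  have hs3 : σ c * c = 1 := by
    rw [hc, map_inv₀, map_mul, ← mul_inv]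
    have h1 : σ a * σ a * (a * a) = 1 := by
      calc σ a * σ a * (a * a) = (σ a * a) * (σ a * a) := by ring
        _ = 1 := by rw [hs1, one_mul]
    rw [h1, inv_one]
  have hdet : a * a * c = 1 := by
    rw [hc]
    exact mul_inv_cancel₀ (mul_ne_zero ha0 ha0)
  have hcj : ∀ j : ℕ, a ^ j = 1 → c ^ j = 1 := by
    intro j hj
    rw [hc, inv_pow, mul_pow, hj, one_mul, inv_one]
  apply exists_psu_orderOf_div hF hσq hσ hne p !![a, a, 0; 0, a, 0; 0, 0, c]
    !![0, 1, 0; -1, 0, 0; 0, 0, 1] ?_ ?_ ?_ (p * (q + 1)) _ ?_ ?_ ?_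
  · rw [det_of3]
    simp [hdet]
  · rw [det_of3]
    norm_num
  · rw [sT_of3, Matrix.mul_fin_three, Matrix.mul_fin_three]
    simp [hs1, hs3]
  · intro j
    rw [jordan3_pow, ← one_smul F (1 : Matrix (Fin 3) (Fin 3) F), of3_eq_smul_one_iff]
    constructor
    · rintro ⟨⟨h1, h2, -⟩, -, -⟩
      rw [h1, mul_one] at h2
      have h3 : p ∣ j := (CharP.cast_eq_zero_iff F p j).mp h2
      have h4 : q + 1 ∣ j := (ha.pow_eq_one_iff_dvd j).mp h1
      exact hcop.mul_dvd_of_dvd_of_dvd h3 h4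
    · intro hj
      have h1 : a ^ j = 1 := (ha.pow_eq_one_iff_dvd j).mpr ((dvd_mul_left _ _).trans hj)
      have h2 : (j : F) = 0 :=
        (CharP.cast_eq_zero_iff F p j).mpr ((dvd_mul_right _ _).trans hj)
      exact ⟨⟨h1, by rw [h2, zero_mul], rfl⟩, ⟨rfl, h1, rfl⟩, ⟨rfl, rfl, hcj j h1⟩⟩
  · exact (Nat.mul_div_cancel' ((Nat.gcd_dvd_right 3 (q + 1)).trans (dvd_mul_left _ _))).symm
  · obtain ⟨d, hd⟩ : ∃ d, d = Nat.gcd 3 (q + 1) := ⟨_, rfl⟩
    rw [← hd]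
    have hd3 : d ∣ 3 := hd ▸ Nat.gcd_dvd_left 3 (q + 1)
    have hdq : d ∣ q + 1 := hd ▸ Nat.gcd_dvd_right 3 (q + 1)
    obtain ⟨K, hK⟩ := hdq
    have hd0 : 0 < d := Nat.pos_of_dvd_of_pos hd3 (by norm_num)
    have e1 : p * (q + 1) / d = p * K := by
      rw [hK, mul_left_comm, Nat.mul_div_cancel_left _ hd0]
    rw [e1]
    obtain ⟨ω, hω⟩ : ∃ ω : F, ω = a ^ K := ⟨_, rfl⟩
    have hωd : ω ^ d = 1 := by
      rw [hω, ← pow_mul, mul_comm, ← hK]
      exact haq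
    have hω3 : ω ^ 3 = 1 := by
      obtain ⟨t, ht⟩ := hd3
      rw [ht, pow_mul, hωd, one_pow]
    have hcK : c ^ K = ω := by
      rw [hc, inv_pow, mul_pow, ← hω, inv_eq_iff_eq_inv]
      exact eq_inv_of_mul_eq_one_left (by rw [← hω3]; ring)
    refine ⟨ω ^ p, ?_⟩
    rw [jordan3_pow, of3_eq_smul_one_iff]
    have h1 : a ^ (p * K) = ω ^ p := by rw [mul_comm, pow_mul, ← hω]
    have h2 : c ^ (p * K) = ω ^ p := by rw [mul_comm, pow_mul, hcK]
    have h3 : ((p * K : ℕ) : F) = 0 :=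
      (CharP.cast_eq_zero_iff F p _).mpr (dvd_mul_right _ _)
    exact ⟨⟨h1, by rw [h3, zero_mul], rfl⟩, ⟨rfl, h1, rfl⟩, ⟨rfl, rfl, h2⟩⟩

end Constructions

section DualRoot

variable {F : Type*} [Field F] {q : ℕ}

/-- The inverse `q`-th power of a root is a root of the dual polynomial. -/
lemma aeval_dualP_inv_pow {L : Type*} [Field L] [Algebra F L] {σ : F →+* F} (g : F[X])
    (lam : L) (hlam0 : lam ≠ 0) (hlam : aeval lam g = 0)
    (hfrob : ∀ (x : L) (P : F[X]), aeval (x ^ q) (P.map σ) = (aeval x P) ^ q) (hq : q ≠ 0) :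
    aeval ((lam ^ q)⁻¹) (dualP σ g) = 0 := by
  have hx0 : lam ^ q ≠ 0 := pow_ne_zero _ hlam0
  have h1 : aeval (lam ^ q) (g.map σ) = 0 := by rw [hfrob, hlam, zero_pow hq]
  have : Invertible (lam ^ q) := invertibleOfNonzero hx0
  have h2 := eval₂_reverse_mul_pow (algebraMap F L) (lam ^ q) (g.map σ)
  rw [← aeval_def, ← aeval_def, h1, invOf_eq_inv] at h2
  have h3 : aeval ((lam ^ q)⁻¹) (g.map σ).reverse = 0 := by
    rcases mul_eq_zero.mp h2 with h | h
    · exact h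
    · exact absurd h (pow_ne_zero _ hx0)
  unfold dualP
  rw [map_mul, h3, mul_zero]

end DualRoot

section Irred

universe u

variable {F : Type u} [Field F] [Fintype F] {q : ℕ}

/-- A self-dual irreducible cubic whose roots have order `q² - q + 1`. -/
theorem exists_selfdual_cubic (p : ℕ) [Fact p.Prime] [CharP F p] (hp : p ≠ 2)
    (hF : Fintype.card F = q ^ 2) {σ : F →+* F} (hσq : ∀ x, σ x = x ^ q)
    (hσ : ∀ x, σ (σ x) = x) :
    ∃ g : F[X], g.Monic ∧ Irreducible g ∧ g.natDegree = 3 ∧ g.coeff 0 = -1 ∧ dualP σ g = g ∧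
      ∀ j : ℕ, g ∣ X ^ j - 1 ↔ (q ^ 2 - q + 1) ∣ j := by
  have hpp : p.Prime := Fact.out
  have hq2 := two_le_q hF
  have hpq := p_dvd_q p hF
  have hq3 : 3 ≤ q := by
    have h1 := Nat.le_of_dvd (by omega) hpq
    have h2 := hpp.two_le
    omega
  obtain ⟨t, rfl⟩ : ∃ t, q = t + 3 := ⟨q - 3, by omega⟩
  obtain ⟨N₀, hN₀⟩ : ∃ N₀, N₀ = (t + 3) ^ 2 - (t + 3) + 1 := ⟨_, rfl⟩
  have hN₀' : N₀ = (t + 3) * (t + 2) + 1 := by
    rw [hN₀]
    congr 1
    exact Nat.sub_eq_of_eq_add (by ring)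
  rw [← hN₀]
  have hNF : (N₀ : F) ≠ 0 := by
    rw [Ne, CharP.cast_eq_zero_iff F p N₀, hN₀']
    intro h
    have h1 : p ∣ 1 := (Nat.dvd_add_right (hpq.mul_right (t + 2))).mp h
    exact hpp.one_lt.ne' (Nat.dvd_one.mp h1)
  have hN0 : 0 < N₀ := by rw [hN₀']; omega
  have hcyc : ¬ IsUnit (cyclotomic N₀ F) := by
    apply not_isUnit_of_natDegree_pos
    rw [natDegree_cyclotomic]
    exact Nat.totient_pos.mpr hN0
  obtain ⟨g, hgm, hgi, hgdvd⟩ := exists_monic_irreducible_factor _ hcyc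
  obtain ⟨L, _, _, _, lam, hroot, hconj, hfrobdeg, hnorm, hinjq, hfrob⟩ :=
    root_field_data p hF g hgm hgi
  have hNL : NeZero ((N₀ : ℕ) : L) := by
    constructor
    rw [← map_natCast (algebraMap F L)]
    exact (map_ne_zero (algebraMap F L)).mpr hNF
  have hlam : IsPrimitiveRoot lam N₀ := by
    have h1 : aeval lam (cyclotomic N₀ F) = 0 := (hroot _).mpr hgdvd
    rw [aeval_def, eval₂_eq_eval_map, map_cyclotomic] at h1
    exact isRoot_cyclotomic_iff.mp h1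
  have hlam0 : lam ≠ 0 := hlam.ne_zero hN0.ne'
  have hlamN : lam ^ N₀ = 1 := hlam.pow_eq_one
  have hlam3 : lam ^ ((t + 3) ^ 3) * lam = 1 := by
    rw [← pow_succ]
    have h1 : (t + 3) ^ 3 + 1 = N₀ * (t + 4) := by rw [hN₀']; ring
    rw [h1, pow_mul, hlamN, one_pow]
  have hlam3' : lam ^ ((t + 3) ^ 3) = lam⁻¹ := eq_inv_of_mul_eq_one_left hlam3
  have hcardF : Nat.card F = (t + 3) ^ 2 := by rw [Nat.card_eq_fintype_card, hF]
  have hlam6 : lam ^ (((t + 3) ^ 2) ^ 3) = lam := by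
    have h1 : ((t + 3) ^ 2) ^ 3 = (t + 3) ^ 3 * (t + 3) ^ 3 := by ring
    rw [h1, pow_mul, hlam3', inv_pow, hlam3', inv_inv]
  have hdeg3 : g.natDegree ∣ 3 := by
    apply hgi.natDegree_dvd_of_dvd_X_pow_card_pow_sub_X
    apply (hroot _).mp
    rw [map_sub, map_pow, aeval_X, hcardF, hlam6, sub_self]
  have hdeg : g.natDegree = 3 := by
    rcases (Nat.dvd_prime Nat.prime_three).mp hdeg3 with h1 | h3
    · exfalso
      have h2 := hgm.eq_X_add_C h1
      have h3 : aeval lam g = 0 := (hroot g).mpr dvd_rfl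
      rw [h2, map_add, aeval_X, aeval_C] at h3
      have h4 : lam = algebraMap F L (-(g.coeff 0)) := by
        rw [map_neg]
        exact eq_neg_of_add_eq_zero_left h3
      have h5 : lam ^ ((t + 3) ^ 2) = lam := by
        rw [h4, ← map_pow, ← hF, FiniteField.pow_card]
      have h6 : lam ^ (t + 1) = 1 := by
        have h7 : (t + 3) ^ 2 = N₀ + (t + 1) + 1 := by rw [hN₀']; ring
        rw [h7, pow_succ, pow_add, hlamN, one_mul] at h5
        exact mul_right_cancel₀ hlam0 (h5.trans (one_mul lam).symm)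
      have h8 := (hlam.pow_eq_one_iff_dvd _).mp h6
      have h9 := Nat.le_of_dvd (by omega) h8
      rw [hN₀'] at h9
      nlinarith
    · exact h3
  have hc0 : g.coeff 0 = -1 := by
    rw [hdeg] at hnorm
    have h5 : ∑ i ∈ Finset.range 3, ((t + 3) ^ 2) ^ i = N₀ * ((t + 3) ^ 2 + (t + 3) + 1) := by
      rw [Finset.sum_range_succ, Finset.sum_range_succ, Finset.sum_range_one, hN₀']
      ring
    rw [h5, pow_mul, hlamN, one_pow] at hnorm
    have h6 : (-1 : F) ^ 3 * g.coeff 0 = 1 :=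
      (algebraMap F L).injective (by rw [hnorm, map_one])
    linear_combination -h6
  have hg0 : g.coeff 0 ≠ 0 := by
    rw [hc0]
    exact neg_ne_zero.mpr one_ne_zero
  have hdual : dualP σ g = g := by
    obtain ⟨hDm, hDd, -, -⟩ := dualP_props p hσ g hgm hg0
    have h1 : aeval ((lam ^ (t + 3))⁻¹) (dualP σ g) = 0 :=
      aeval_dualP_inv_pow g lam hlam0 ((hroot g).mpr dvd_rfl) (hfrob σ hσq) (by omega)
    have h2 : ∀ (x : L) (P : F[X]),
        aeval ((x ^ (t + 3)) ^ (t + 3)) P = ((aeval x P) ^ (t + 3)) ^ (t + 3) := by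
      intro x P
      have h3 := hfrob σ hσq (x ^ (t + 3)) (P.map σ)
      rw [hfrob σ hσq x P, Polynomial.map_map] at h3
      have h4 : σ.comp σ = RingHom.id F := RingHom.ext hσ
      rw [h4, Polynomial.map_id] at h3
      exact h3
    have h3 := h2 ((lam ^ (t + 3))⁻¹) (dualP σ g)
    rw [h1, zero_pow (by omega), zero_pow (by omega)] at h3
    have h4 : (((lam ^ (t + 3))⁻¹) ^ (t + 3)) ^ (t + 3) = lam := by
      rw [inv_pow, inv_pow, ← pow_mul, ← pow_mul]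
      have h5 : (t + 3) * ((t + 3) * (t + 3)) = (t + 3) ^ 3 := by ring
      rw [h5, hlam3', inv_inv]
    rw [h4] at h3
    have h5 : g ∣ dualP σ g := (hroot _).mp h3
    exact eq_of_monic_of_dvd_of_natDegree_le hgm hDm h5 (le_of_eq hDd)
  refine ⟨g, hgm, hgi, hdeg, hc0, hdual, fun j => ?_⟩
  rw [← hroot, map_sub, map_pow, aeval_X, map_one, sub_eq_zero]
  exact hlam.pow_eq_one_iff_dvd j

/-- An element of order `(q² - q + 1) / gcd(3, q+1)`. -/
theorem exists_psu_order_four (p : ℕ) [Fact p.Prime] [CharP F p] (hp : p ≠ 2)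
    (hF : Fintype.card F = q ^ 2) {σ : F →+* F} (hσq : ∀ x, σ x = x ^ q)
    (hσ : ∀ x, σ (σ x) = x) (hne : ∃ c, σ c ≠ c) :
    ∃ y : Cfsg.PSU 3 F q, orderOf y = (q ^ 2 - q + 1) / Nat.gcd 3 (q + 1) := by
  obtain ⟨g, hgm, hgi, hdeg, hc0, hdual, hord⟩ := exists_selfdual_cubic p hp hF hσq hσ
  obtain ⟨M, hM, k, hk, hkp, hMk⟩ := exists_matrix_coeffVec p (fun j : Fin 3 => g.coeff j)
    (fun _ => by
      show g.coeff 0 ≠ 0
      rw [hc0]
      exact neg_ne_zero.mpr one_ne_zero)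
  have hMc : M.charpoly = g :=
    eq_of_monic_of_coeff_eq (Matrix.charpoly_monic M) hgm
      (by rw [Matrix.charpoly_natDegree_eq_dim, Fintype.card_fin]) hdeg
      (fun i hi => congrFun hM ⟨i, hi⟩)
  have hdet : M.det = 1 := by
    have h1 := charpoly_coeff_zero M
    rw [hMc, hc0] at h1
    linear_combination h1
  obtain ⟨Mi, hMi⟩ : ∃ Mi : Matrix (Fin 3) (Fin 3) F, Mi = M ^ (k - 1) := ⟨_, rfl⟩
  have hMMi : M * Mi = 1 := by rw [hMi, ← pow_succ', Nat.sub_add_cancel hk, hMk]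
  have hMiM : Mi * M = 1 := by rw [hMi, ← pow_succ, Nat.sub_add_cancel hk, hMk]
  obtain ⟨N, hN⟩ : ∃ N : Matrix (Fin 3) (Fin 3) F, N = sT σ Mi := ⟨_, rfl⟩
  have hNk : N ^ k = 1 := by
    rw [hN, ← sT_pow, hMi, ← pow_mul, mul_comm, pow_mul, hMk, one_pow, sT_one]
  have hNinv : N = (sT σ M)⁻¹ := by
    symm
    apply Matrix.inv_eq_right_inv
    rw [hN, ← sT_mul, hMiM, sT_one]
  have hNc : N.charpoly = M.charpoly := by
    rw [hNinv, charpoly_sT_inv M (by rw [hdet]; exact isUnit_one), hMc, hdual]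
  have hkF : (k : F) ≠ 0 := natCast_ne_zero_of_coprime p hkp
  have hMs := isSemisimple_toLin'_of_pow_eq_one M k hkF hMk
  have hNs := isSemisimple_toLin'_of_pow_eq_one N k hkF hNk
  obtain ⟨P, hPdet, hPM⟩ := exists_conj_matrix M N hMs hNs hNc.symm
  have hkey : sT σ M * P * M = P := by
    rw [mul_assoc, hPM, ← mul_assoc, hN, ← sT_mul, hMiM, sT_one, one_mul]
  apply exists_psu_orderOf_div hF hσq hσ hne p M P hdet hPdet hkey (q ^ 2 - q + 1) _ ?_ ?_ ?_
  · intro j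
    rw [← hord j]
    constructor
    · intro hj
      by_contra hndvd
      have hcop : IsCoprime g (X ^ j - 1) := (hgi.coprime_iff_not_dvd).mpr hndvd
      obtain ⟨u, v, huv⟩ := hcop
      have h1 := congrArg (aeval M) huv
      rw [map_add, map_mul, map_mul, ← hMc, Matrix.aeval_self_charpoly, mul_zero, zero_add,
        map_sub, map_pow, aeval_X, map_one, hj, sub_self, mul_zero] at h1
      exact zero_ne_one h1
    · intro hj
      have h2 := aeval_eq_zero_of_charpoly_dvd M (X ^ j - C 1) (by rw [hMc, C_1]; exact hj)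
      rw [aeval_X_pow_sub_C, one_smul] at h2
      exact sub_eq_zero.mp h2
  · symm
    apply Nat.mul_div_cancel'
    rcases gcd_three_cases q with hd | hd
    · rw [hd]
      exact one_dvd _
    · rw [hd]
      exact three_dvd_sq_sub_add (hd ▸ Nat.gcd_dvd_right 3 (q + 1))
  · exact irreducible_cubic_scalar_pow hF M (by rw [hMc]; exact hgi)
      (by rw [hMc]; exact (hord _).mpr dvd_rfl)

end Irred

end Cfsg.Agent.Lib.Helper47
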