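import Mathlib
import Cfsg.Agent.Lib.Helper47.SylowGL
import Cfsg.Agent.Lib.Helper47.ClassicalEmb
import Cfsg.Agent.S0245

set_option autoImplicit false

namespace Cfsg.Agent.Lib.Helper47

open Finset

section nt2

variable (q r : ℕ) [hr : Fact r.Prime]

/-- `v_r(q^j - 1)` when `r ∤ j`. -/
theorem padicVal_pow_sub_one_of_not_dvd (hq : 2 ≤ q) (j : ℕ) (hj : 0 < j) (hjr : ¬ r ∣ j) :
    padicValNat r (q ^ j - 1) = if orderOf (q : ZMod r) ∣ j then
      padicValNat r (q ^ orderOf (q : ZMod r) - 1) else 0 := by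
  split_ifs with hd
  · obtain ⟨k, rfl⟩ := hd
    obtain ⟨d, hd⟩ : ∃ d, d = orderOf (q : ZMod r) := ⟨_, rfl⟩
    rw [← hd] at hj hjr ⊢
    have hk : 0 < k := by
      rcases Nat.eq_zero_or_pos k with h0 | h0
      · rw [h0] at hj
        simp at hj
      · exact h0
    have hd0 : 0 < d := by
      rcases Nat.eq_zero_or_pos d with h0 | h0
      · rw [h0] at hj
        simp at hj
      · exact h0
    have hqd : 2 ≤ q ^ d := le_trans hq (Nat.le_self_pow hd0.ne' q)
    have hgeo : (∑ i ∈ range k, (q ^ d - 1 + 1) ^ i) * (q ^ d - 1) + 1 = (q ^ d - 1 + 1) ^ k :=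
      geom_sum_mul_add (q ^ d - 1) k
    have h1 : q ^ d - 1 + 1 = q ^ d := by omega
    rw [h1] at hgeo
    have hS : q ^ (d * k) - 1 = (∑ i ∈ range k, (q ^ d) ^ i) * (q ^ d - 1) := by
      rw [pow_mul]
      omega
    have hSr : ¬ r ∣ ∑ i ∈ range k, (q ^ d) ^ i := by
      rw [← ZMod.natCast_eq_zero_iff]
      push_cast
      have hone : (q : ZMod r) ^ d = 1 := by
        rw [hd]
        exact pow_orderOf_eq_one _
      simp only [hone, one_pow, sum_const, card_range, nsmul_eq_mul, mul_one]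
      rw [ZMod.natCast_eq_zero_iff]
      intro hdvd
      exact hjr (dvd_mul_of_dvd_right hdvd d)
    have hS0 : (∑ i ∈ range k, (q ^ d) ^ i) ≠ 0 := by
      intro h0
      apply hSr
      rw [h0]
      exact dvd_zero r
    rw [hS, padicValNat.mul hS0 (by omega), padicValNat.eq_zero_of_not_dvd hSr, zero_add]
  · apply padicValNat.eq_zero_of_not_dvd
    rw [dvd_pow_sub_one_iff q r (by omega)]
    exact hd

/-- `v_r(q^j - 1)` when `j < d r`. -/
theorem padicVal_pow_sub_one_of_lt (hq : 2 ≤ q) (hrq : ¬ r ∣ q) (j : ℕ) (hj : 0 < j)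
    (hjr : j < orderOf (q : ZMod r) * r) :
    padicValNat r (q ^ j - 1) = if orderOf (q : ZMod r) ∣ j then
      padicValNat r (q ^ orderOf (q : ZMod r) - 1) else 0 := by
  by_cases hrj : r ∣ j
  · have hd0 := orderOf_zmod_pos q r hrq
    have hdr : orderOf (q : ZMod r) ∣ r - 1 :=
      ZMod.orderOf_dvd_card_sub_one (natCast_ne_zero_of_not_dvd q r hrq)
    have hcop : Nat.Coprime (orderOf (q : ZMod r)) r := by
      rw [Nat.coprime_comm, Nat.Prime.coprime_iff_not_dvd hr.out]
      intro h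
      have h1 := Nat.le_of_dvd hd0 h
      have h2 := Nat.le_of_dvd (by have := hr.out.two_le; omega) hdr
      omega
    have hnd : ¬ orderOf (q : ZMod r) ∣ j := by
      intro hdj
      have := Nat.le_of_dvd hj (hcop.mul_dvd_of_dvd_of_dvd hdj hrj)
      omega
    rw [if_neg hnd]
    apply padicValNat.eq_zero_of_not_dvd
    rw [dvd_pow_sub_one_iff q r (by omega)]
    exact hnd
  · exact padicVal_pow_sub_one_of_not_dvd q r hq j hj hrj

end nt2

open Matrix

/-- The `r`-part of `|GL_n(q)|` when `n < d r`. -/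
theorem factorization_card_GL_of_lt (r : ℕ) [hr : Fact r.Prime] (F : Type*) [Field F]
    [Fintype F] (n : ℕ)
    (hn : n < orderOf ((Fintype.card F : ℕ) : ZMod r) * r) (hrq : ¬ r ∣ Fintype.card F) :
    (Nat.card (GL (Fin n) F)).factorization r
      = (n / orderOf ((Fintype.card F : ℕ) : ZMod r)) *
        padicValNat r (Fintype.card F ^ orderOf ((Fintype.card F : ℕ) : ZMod r) - 1) := by
  obtain ⟨q, hq⟩ : ∃ q, q = Fintype.card F := ⟨_, rfl⟩
  have hq2 : 2 ≤ q := by
    rw [hq]
    exact Fintype.one_lt_card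
  rw [← hq] at hrq hn ⊢
  rw [Matrix.card_GL_field, ← hq]
  have hne : ∀ i ∈ (Finset.univ : Finset (Fin n)), q ^ n - q ^ (i : ℕ) ≠ 0 := by
    intro i _
    have : q ^ (i : ℕ) < q ^ n := Nat.pow_lt_pow_right (by omega) i.2
    omega
  rw [Nat.factorization_prod hne]
  simp only [Finsupp.coe_finsetSum, Finset.sum_apply]
  have hterm : ∀ i : Fin n, (q ^ n - q ^ (i : ℕ)).factorization r
      = if orderOf (q : ZMod r) ∣ (n - 1 - (i : ℕ)) + 1 then
        padicValNat r (q ^ orderOf (q : ZMod r) - 1) else 0 := by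
    intro i
    have hi : (i : ℕ) < n := i.2
    have hsplit : q ^ n - q ^ (i : ℕ) = q ^ (i : ℕ) * (q ^ (n - (i : ℕ)) - 1) := by
      rw [Nat.mul_sub, mul_one, ← pow_add]
      congr 2
      omega
    have h1 : q ^ (i : ℕ) ≠ 0 := by positivity
    have h2 : q ^ (n - (i : ℕ)) - 1 ≠ 0 := by
      have : 2 ≤ q ^ (n - (i : ℕ)) := le_trans hq2 (Nat.le_self_pow (by omega) q)
      omega
    rw [hsplit, Nat.factorization_mul h1 h2, Finsupp.add_apply, Nat.factorization_def _ hr.out,
      Nat.factorization_def _ hr.out]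
    have h3 : padicValNat r (q ^ (i : ℕ)) = 0 := by
      apply padicValNat.eq_zero_of_not_dvd
      intro hdvd
      exact hrq (hr.out.dvd_of_dvd_pow hdvd)
    rw [h3, zero_add, padicVal_pow_sub_one_of_lt q r hq2 hrq (n - (i : ℕ)) (by omega) (by omega)]
    have : n - (i : ℕ) = n - 1 - (i : ℕ) + 1 := by omega
    rw [this]
  simp only [hterm]
  rw [Fin.sum_univ_eq_sum_range (fun i => if orderOf (q : ZMod r) ∣ (n - 1 - i) + 1 then
        padicValNat r (q ^ orderOf (q : ZMod r) - 1) else 0) n]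
  rw [Finset.sum_range_reflect (fun k => if orderOf (q : ZMod r) ∣ k + 1 then
        padicValNat r (q ^ orderOf (q : ZMod r) - 1) else 0) n]
  rw [← Finset.sum_filter, Finset.sum_const, Nat.card_multiples, smul_eq_mul]

/-- Sylow `r`-subgroups of `GL_n(q)` for `n < d r`, `r ∤ q`. -/
theorem sylow_GL_homocyclic_of_lt {F : Type*} [Field F] [Fintype F] (n : ℕ)
    (r : ℕ) [Fact r.Prime] (hrn : n < orderOf ((Fintype.card F : ℕ) : ZMod r) * r)
    (hrq : ¬ r ∣ Fintype.card F)
    (P : Sylow r (GL (Fin n) F)) :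
    Nonempty (↥(P : Subgroup (GL (Fin n) F)) ≃*
      (Fin (n / orderOf ((Fintype.card F : ℕ) : ZMod r)) →
        Multiplicative (ZMod (r ^ padicValNat r ((Polynomial.cyclotomic
          (orderOf ((Fintype.card F : ℕ) : ZMod r)) ℤ).eval ((Fintype.card F : ℕ) : ℤ)).natAbs)))) := by
  classical
  have hq2 : 2 ≤ Fintype.card F := Fintype.one_lt_card
  have hd0 := orderOf_zmod_pos (Fintype.card F) r hrq
  have hfac := factorization_card_GL_of_lt r F n hrn hrq
  rw [← padicVal_cyclotomic (Fintype.card F) r hq2 hrq] at hfac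
  have hdvd : r ^ padicValNat r ((Polynomial.cyclotomic
      (orderOf ((Fintype.card F : ℕ) : ZMod r)) ℤ).eval ((Fintype.card F : ℕ) : ℤ)).natAbs
      ∣ Fintype.card F ^ orderOf ((Fintype.card F : ℕ) : ZMod r) - 1 := by
    rw [padicVal_cyclotomic (Fintype.card F) r hq2 hrq]
    exact pow_padicValNat_dvd
  obtain ⟨f, hf⟩ := exists_torus_embedding F (orderOf ((Fintype.card F : ℕ) : ZMod r))
    (n / orderOf ((Fintype.card F : ℕ) : ZMod r)) n _ hd0 (Nat.div_mul_le_self _ _) hdvd
  have hH : Nat.card f.range = r ^ (Nat.card (GL (Fin n) F)).factorization r := by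
    rw [← Nat.card_congr (MonoidHom.ofInjective hf).toEquiv, Nat.card_fun, hfac]
    have h1 : Nat.card (Multiplicative (ZMod (r ^ padicValNat r ((Polynomial.cyclotomic
      (orderOf ((Fintype.card F : ℕ) : ZMod r)) ℤ).eval ((Fintype.card F : ℕ) : ℤ)).natAbs)))
        = r ^ padicValNat r ((Polynomial.cyclotomic
      (orderOf ((Fintype.card F : ℕ) : ZMod r)) ℤ).eval ((Fintype.card F : ℕ) : ℤ)).natAbs :=
      Nat.card_zmod _
    rw [h1, Nat.card_eq_fintype_card, Fintype.card_fin, ← pow_mul, mul_comm]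
  exact ⟨(Sylow.equiv P (Sylow.ofCard f.range hH)).trans (MonoidHom.ofInjective hf).symm⟩

/-- The `r`-part of `|Sp_{2n}(q)|` for odd `r > n`, `r ∤ q`. -/
theorem factorization_card_Sp (r : ℕ) [hr : Fact r.Prime] (hr2 : r ≠ 2) (F : Type*) [Field F]
    [Fintype F] (n : ℕ) (hn : n < r) (hrq : ¬ r ∣ Fintype.card F) :
    (Nat.card (Matrix.symplecticGroup (Fin n) F)).factorization r
      = ((Finset.Icc 1 n).filter
          (fun i => orderOf ((Fintype.card F : ℕ) : ZMod r) ∣ 2 * i)).card *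
        padicValNat r (Fintype.card F ^ orderOf ((Fintype.card F : ℕ) : ZMod r) - 1) := by
  classical
  obtain ⟨q, hq⟩ : ∃ q, q = Fintype.card F := ⟨_, rfl⟩
  have hq2 : 2 ≤ q := by
    rw [hq]
    exact Fintype.one_lt_card
  rw [← hq] at hrq ⊢
  rw [Cfsg.Agent.S0245.result hq.symm n]
  have hne : ∀ i ∈ Finset.range n, q ^ (2 * (i + 1)) - 1 ≠ 0 := by
    intro i _
    have : 2 ≤ q ^ (2 * (i + 1)) := le_trans hq2 (Nat.le_self_pow (by omega) q)
    omega
  have h1 : q ^ (n ^ 2) ≠ 0 := by positivity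
  have h2 : ∏ i ∈ Finset.range n, (q ^ (2 * (i + 1)) - 1) ≠ 0 := Finset.prod_ne_zero_iff.mpr hne
  rw [Nat.factorization_mul h1 h2, Finsupp.add_apply, Nat.factorization_prod hne]
  simp only [Finsupp.coe_finsetSum, Finset.sum_apply]
  have h3 : (q ^ (n ^ 2)).factorization r = 0 := by
    rw [Nat.factorization_def _ hr.out]
    apply padicValNat.eq_zero_of_not_dvd
    intro hdvd
    exact hrq (hr.out.dvd_of_dvd_pow hdvd)
  rw [h3, zero_add]
  have hterm : ∀ i ∈ Finset.range n, (q ^ (2 * (i + 1)) - 1).factorization r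
      = if orderOf (q : ZMod r) ∣ 2 * (i + 1) then
        padicValNat r (q ^ orderOf (q : ZMod r) - 1) else 0 := by
    intro i hi
    rw [Finset.mem_range] at hi
    rw [Nat.factorization_def _ hr.out]
    apply padicVal_pow_sub_one_of_not_dvd q r hq2 (2 * (i + 1)) (by omega)
    intro hdvd
    rcases (Nat.Prime.dvd_mul hr.out).mp hdvd with h | h
    · have := (Nat.prime_dvd_prime_iff_eq hr.out Nat.prime_two).mp h
      exact hr2 this
    · have := Nat.le_of_dvd (by omega) h
      omega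
  rw [Finset.sum_congr rfl hterm, ← Finset.sum_filter, Finset.sum_const, smul_eq_mul]
  congr 1
  apply Finset.card_bij (fun i _ => i + 1)
  · intro i hi
    simp only [Finset.mem_filter, Finset.mem_range, Finset.mem_Icc] at hi ⊢
    exact ⟨by omega, hi.2⟩
  · intro i _ j _ h
    omega
  · intro j hj
    simp only [Finset.mem_filter, Finset.mem_range, Finset.mem_Icc] at hj ⊢
    refine ⟨j - 1, ⟨by omega, ?_⟩, by omega⟩
    have : j - 1 + 1 = j := by omega
    rw [this]
    exact hj.2

/-- The inclusion `Sp_{2n}(F) → GL_{2n}(F)`. -/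
noncomputable def spToGL (n : ℕ) (F : Type*) [Field F] :
    ↥(Matrix.symplecticGroup (Fin n) F) →* GL (Fin (2 * n)) F :=
  (((Matrix.reindexAlgEquiv F F
      (Fintype.equivOfCardEq (α := Fin n ⊕ Fin n) (β := Fin (2 * n)) (by
        simp only [Fintype.card_sum, Fintype.card_fin]
        omega)) : _ →* _)).comp (Matrix.symplecticGroup (Fin n) F).subtype).toHomUnits

theorem spToGL_injective (n : ℕ) (F : Type*) [Field F] :
    Function.Injective (spToGL n F) := by
  intro x y hxy
  have h1 := congrArg (fun g : GL (Fin (2 * n)) F => (g : Matrix (Fin (2 * n)) (Fin (2 * n)) F)) hxy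
  simp only [spToGL, MonoidHom.coe_toHomUnits, MonoidHom.coe_comp, Function.comp_apply] at h1
  apply Subtype.ext
  exact (Matrix.reindexAlgEquiv F F _).injective h1

/-- Sylow `r`-subgroups of `Sp_{2n}(q)` for odd `r > n`, `r ∤ q`. -/
theorem sylow_Sp_homocyclic {F : Type*} [Field F] [Fintype F] (n : ℕ)
    (r : ℕ) [hr : Fact r.Prime] (hr2 : r ≠ 2) (hrn : n < r) (hrq : ¬ r ∣ Fintype.card F)
    (P : Sylow r ↥(Matrix.symplecticGroup (Fin n) F)) :
    Nonempty (↥(P : Subgroup ↥(Matrix.symplecticGroup (Fin n) F)) ≃*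
      (Fin ((Finset.Icc 1 n).filter
          (fun i => orderOf ((Fintype.card F : ℕ) : ZMod r) ∣ 2 * i)).card →
        Multiplicative (ZMod (r ^ padicValNat r ((Polynomial.cyclotomic
          (orderOf ((Fintype.card F : ℕ) : ZMod r)) ℤ).eval
            ((Fintype.card F : ℕ) : ℤ)).natAbs)))) := by
  classical
  have hq2 : 2 ≤ Fintype.card F := Fintype.one_lt_card
  have hd0 := orderOf_zmod_pos (Fintype.card F) r hrq
  have hfac := factorization_card_Sp r hr2 F n hrn hrq
  rw [← padicVal_cyclotomic (Fintype.card F) r hq2 hrq] at hfac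
  have hdvd : r ^ padicValNat r ((Polynomial.cyclotomic
      (orderOf ((Fintype.card F : ℕ) : ZMod r)) ℤ).eval ((Fintype.card F : ℕ) : ℤ)).natAbs
      ∣ Fintype.card F ^ orderOf ((Fintype.card F : ℕ) : ZMod r) - 1 := by
    rw [padicVal_cyclotomic (Fintype.card F) r hq2 hrq]
    exact pow_padicValNat_dvd
  obtain ⟨d, hd⟩ : ∃ d, d = orderOf ((Fintype.card F : ℕ) : ZMod r) := ⟨_, rfl⟩
  rw [← hd] at hd0 hfac hdvd ⊢
  obtain ⟨s, hs⟩ : ∃ s, s = padicValNat r ((Polynomial.cyclotomic d ℤ).eval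
      ((Fintype.card F : ℕ) : ℤ)).natAbs := ⟨_, rfl⟩
  rw [← hs] at hfac hdvd ⊢
  rcases Nat.even_or_odd d with hev | hodd
  · -- d even: compare with GL_{2n}
    obtain ⟨e, he⟩ := hev
    have he0 : 0 < e := by omega
    have hcount : ((Finset.Icc 1 n).filter (fun i => d ∣ 2 * i)).card = 2 * n / d := by
      have h1 : d = 2 * e := by omega
      rw [h1, Nat.mul_div_mul_left _ _ (by norm_num : 0 < 2), ← Nat.Ioc_filter_dvd_card_eq_div]
      congr 1
      ext i
      simp only [Finset.mem_filter, Finset.mem_Icc, Finset.mem_Ioc]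
      rw [Nat.mul_dvd_mul_iff_left (by norm_num : 0 < 2)]
      constructor
      · rintro ⟨h, h'⟩
        exact ⟨by omega, h'⟩
      · rintro ⟨h, h'⟩
        exact ⟨by omega, h'⟩
    have hlt : 2 * n < d * r := by
      have : 2 * r ≤ d * r := Nat.mul_le_mul_right r (by omega)
      omega
    have hlt' : 2 * n < orderOf ((Fintype.card F : ℕ) : ZMod r) * r := by
      rw [← hd]
      exact hlt
    have hfacGL := factorization_card_GL_of_lt r F (2 * n) hlt' hrq
    rw [← padicVal_cyclotomic (Fintype.card F) r hq2 hrq, ← hd, ← hs, ← hcount] at hfacGL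
    have hcardP : Nat.card (P.map (spToGL n F) : Subgroup (GL (Fin (2 * n)) F))
        = r ^ (Nat.card (GL (Fin (2 * n)) F)).factorization r := by
      rw [Subgroup.card_map_of_injective (spToGL_injective n F), hfacGL, ← hfac]
      exact Sylow.card_eq_multiplicity P
    obtain ⟨φ⟩ := sylow_GL_homocyclic_of_lt (2 * n) r hlt' hrq
      (Sylow.ofCard (P.map (spToGL n F)) hcardP)
    rw [← hd, ← hs, ← hcount] at φ
    have φ' : ↥((P : Subgroup _).map (spToGL n F)) ≃*
        (Fin ((Finset.Icc 1 n).filter (fun i => d ∣ 2 * i)).card →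
          Multiplicative (ZMod (r ^ s))) := φ
    exact ⟨((P : Subgroup _).equivMapOfInjective (spToGL n F) (spToGL_injective n F)).trans φ'⟩
  · -- d odd: torus in GL_n embedded via spEmb
    have hcount : ((Finset.Icc 1 n).filter (fun i => d ∣ 2 * i)).card = n / d := by
      rw [← Nat.Ioc_filter_dvd_card_eq_div]
      congr 1
      ext i
      simp only [Finset.mem_filter, Finset.mem_Icc, Finset.mem_Ioc]
      have hcop : Nat.Coprime d 2 := Nat.Coprime.symm (Nat.coprime_two_left.mpr hodd)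
      constructor
      · rintro ⟨h, h'⟩
        exact ⟨by omega, hcop.dvd_of_dvd_mul_left h'⟩
      · rintro ⟨h, h'⟩
        exact ⟨by omega, dvd_mul_of_dvd_right h' 2⟩
    rw [hcount] at hfac ⊢
    obtain ⟨f₀, hf₀⟩ := exists_torus_embedding F d (n / d) n (r ^ s) hd0
      (Nat.div_mul_le_self _ _) hdvd
    obtain ⟨f, hf⟩ : ∃ f : (Fin (n / d) → Multiplicative (ZMod (r ^ s))) →*
        ↥(Matrix.symplecticGroup (Fin n) F), Function.Injective f :=
      ⟨(spEmb n F).comp f₀, (spEmb_injective n F).comp hf₀⟩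
    have hH : Nat.card f.range
        = r ^ (Nat.card ↥(Matrix.symplecticGroup (Fin n) F)).factorization r := by
      rw [← Nat.card_congr (MonoidHom.ofInjective hf).toEquiv, Nat.card_fun, hfac]
      have h1 : Nat.card (Multiplicative (ZMod (r ^ s))) = r ^ s := Nat.card_zmod _
      rw [h1, Nat.card_eq_fintype_card, Fintype.card_fin, ← pow_mul, mul_comm]
    exact ⟨(Sylow.equiv P (Sylow.ofCard f.range hH)).trans (MonoidHom.ofInjective hf).symm⟩

end Cfsg.Agent.Lib.Helper47
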