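import Cfsg.Agent.Lib.Helper47.FormBase

set_option autoImplicit false

namespace Cfsg.Agent.Lib.Helper47

open Polynomial Module

universe u

section SymBasic

variable {F : Type*} [Field F] {V : Type*} [AddCommGroup V] [Module F V]
variable {B : V → V → F}

/-- Symmetry of a `1`-form. -/
lemma sym_comm (hB : IsSForm (RingHom.id F) 1 B) (x y : V) : B y x = B x y := by
  rw [hB.symm x y, RingHom.id_apply, one_mul]

lemma sym_smul_right (hB : IsSForm (RingHom.id F) 1 B) (c : F) (x y : V) :
    B x (c • y) = c * B x y := by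
  rw [hB.smul_right, RingHom.id_apply]

/-- A nondegenerate symmetric form on a nontrivial space has an anisotropic vector
(characteristic not two). -/
lemma exists_aniso (hB : IsSForm (RingHom.id F) 1 B) (h2 : (2 : F) ≠ 0) (hnd : Nondeg B)
    [Nontrivial V] : ∃ v, B v v ≠ 0 := by
  by_contra hcon
  push Not at hcon
  obtain ⟨x, hx⟩ := exists_ne (0 : V)
  apply hx
  apply hnd
  intro y
  have h1 := hcon (x + y)
  rw [hB.add_left, hB.add_right, hB.add_right, hcon x, hcon y, sym_comm hB x y] at h1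
  have h3 : (2 : F) * B x y = 0 := by linear_combination h1
  rcases mul_eq_zero.mp h3 with h | h
  · exact absurd h h2
  · exact h

/-- The reflection along `u`. -/
noncomputable def reflMap (hB : IsSForm (RingHom.id F) 1 B) (u : V) : V →ₗ[F] V :=
  LinearMap.id - (2 / B u u) • (hB.lin u).smulRight u

lemma reflMap_apply (hB : IsSForm (RingHom.id F) 1 B) (u x : V) :
    reflMap hB u x = x - (2 / B u u * B x u) • u := by
  simp [reflMap, IsSForm.lin_apply, smul_smul]

lemma reflMap_isometry (hB : IsSForm (RingHom.id F) 1 B) (u : V) (hu : B u u ≠ 0) (x y : V) :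
    B (reflMap hB u x) (reflMap hB u y) = B x y := by
  rw [reflMap_apply, reflMap_apply, hB.sub_left, hB.sub_right, hB.sub_right, hB.smul_left,
    hB.smul_left, sym_smul_right hB, sym_smul_right hB, sym_comm hB y u]
  field_simp
  ring

lemma reflMap_fix (hB : IsSForm (RingHom.id F) 1 B) (u x : V) (h : B x u = 0) :
    reflMap hB u x = x := by
  rw [reflMap_apply, h, mul_zero, zero_smul, sub_zero]

lemma reflMap_self (hB : IsSForm (RingHom.id F) 1 B) (u : V) (hu : B u u ≠ 0) :
    reflMap hB u u = -u := by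
  rw [reflMap_apply, div_mul_cancel₀ _ hu, two_smul]
  abel

/-- Two vectors of the same non-zero norm are exchanged by an isometry fixing their common
orthogonal complement. -/
lemma exists_isometry_map (hB : IsSForm (RingHom.id F) 1 B) (h2 : (2 : F) ≠ 0) (u₁ u₂ : V)
    (h : B u₁ u₁ = B u₂ u₂) (hne : B u₁ u₁ ≠ 0) :
    ∃ R : V →ₗ[F] V, (∀ x y, B (R x) (R y) = B x y) ∧ R u₁ = u₂ ∧
      ∀ x, B x u₁ = 0 → B x u₂ = 0 → R x = x := by
  by_cases hd : B (u₁ - u₂) (u₁ - u₂) = 0
  · -- use u₁ + u₂
    have h12 : B u₁ u₂ = B u₁ u₁ := by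
      rw [hB.sub_left, hB.sub_right, hB.sub_right, sym_comm hB u₁ u₂, ← h] at hd
      have h3 : (2 : F) * (B u₁ u₁ - B u₁ u₂) = 0 := by linear_combination hd
      rcases mul_eq_zero.mp h3 with h' | h'
      · exact absurd h' h2
      · exact (sub_eq_zero.mp h').symm
    have hs : B (u₁ + u₂) (u₁ + u₂) = 4 * B u₁ u₁ := by
      rw [hB.add_left, hB.add_right, hB.add_right, sym_comm hB u₁ u₂, ← h, h12]
      ring
    have h4 : (4 : F) ≠ 0 := by
      have : (4 : F) = 2 * 2 := by norm_num
      rw [this]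
      exact mul_ne_zero h2 h2
    have hs0 : B (u₁ + u₂) (u₁ + u₂) ≠ 0 := by
      rw [hs]
      exact mul_ne_zero h4 hne
    have hu₂ : B u₂ u₂ ≠ 0 := h ▸ hne
    refine ⟨reflMap hB u₂ ∘ₗ reflMap hB (u₁ + u₂), fun x y => ?_, ?_, fun x hx1 hx2 => ?_⟩
    · rw [LinearMap.comp_apply, LinearMap.comp_apply, reflMap_isometry hB _ hu₂,
        reflMap_isometry hB _ hs0]
    · have e1 : reflMap hB (u₁ + u₂) u₁ = -u₂ := by
        rw [reflMap_apply, hs, hB.add_right, h12]
        have : (2 / (4 * B u₁ u₁) * (B u₁ u₁ + B u₁ u₁)) = 1 := by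
          field_simp
          ring
        rw [this, one_smul]
        abel
      rw [LinearMap.comp_apply, e1, map_neg, reflMap_self hB _ hu₂, neg_neg]
    · rw [LinearMap.comp_apply, reflMap_fix hB (u₁ + u₂) x (by rw [hB.add_right, hx1, hx2, add_zero]),
        reflMap_fix hB u₂ x hx2]
  · refine ⟨reflMap hB (u₁ - u₂), fun x y => reflMap_isometry hB _ hd x y, ?_, fun x hx1 hx2 => ?_⟩
    · rw [reflMap_apply]
      have e1 : B (u₁ - u₂) (u₁ - u₂) = 2 * B u₁ (u₁ - u₂) := by
        rw [hB.sub_left, hB.sub_right, hB.sub_right, sym_comm hB u₁ u₂, ← h]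
        ring
      have e2 : B u₁ (u₁ - u₂) ≠ 0 := by
        intro h0
        rw [h0, mul_zero] at e1
        exact hd e1
      have : (2 / B (u₁ - u₂) (u₁ - u₂) * B u₁ (u₁ - u₂)) = 1 := by
        rw [e1]
        field_simp
      rw [this, one_smul]
      abel
    · exact reflMap_fix hB _ x (by rw [hB.sub_right, hx1, hx2, sub_zero])

end SymBasic

section Ext

variable {F : Type*} [Field F] {V : Type*} [AddCommGroup V] [Module F V]
variable {B : V → V → F}

/-- The component orthogonal to an anisotropic vector. -/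
lemma aniso_decomp (hB : IsSForm (RingHom.id F) 1 B) (w : V) (hw : B w w ≠ 0) (x : V) :
    B (x - (B x w / B w w) • w) w = 0 := by
  rw [hB.sub_left, hB.smul_left, div_mul_cancel₀ _ hw, sub_self]

/-- The restriction of a nondegenerate symmetric form to the orthogonal complement of an
anisotropic vector is nondegenerate. -/
lemma nondeg_res_ker (hB : IsSForm (RingHom.id F) 1 B) (hnd : Nondeg B) (w : V)
    (hw : B w w ≠ 0) : Nondeg (resForm B (LinearMap.ker (hB.lin w))) := by
  intro x hx
  apply Subtype.ext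
  apply hnd
  intro z
  have hxw : B (x : V) w = 0 := LinearMap.mem_ker.mp x.2
  have h1 := hx ⟨z - (B z w / B w w) • w, LinearMap.mem_ker.mpr (aniso_decomp hB w hw z)⟩
  rw [resForm_apply] at h1
  simp only at h1
  rw [hB.sub_right, sym_smul_right hB, hxw, mul_zero, sub_zero] at h1
  exact h1

lemma finrank_ker_lin_lt [FiniteDimensional F V] (hB : IsSForm (RingHom.id F) 1 B) (w : V)
    (hw : B w w ≠ 0) : finrank F (LinearMap.ker (hB.lin w)) < finrank F V := by
  apply Submodule.finrank_lt
  intro htop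
  have : w ∈ LinearMap.ker (hB.lin w) := by rw [htop]; trivial
  exact hw (LinearMap.mem_ker.mp this)

/-- **Witt's extension theorem** for nondegenerate sources: two isometric embeddings of a
nondegenerate symmetric space differ by an isometry of the target. -/
theorem exists_extend (hB : IsSForm (RingHom.id F) 1 B) (h2 : (2 : F) ≠ 0) :
    ∀ (k : ℕ) (U : Type u) [AddCommGroup U] [Module F U] [FiniteDimensional F U]
      (BU : U → U → F) (ι φ : U →ₗ[F] V), finrank F U = k → IsSForm (RingHom.id F) 1 BU →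
      Nondeg BU → (∀ x y, B (ι x) (ι y) = BU x y) → (∀ x y, B (φ x) (φ y) = BU x y) →
      ∃ Φ : V →ₗ[F] V, (∀ x y, B (Φ x) (Φ y) = B x y) ∧ ∀ x, Φ (ι x) = φ x := by
  intro k
  induction k using Nat.strong_induction_on with
  | _ k ih =>
    intro U _ _ _ BU ι φ hk hBU hndU hι hφ
    rcases Nat.eq_zero_or_pos k with h0 | hpos
    · subst h0
      have : Subsingleton U := Module.finrank_zero_iff.mp hk
      refine ⟨LinearMap.id, fun x y => rfl, fun x => ?_⟩
      rw [Subsingleton.elim x 0, map_zero, map_zero, map_zero]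
    · have hnt : Nontrivial U := Module.finrank_pos_iff.mp (hk ▸ hpos)
      obtain ⟨w, hw⟩ := exists_aniso hBU h2 hndU
      obtain ⟨R₁, hR₁i, hR₁w, -⟩ := exists_isometry_map hB h2 (ι w) (φ w) (by rw [hι, hφ])
        (by rw [hι]; exact hw)
      have hlt : finrank F (LinearMap.ker (hBU.lin w)) < k := hk ▸ finrank_ker_lin_lt hBU w hw
      obtain ⟨Φ₀, hΦ₀i, hΦ₀⟩ := ih _ hlt (LinearMap.ker (hBU.lin w)) (resForm BU _)
        ((R₁ ∘ₗ ι) ∘ₗ (LinearMap.ker (hBU.lin w)).subtype)
        (φ ∘ₗ (LinearMap.ker (hBU.lin w)).subtype) rfl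
        (hBU.res _) (nondeg_res_ker hBU hndU w hw)
        (fun x y => by
          simp only [LinearMap.comp_apply, Submodule.subtype_apply]
          rw [hR₁i, hι]
          rfl)
        (fun x y => by
          simp only [LinearMap.comp_apply, Submodule.subtype_apply]
          rw [hφ]
          rfl)
      obtain ⟨R₂, hR₂i, hR₂w, hR₂fix⟩ := exists_isometry_map hB h2 (Φ₀ (R₁ (ι w))) (φ w)
        (by rw [hΦ₀i, hR₁i, hι, hφ]) (by rw [hΦ₀i, hR₁i, hι]; exact hw)
      refine ⟨R₂ ∘ₗ Φ₀ ∘ₗ R₁, fun x y => ?_, fun x => ?_⟩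
      · simp only [LinearMap.comp_apply]
        rw [hR₂i, hΦ₀i, hR₁i]
      · obtain ⟨c, hc⟩ : ∃ c : F, c = BU x w / BU w w := ⟨_, rfl⟩
        obtain ⟨x₀, hx₀def⟩ : ∃ x₀ : U, x₀ = x - c • w := ⟨_, rfl⟩
        have hx₀w : BU x₀ w = 0 := by
          rw [hx₀def, hc]
          exact aniso_decomp hBU w hw x
        have hx₀ : x₀ ∈ LinearMap.ker (hBU.lin w) := LinearMap.mem_ker.mpr hx₀w
        have hdec : x = x₀ + c • w := by
          rw [hx₀def]
          abel
        have h1 : Φ₀ (R₁ (ι x₀)) = φ x₀ := hΦ₀ ⟨x₀, hx₀⟩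
        have h2' : R₂ (φ x₀) = φ x₀ := by
          apply hR₂fix
          · rw [← h1, hΦ₀i, hR₁i, hι]
            exact hx₀w
          · rw [hφ]
            exact hx₀w
        rw [hdec]
        simp only [LinearMap.comp_apply, map_add, map_smul]
        rw [h1, h2', hR₂w]

end Ext

section Rep

variable {F : Type*} [Field F] {V : Type*} [AddCommGroup V] [Module F V] [FiniteDimensional F V]
variable {B : V → V → F}

lemma finrank_ker_lin_add_one (hB : IsSForm (RingHom.id F) 1 B) (w : V) (hw : B w w ≠ 0) :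
    finrank F (LinearMap.ker (hB.lin w)) + 1 = finrank F V := by
  have h := LinearMap.finrank_range_add_finrank_ker (hB.lin w)
  have hr : finrank F (LinearMap.range (hB.lin w)) = 1 := by
    have : LinearMap.range (hB.lin w) = ⊤ := by
      apply LinearMap.range_eq_top.mpr
      intro c
      exact ⟨(c / B w w) • w, by
        rw [map_smul, IsSForm.lin_apply, smul_eq_mul, div_mul_cancel₀ _ hw]⟩
    rw [this, finrank_top, Module.finrank_self]
  omega

/-- A nondegenerate symmetric form of dimension at least two over a finite field of odd order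
represents every element. -/
lemma exists_norm_eq_sym [Fintype F] (hB : IsSForm (RingHom.id F) 1 B) (h2 : (2 : F) ≠ 0)
    (hodd : Fintype.card F % 2 = 1) (hnd : Nondeg B) (hdim : 2 ≤ finrank F V) (d : F) :
    ∃ v, B v v = d := by
  have hposV : 0 < finrank F V := by omega
  have hnt : Nontrivial V := Module.finrank_pos_iff.mp hposV
  obtain ⟨v₁, hv₁⟩ := exists_aniso hB h2 hnd
  have hfr := finrank_ker_lin_add_one hB v₁ hv₁
  have hposK : 0 < finrank F (LinearMap.ker (hB.lin v₁)) := by omega
  have hnt₁ : Nontrivial (LinearMap.ker (hB.lin v₁)) := Module.finrank_pos_iff.mp hposK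
  obtain ⟨v₂, hv₂⟩ := exists_aniso (hB.res _) h2 (nondeg_res_ker hB hnd v₁ hv₁)
  have h12 : B (v₂ : V) v₁ = 0 := LinearMap.mem_ker.mp v₂.2
  have hv₂' : B (v₂ : V) (v₂ : V) ≠ 0 := hv₂
  have hdf : degree (C (B v₁ v₁) * X ^ 2 - C d : F[X]) = 2 := by
    rw [degree_sub_C (by rw [degree_C_mul_X_pow 2 hv₁]; norm_num), degree_C_mul_X_pow 2 hv₁]
    rfl
  have hdg : degree (C (B (v₂ : V) (v₂ : V)) * X ^ 2 : F[X]) = 2 := by
    rw [degree_C_mul_X_pow 2 hv₂']
    rfl
  obtain ⟨a, b, hab⟩ := FiniteField.exists_root_sum_quadratic hdf hdg hodd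
  simp only [eval_sub, eval_mul, eval_C, eval_pow, eval_X] at hab
  refine ⟨a • v₁ + b • (v₂ : V), ?_⟩
  have h21 : B v₁ (v₂ : V) = 0 := by rw [sym_comm hB (v₂ : V) v₁]; exact h12
  simp only [hB.add_left, hB.add_right, hB.smul_left, sym_smul_right hB, h12, h21]
  linear_combination hab

end Rep

section Emb

variable {F : Type*} [Field F] [Fintype F]

/-- Every nondegenerate symmetric space over a finite field of odd order embeds isometrically
into every nondegenerate symmetric space of larger dimension. -/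
theorem exists_embed (h2 : (2 : F) ≠ 0) (hodd : Fintype.card F % 2 = 1) :
    ∀ (k : ℕ) (U : Type u) [AddCommGroup U] [Module F U] [FiniteDimensional F U]
      (BU : U → U → F), finrank F U = k → IsSForm (RingHom.id F) 1 BU → Nondeg BU →
      ∀ (V : Type u) [AddCommGroup V] [Module F V] [FiniteDimensional F V] (B : V → V → F),
      IsSForm (RingHom.id F) 1 B → Nondeg B → k < finrank F V →
      ∃ ι : U →ₗ[F] V, ∀ x y, B (ι x) (ι y) = BU x y := by
  intro k
  induction k with
  | zero =>
    intro U _ _ _ BU hk hBU hndU V _ _ _ B hB hnd hlt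
    have : Subsingleton U := Module.finrank_zero_iff.mp hk
    refine ⟨0, fun x y => ?_⟩
    rw [Subsingleton.elim x 0, LinearMap.zero_apply, hB.zero_left, hBU.zero_left]
  | succ k ih =>
    intro U _ _ _ BU hk hBU hndU V _ _ _ B hB hnd hlt
    have hposU : 0 < finrank F U := by omega
    have hnt : Nontrivial U := Module.finrank_pos_iff.mp hposU
    obtain ⟨w, hw⟩ := exists_aniso hBU h2 hndU
    obtain ⟨v, hv⟩ := exists_norm_eq_sym hB h2 hodd hnd (by omega) (BU w w)
    have hv0 : B v v ≠ 0 := by rw [hv]; exact hw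
    have hfrU := finrank_ker_lin_add_one hBU w hw
    have hfrV := finrank_ker_lin_add_one hB v hv0
    obtain ⟨ι₀, hι₀⟩ := ih (LinearMap.ker (hBU.lin w)) (resForm BU _) (by omega) (hBU.res _)
      (nondeg_res_ker hBU hndU w hw) (LinearMap.ker (hB.lin v)) (resForm B _) (hB.res _)
      (nondeg_res_ker hB hnd v hv0) (by omega)
    have hι₀' : ∀ x y, B (ι₀ x : V) (ι₀ y : V) = BU (x : U) (y : U) := hι₀
    have hmem : ∀ x : U, (LinearMap.id - (1 / BU w w) • (hBU.lin w).smulRight w : U →ₗ[F] U) x
        ∈ LinearMap.ker (hBU.lin w) := by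
      intro x
      rw [LinearMap.mem_ker, IsSForm.lin_apply]
      simp only [LinearMap.sub_apply, LinearMap.id_apply, LinearMap.smul_apply,
        LinearMap.smulRight_apply, IsSForm.lin_apply]
      rw [hBU.sub_left, hBU.smul_left, hBU.smul_left]
      field_simp
      ring
    obtain ⟨proj, hproj⟩ : ∃ proj : U →ₗ[F] LinearMap.ker (hBU.lin w),
        ∀ x, (proj x : U) = x - (1 / BU w w) • (BU x w • w) :=
      ⟨LinearMap.codRestrict _ _ hmem, fun x => by
        simp [LinearMap.codRestrict_apply, IsSForm.lin_apply]⟩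
    refine ⟨(LinearMap.ker (hB.lin v)).subtype ∘ₗ ι₀ ∘ₗ proj
      + ((1 / BU w w) • (hBU.lin w)).smulRight v, fun x y => ?_⟩
    have hz : ∀ z : LinearMap.ker (hB.lin v), B (z : V) v = 0 := fun z => LinearMap.mem_ker.mp z.2
    simp only [LinearMap.add_apply, LinearMap.comp_apply, Submodule.subtype_apply,
      LinearMap.smulRight_apply, LinearMap.smul_apply, IsSForm.lin_apply, smul_eq_mul]
    have hz' : ∀ z : LinearMap.ker (hB.lin v), B v (z : V) = 0 := fun z => by
      rw [sym_comm hB (z : V) v]; exact hz z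
    simp only [hB.add_left, hB.add_right, hB.smul_left, sym_smul_right hB, hz, hz', hι₀', hproj,
      hv, hBU.sub_left, hBU.sub_right, hBU.smul_left, sym_smul_right hBU, sym_comm hBU y w]
    field_simp
    ring

end Emb

end Cfsg.Agent.Lib.Helper47
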