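import Mathlib
import Cfsg.Agent.Lib.Helper44.UDDefs

/-!
# S5655 piece ADAPT: an orthonormal basis adapted to a nondegenerate decomposition
-/

set_option autoImplicit false

namespace Cfsg.Agent.Lib.Helper44.UD

open Matrix Cfsg.Agent.Lib.Helper93 Cfsg.Agent.Lib.Helper18 Cfsg.Agent.Lib.Helper7

theorem ud_adapt {F : Type*} [Field F] [Fintype F] (q : ℕ) (h1 : OnbStmt F q) : AdaptStmt F q := by
  classical
  intro hF n t k D hD
  have hex : ∀ c : Fin t, ∃ b : Fin k → Fin n → F, IsFr q n k b ∧ ∀ i, b i ∈ D c :=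
    fun c => h1 hF n k (D c) (hD.nondegenerate c) (hD.decomp.finrank_eq c)
  choose b hb hbm using hex
  -- `n = t * k`
  have hint : DirectSum.IsInternal D :=
    DirectSum.isInternal_submodule_of_iSupIndep_of_iSup_eq_top hD.decomp.indep
      hD.decomp.iSup_eq_top
  have hn : n = t * k := by
    have hbas := hint.collectedBasis
      (fun i => Module.finBasisOfFinrankEq F (D i) (hD.decomp.finrank_eq i))
    have h2 := Module.finrank_eq_card_basis hbas
    rw [Module.finrank_fintype_fun_eq_card, Fintype.card_fin, Fintype.card_sigma] at h2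
    simp only [Fintype.card_fin, Finset.sum_const, Finset.card_univ, smul_eq_mul] at h2
    exact h2
  obtain ⟨e, -⟩ : ∃ e : Fin n ≃ Fin t × Fin k, True :=
    ⟨(finCongr hn).trans finProdFinEquiv.symm, trivial⟩
  have hgen : ∀ (c c' : Fin t) (i i' : Fin k),
      Cfsg.hermForm n F q (b c i) (b c' i') = if c = c' ∧ i = i' then 1 else 0 := by
    intro c c' i i'
    by_cases hc : c = c'
    · subst hc
      rw [hb c i i']
      simp
    · rw [hD.orthogonal c c' hc (b c i) (hbm c i) (b c' i') (hbm c' i')]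
      simp [hc]
  obtain ⟨B, hB⟩ : ∃ B : Fin n → Fin n → F, ∀ j, B j = b (e j).1 (e j).2 := ⟨_, fun _ => rfl⟩
  have hfr : IsFr q n n B := by
    intro i j
    rw [hB, hB, hgen]
    have hiff : ((e i).1 = (e j).1 ∧ (e i).2 = (e j).2) ↔ i = j := by
      rw [← Prod.ext_iff, e.apply_eq_iff_eq]
    simp only [hiff]
  obtain ⟨g, hg⟩ := exists_GU_of_isFr hF B hfr
  refine ⟨e, (g : GL (Fin n) F), g.2, fun j => ?_⟩
  rw [hg, hB]
  exact hbm _ _

end Cfsg.Agent.Lib.Helper44.UD
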