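import Mathlib
import Cfsg.Agent.Lib.Helper44.UDDefs

/-!
# S5655 piece K2NONMONO: a non-monomial block-diagonal element of `SU_n(2)` (blocks of size `≥ 3`)
-/

set_option autoImplicit false

namespace Cfsg.Agent.Lib.Helper44.UD

open Matrix Cfsg.Agent.Lib.Helper93 Cfsg.Agent.Lib.Helper18 Cfsg.Agent.Lib.Helper7

theorem ud_k2nonmono {F : Type*} [Field F] [Fintype F] (q : ℕ) : K2NonMonoStmt F := by
  classical
  intro hF n t k e hk ht
  have h2 : (2 : F) = 0 := two_eq_zero_of_card hF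
  obtain ⟨ω, hω0, hω1⟩ : ∃ ω : F, ω ≠ 0 ∧ ω ≠ 1 := by
    by_contra hcon
    push Not at hcon
    have hsub : (Finset.univ : Finset F) ⊆ {0, 1} := by
      intro x _
      by_cases hx : x = 0
      · simp [hx]
      · simp [hcon x hx]
    have hc := Finset.card_le_card hsub
    rw [Finset.card_univ, hF] at hc
    have hc2 : ({0, 1} : Finset F).card ≤ 2 := Finset.card_le_two
    omega
  have hω3 : ω ^ 3 = 1 := by
    have h := FiniteField.pow_card_sub_one_eq_one ω hω0
    rw [hF] at h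
    exact h
  have hω3' : ω ^ (2 + 1) = 1 := hω3
  have hω6 : (ω ^ 2) ^ (2 + 1) = 1 := by
    rw [← pow_mul, mul_comm, pow_mul, hω3', one_pow]
  -- coordinates
  obtain ⟨c0, hc0⟩ : ∃ c : Fin t, c = ⟨0, by omega⟩ := ⟨_, rfl⟩
  obtain ⟨c1, hc1⟩ : ∃ c : Fin t, c = ⟨1, by omega⟩ := ⟨_, rfl⟩
  have hc01 : c0 ≠ c1 := by
    rw [hc0, hc1]
    intro h
    exact absurd (Fin.mk.inj h) (by omega)
  obtain ⟨i1, hi1⟩ : ∃ i, i = e.symm (c0, (⟨0, by omega⟩ : Fin k)) := ⟨_, rfl⟩
  obtain ⟨i2, hi2⟩ : ∃ i, i = e.symm (c0, (⟨1, by omega⟩ : Fin k)) := ⟨_, rfl⟩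
  obtain ⟨i3, hi3⟩ : ∃ i, i = e.symm (c0, (⟨2, by omega⟩ : Fin k)) := ⟨_, rfl⟩
  obtain ⟨z, hz⟩ : ∃ i, i = e.symm (c1, (⟨0, by omega⟩ : Fin k)) := ⟨_, rfl⟩
  have hb1 : blkOf e i1 = c0 := by rw [hi1]; simp [blkOf]
  have hb2 : blkOf e i2 = c0 := by rw [hi2]; simp [blkOf]
  have hb3 : blkOf e i3 = c0 := by rw [hi3]; simp [blkOf]
  have hbz : blkOf e z = c1 := by rw [hz]; simp [blkOf]
  have h12 : i1 ≠ i2 := by
    rw [hi1, hi2]
    intro h
    have h' := e.symm.injective h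
    simp at h'
  have h13 : i1 ≠ i3 := by
    rw [hi1, hi3]
    intro h
    have h' := e.symm.injective h
    simp at h'
  have h23 : i2 ≠ i3 := by
    rw [hi2, hi3]
    intro h
    have h' := e.symm.injective h
    simp at h'
  have h1z : i1 ≠ z := fun h => hc01 (by rw [← hb1, ← hbz, h])
  have h2z : i2 ≠ z := fun h => hc01 (by rw [← hb2, ← hbz, h])
  have h3z : i3 ≠ z := fun h => hc01 (by rw [← hb3, ← hbz, h])
  obtain ⟨u, hu⟩ : ∃ u : Fin n → F,
      u = Pi.single i1 1 + Pi.single i2 1 + Pi.single i3 1 := ⟨_, rfl⟩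
  have hu1 : u i1 = 1 := by
    rw [hu]
    simp [Pi.single_apply, h12, h13]
  have hu2 : u i2 = 1 := by
    rw [hu]
    simp [Pi.single_apply, h12.symm, h23]
  have hu3 : u i3 = 1 := by
    rw [hu]
    simp [Pi.single_apply, h13.symm, h23.symm]
  have huz : u z = 0 := by
    rw [hu]
    simp [Pi.single_apply, h1z.symm, h2z.symm, h3z.symm]
  have husupp : ∀ i, u i ≠ 0 → blkOf e i = c0 := by
    intro i hi
    by_cases e1 : i = i1
    · rw [e1]; exact hb1
    by_cases e2 : i = i2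
    · rw [e2]; exact hb2
    by_cases e3 : i = i3
    · rw [e3]; exact hb3
    exfalso
    apply hi
    rw [hu]
    simp [Pi.single_apply, e1, e2, e3]
  have huu : Cfsg.hermForm n F 2 u u = 1 := by
    have h0 : Cfsg.hermForm n F 2 u u
        = Cfsg.hermForm n F 2 (Pi.single i1 1 + Pi.single i2 1 + Pi.single i3 1) u := by
      rw [← hu]
    rw [h0, hf_add_left, hf_add_left, hf_single_left, hf_single_left, hf_single_left, hu1, hu2,
      hu3]
    linear_combination h2
  have hzz : Cfsg.hermForm n F 2 (Pi.single z 1 : Fin n → F) (Pi.single z 1) = 1 := by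
    rw [hf_single_left, Pi.single_eq_same, one_pow]
  obtain ⟨A, hA⟩ : ∃ A : Matrix (Fin n) (Fin n) F,
      A = qrefl 2 n u ω * qrefl 2 n (Pi.single z 1) (ω ^ 2) := ⟨_, rfl⟩
  have hpres : suPres 2 n A := by
    intro x y
    rw [hA, ← Matrix.mulVec_mulVec, ← Matrix.mulVec_mulVec,
      qrefl_preserves hF n u ω huu hω3', qrefl_preserves hF n _ (ω ^ 2) hzz hω6]
  have hdet : A.det = 1 := by
    rw [hA, Matrix.det_mul, qrefl_det n u ω huu, qrefl_det n _ (ω ^ 2) hzz]
    linear_combination hω3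
  have hin_z : qrefl 2 n (Pi.single z 1) (ω ^ 2) *ᵥ Pi.single z 1
      = (ω ^ 2) • (Pi.single z 1 : Fin n → F) := by
    rw [qrefl_mulVec, hf_single_left, Pi.single_eq_same, one_pow, mul_one]
    funext i
    simp only [Pi.add_apply, Pi.smul_apply, smul_eq_mul]
    ring
  have hin : ∀ j, j ≠ z → qrefl 2 n (Pi.single z 1) (ω ^ 2) *ᵥ Pi.single j 1
      = (Pi.single j 1 : Fin n → F) := by
    intro j hj
    rw [qrefl_mulVec, hf_single_left, Pi.single_eq_of_ne hj, zero_pow (by norm_num), mul_zero,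
      zero_smul, add_zero]
  have hcolz : A *ᵥ Pi.single z 1 = (ω ^ 2) • Pi.single z 1 := by
    rw [hA, ← Matrix.mulVec_mulVec, hin_z, Matrix.mulVec_smul, qrefl_mulVec, hf_single_left, huz,
      zero_pow (by norm_num), mul_zero, zero_smul, add_zero]
  have hcol : ∀ j, j ≠ z →
      A *ᵥ Pi.single j 1 = Pi.single j 1 + ((ω - 1) * (u j) ^ 2) • u := by
    intro j hj
    rw [hA, ← Matrix.mulVec_mulVec, hin j hj, qrefl_mulVec, hf_single_left]
  have hentry : ∀ i j, A i j = (A *ᵥ Pi.single j 1) i := by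
    intro i j
    rw [Matrix.mulVec_single_one]
    rfl
  obtain ⟨g, hgA, hg⟩ := exists_gl_of_pres hpres hdet
  refine ⟨g, (Subgroup.mem_inf.mp hg).1, by rw [hgA]; exact hdet, ?_, ?_⟩
  · rw [hgA]
    refine ⟨1, fun i j hij => ?_⟩
    rw [Equiv.Perm.one_apply]
    rw [hentry] at hij
    by_cases hjz : j = z
    · rw [hjz, hcolz] at hij
      by_cases hiz : i = z
      · rw [hiz, hjz]
      · exfalso
        apply hij
        rw [Pi.smul_apply, Pi.single_eq_of_ne hiz, smul_zero]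
    · rw [hcol j hjz] at hij
      by_cases hijeq : i = j
      · rw [hijeq]
      · rw [Pi.add_apply, Pi.single_eq_of_ne hijeq, zero_add, Pi.smul_apply, smul_eq_mul] at hij
        have hui : u i ≠ 0 := fun h => hij (by rw [h, mul_zero])
        have huj : u j ≠ 0 := fun h => hij (by rw [h]; ring)
        rw [husupp i hui, husupp j huj]
  · rw [hgA]
    intro hmono
    obtain ⟨i, hi⟩ := hmono i1
    have e1 : A i1 i1 ≠ 0 := by
      rw [hentry, hcol i1 h1z, Pi.add_apply, Pi.single_eq_same, Pi.smul_apply, smul_eq_mul, hu1]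
      intro h
      apply hω0
      linear_combination h
    have e2 : A i2 i1 ≠ 0 := by
      rw [hentry, hcol i1 h1z, Pi.add_apply, Pi.single_eq_of_ne h12.symm, Pi.smul_apply,
        smul_eq_mul, hu1, hu2]
      intro h
      apply hω1
      linear_combination h
    exact h12 ((hi i1 e1).trans (hi i2 e2).symm)

end Cfsg.Agent.Lib.Helper44.UD
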