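import Mathlib
import Cfsg.Agent.Lib.Helper44.UDDefs

/-!
# S5655 piece K2ORB: one cross-block weight-2 centre gives all weight-2 centres
-/

set_option autoImplicit false

namespace Cfsg.Agent.Lib.Helper44.UD

open Matrix Cfsg.Agent.Lib.Helper93 Cfsg.Agent.Lib.Helper18 Cfsg.Agent.Lib.Helper7

private theorem udk2orb_mIn {F : Type*} [Field F] [Fintype F] {q n t : ℕ} {blk : Fin n → Fin t}
    {X : Subgroup (GL (Fin n) F)} (hB : BlkIn q blk X) {A : Matrix (Fin n) (Fin n) F}
    (hA : suPres q n A) (hd : A.det = 1) (hblk : IsBlk blk A) : MIn X A := by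
  obtain ⟨g, hgA, hg⟩ := exists_gl_of_pres hA hd
  refine ⟨g, hB g (Subgroup.mem_inf.mp hg).1 (by rw [hgA]; exact hd) (by rw [hgA]; exact hblk),
    hgA⟩

private theorem udk2orb_iso {F : Type*} [Field F] [Fintype F] {q n : ℕ} (i j : Fin n)
    (hij : i ≠ j) (ε : F) :
    Cfsg.hermForm n F q (Pi.single i 1 + ε • Pi.single j 1) (Pi.single i 1 + ε • Pi.single j 1)
      = 1 + ε ^ (q + 1) := by
  classical
  rw [hf_add_left, hf_smul_left, hf_single_left, hf_single_left]
  simp only [Pi.add_apply, Pi.smul_apply, Pi.single_eq_same, Pi.single_eq_of_ne hij,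
    Pi.single_eq_of_ne hij.symm, smul_eq_mul, mul_one, mul_zero, add_zero, zero_add, one_pow]
  ring

private theorem udk2orb_scale {F : Type*} [Field F] [Fintype F] {q n : ℕ}
    (hF : Fintype.card F = q ^ 2) (c : Fin n) (lam : F) (x : Fin n → F) (r : Fin n) :
    (qrefl q n (Pi.single c 1) lam *ᵥ x) r = (if r = c then lam else 1) * x r := by
  classical
  rw [qrefl_mulVec, hf_single_right hF]
  simp only [Pi.add_apply, Pi.smul_apply, smul_eq_mul, Pi.single_apply]
  split_ifs with h
  · subst h
    ring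
  · ring

theorem ud_k2orb {F : Type*} [Field F] [Fintype F] (q : ℕ) (h1 : BlkMonoExStmt F q) : K2OrbStmt F q := by
  classical
  intro hF n t k e hn hk X hX hB hex i j ε hij hε
  have hX' : X ≤ Cfsg.GU n F q ⊓ Cfsg.Geo.specialLinear (Fin n) F := hX
  have hww : Cfsg.hermForm n F q (Pi.single i 1 + ε • Pi.single j 1)
      (Pi.single i 1 + ε • Pi.single j 1) = 0 := by
    rw [udk2orb_iso i j hij, hε]
    ring
  have hε0 : ε ≠ 0 := by
    intro h
    rw [h, zero_pow (by omega)] at hε
    exact one_ne_zero (neg_eq_zero.mp hε.symm)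
  by_cases hblk : blkOf e i = blkOf e j
  · -- same block: the transvections are block-diagonal
    refine ⟨hww, fun c hc => ?_⟩
    apply udk2orb_mIn hB
    · exact fun x y => transvection_preserves hF n _ c hww hc x y
    · exact transvection_det n _ c hww
    · refine ⟨1, fun r s hrs => ?_⟩
      rw [Equiv.Perm.one_apply]
      by_cases hrseq : r = s
      · rw [hrseq]
      · rw [transvection_eq_vecMulVec, Matrix.add_apply, Matrix.one_apply_ne hrseq, zero_add,
          Matrix.vecMulVec_apply] at hrs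
        have hr : (Pi.single i 1 + ε • Pi.single j 1 : Fin n → F) r ≠ 0 := by
          intro h
          apply hrs
          rw [Pi.smul_apply, h, smul_zero, zero_mul]
        have hs : (Pi.single i 1 + ε • Pi.single j 1 : Fin n → F) s ≠ 0 := by
          intro h
          apply hrs
          rw [h, zero_pow (herm_q_ne_zero hF), mul_zero]
        have hsupp : ∀ r : Fin n, (Pi.single i 1 + ε • Pi.single j 1 : Fin n → F) r ≠ 0 →
            blkOf e r = blkOf e i := by
          intro r hr
          by_cases e1 : r = i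
          · rw [e1]
          by_cases e2 : r = j
          · rw [e2, hblk]
          exfalso
          apply hr
          simp [Pi.single_apply, e1, e2]
        rw [hsupp r hr, hsupp s hs]
  · -- different blocks
    obtain ⟨a, b, ε0, hab, hε0', hcen⟩ := hex
    obtain ⟨g, hgU, hgdet, hgblk, l, m, hl, hm, hga, hgb⟩ :=
      h1 hF n t k e (by omega) a b i j hab hblk
    have hgX : g ∈ X := hB g hgU hgdet hgblk
    have hMg : MIn X (g : Matrix (Fin n) (Fin n) F) := ⟨g, hgX, rfl⟩
    have hc1 := hcen.map hX' hMg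
    have hc2 := Cen.smul hF hc1 l⁻¹
    have e1 : l⁻¹ • ((g : Matrix (Fin n) (Fin n) F) *ᵥ (Pi.single a 1 + ε0 • Pi.single b 1))
        = Pi.single i 1 + (l⁻¹ * (ε0 * m)) • Pi.single j 1 := by
      rw [Matrix.mulVec_add, Matrix.mulVec_smul, hga, hgb, smul_add, smul_smul, smul_smul,
        smul_smul, inv_mul_cancel₀ hl, one_smul, mul_assoc]
    rw [e1] at hc2
    obtain ⟨ε1, hε1def⟩ : ∃ ε1 : F, ε1 = l⁻¹ * (ε0 * m) := ⟨_, rfl⟩
    rw [← hε1def] at hc2
    have hε1 : ε1 ^ (q + 1) = -1 := by
      have h := hc2.1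
      rw [udk2orb_iso i j hij] at h
      linear_combination h
    have hε10 : ε1 ≠ 0 := by
      intro h
      rw [h, zero_pow (by omega)] at hε1
      exact one_ne_zero (neg_eq_zero.mp hε1.symm)
    obtain ⟨ρ, hρdef⟩ : ∃ ρ : F, ρ = ε1 / ε := ⟨_, rfl⟩
    have hρ0 : ρ ≠ 0 := by
      rw [hρdef]
      exact div_ne_zero hε10 hε0
    have hρ : ρ ^ (q + 1) = 1 := by
      rw [hρdef, div_pow, hε1, hε]
      exact div_self (neg_ne_zero.mpr one_ne_zero)
    have hρi : ρ⁻¹ ^ (q + 1) = 1 := by rw [inv_pow, hρ, inv_one]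
    obtain ⟨z, hzi, hzj⟩ : ∃ z : Fin n, z ≠ i ∧ z ≠ j := by
      have hcard : ({i, j} : Finset (Fin n)).card < (Finset.univ : Finset (Fin n)).card := by
        have h2 : ({i, j} : Finset (Fin n)).card ≤ 2 := Finset.card_le_two
        rw [Finset.card_univ, Fintype.card_fin]
        omega
      obtain ⟨z, -, hz⟩ := Finset.exists_mem_notMem_of_card_lt_card hcard
      rw [Finset.mem_insert, Finset.mem_singleton] at hz
      push Not at hz
      exact ⟨z, hz.1, hz.2⟩
    have hunit : ∀ c : Fin n,
        Cfsg.hermForm n F q (Pi.single c 1 : Fin n → F) (Pi.single c 1) = 1 := by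
      intro c
      rw [hf_single_left, Pi.single_eq_same, one_pow]
    obtain ⟨A, hA⟩ : ∃ A : Matrix (Fin n) (Fin n) F,
        A = qrefl q n (Pi.single i 1) ρ * qrefl q n (Pi.single z 1) ρ⁻¹ := ⟨_, rfl⟩
    have hAx : ∀ (x : Fin n → F) (r : Fin n),
        (A *ᵥ x) r = (if r = i then ρ else 1) * ((if r = z then ρ⁻¹ else 1) * x r) := by
      intro x r
      rw [hA, ← Matrix.mulVec_mulVec, udk2orb_scale hF, udk2orb_scale hF]
    have hpres : suPres q n A := by
      intro x y
      rw [hA, ← Matrix.mulVec_mulVec, ← Matrix.mulVec_mulVec,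
        qrefl_preserves hF n _ ρ (hunit i) hρ, qrefl_preserves hF n _ ρ⁻¹ (hunit z) hρi]
    have hdet : A.det = 1 := by
      rw [hA, Matrix.det_mul, qrefl_det n _ ρ (hunit i), qrefl_det n _ ρ⁻¹ (hunit z)]
      exact mul_inv_cancel₀ hρ0
    have hAblk : IsBlk (blkOf e) A := by
      refine ⟨1, fun r s hrs => ?_⟩
      rw [Equiv.Perm.one_apply]
      by_cases hrseq : r = s
      · rw [hrseq]
      · exfalso
        apply hrs
        have h3 : A r s = (A *ᵥ Pi.single s 1) r := by
          rw [Matrix.mulVec_single_one]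
          rfl
        rw [h3, hAx, Pi.single_eq_of_ne hrseq, mul_zero, mul_zero]
    have hMA : MIn X A := udk2orb_mIn hB hpres hdet hAblk
    have hc3 := hc2.map hX' hMA
    have hc4 := Cen.smul hF hc3 ρ⁻¹
    have e2 : ρ⁻¹ • (A *ᵥ (Pi.single i 1 + ε1 • Pi.single j 1))
        = Pi.single i 1 + ε • Pi.single j 1 := by
      funext r
      rw [Pi.smul_apply, hAx]
      simp only [Pi.add_apply, Pi.smul_apply, smul_eq_mul, Pi.single_apply]
      have hρε : ρ⁻¹ * ε1 = ε := by
        rw [hρdef]
        field_simp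
      by_cases r1 : r = i
      · rw [r1]
        simp [hzi.symm, hij, hρ0]
      · by_cases r2 : r = j
        · rw [r2]
          simp [hij.symm, hzj.symm, hρε]
        · simp [r1, r2]
    rw [e2] at hc4
    exact hc4

end Cfsg.Agent.Lib.Helper44.UD
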