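import Cfsg.Agent.Lib.Helper47.SpConj
import Cfsg.Agent.Lib.Helper47.SymForm
import Cfsg.Agent.Lib.Helper47.SemiCount

/-!
# Nilpotent skew-adjoint endomorphisms of alternating spaces: frames

Definitions for the classification of unipotent classes of `Sp_{2m}(q)`, `q` odd, via the Cayley
transform: a *frame* of a triple `(V, B, N)` (`B` alternating, `N` skew-adjoint nilpotent) is a
family `x : ι → V` with sizes `d : ι → ℕ` and Gram data `G : ι → ι → F` such that the vectors
`N ^ a (x i)`, `a < d i`, form a basis of `V` on which `B` is in normal form.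
-/

set_option autoImplicit false

namespace Cfsg.Agent.Lib.Helper47

open Module

section UniDefs

variable {F : Type*} [Field F]

/-- `N` is skew-adjoint for `B`. -/
def IsSkewAdj {V : Type*} [AddCommGroup V] [Module F V] (B : V → V → F) (N : V →ₗ[F] V) : Prop :=
  ∀ x y, B (N x) y = -B x (N y)

/-- The bilinear form on `κ → F` with Gram matrix `G`. -/
def gForm {κ : Type*} [Fintype κ] (G : κ → κ → F) (v w : κ → F) : F :=
  ∑ a, ∑ b, v a * G a b * w b

/-- The `j`-th layer form of Gram data `G` with sizes `d`: the form with Gram matrix `G` restricted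
to the indices of size `j`. -/
def layerForm {ι : Type*} [Fintype ι] (d : ι → ℕ) (G : ι → ι → F) (j : ℕ)
    (v w : {i : ι // d i = j} → F) : F :=
  gForm (fun a b : {i : ι // d i = j} => G a b) v w

/-- A frame of `(V, B, N)`: the vectors `N ^ a (x i)` (`a < d i`) have Gram matrix in normal form
with nondegenerate layers, and there are `dim V` of them (so they form a basis). -/
structure IsFrame {V : Type*} [AddCommGroup V] [Module F V] {ι : Type*} [Fintype ι]
    (B : V → V → F) (N : V →ₗ[F] V) (d : ι → ℕ) (G : ι → ι → F) (x : ι → V) : Prop where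
  pos : ∀ i, 0 < d i
  kill : ∀ i, (N ^ d i) (x i) = 0
  gram : ∀ i k a b, B ((N ^ a) (x i)) ((N ^ b) (x k))
    = if d i = d k ∧ a + b + 1 = d i then (-1) ^ a * G i k else 0
  nondeg : ∀ j, Nondeg (layerForm d G j)
  card : ∑ i, d i = finrank F V

/-- A form admitting an orthonormal family of full size. -/
def IsStd {L : Type*} [AddCommGroup L] [Module F L] (s : L → L → F) : Prop :=
  ∃ v : Fin (finrank F L) → L, ∀ a c, s (v a) (v c) = if a = c then 1 else 0

/-- Isometry of forms. -/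
def FormIso {L L' : Type*} [AddCommGroup L] [Module F L] [AddCommGroup L'] [Module F L']
    (s : L → L → F) (s' : L' → L' → F) : Prop :=
  ∃ ψ : L ≃ₗ[F] L', ∀ v w, s' (ψ v) (ψ w) = s v w

/-- Isometry of triples `(V, B, N)`. -/
def TripleIso {V V' : Type*} [AddCommGroup V] [Module F V] [AddCommGroup V'] [Module F V']
    (B : V → V → F) (N : V →ₗ[F] V) (B' : V' → V' → F) (N' : V' →ₗ[F] V') : Prop :=
  ∃ φ : V ≃ₗ[F] V', (∀ x y, B' (φ x) (φ y) = B x y) ∧ ∀ x, φ (N x) = N' (φ x)

lemma FormIso.refl {L : Type*} [AddCommGroup L] [Module F L] (s : L → L → F) : FormIso s s :=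
  ⟨LinearEquiv.refl F L, fun _ _ => rfl⟩

lemma FormIso.symm {L L' : Type*} [AddCommGroup L] [Module F L] [AddCommGroup L'] [Module F L']
    {s : L → L → F} {s' : L' → L' → F} (h : FormIso s s') : FormIso s' s := by
  obtain ⟨ψ, hψ⟩ := h
  refine ⟨ψ.symm, fun v w => ?_⟩
  rw [← hψ, ψ.apply_symm_apply, ψ.apply_symm_apply]

lemma FormIso.trans {L L' L'' : Type*} [AddCommGroup L] [Module F L] [AddCommGroup L']
    [Module F L'] [AddCommGroup L''] [Module F L''] {s : L → L → F} {s' : L' → L' → F}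
    {s'' : L'' → L'' → F} (h : FormIso s s') (h' : FormIso s' s'') : FormIso s s'' := by
  obtain ⟨ψ, hψ⟩ := h
  obtain ⟨ψ', hψ'⟩ := h'
  refine ⟨ψ.trans ψ', fun v w => ?_⟩
  rw [LinearEquiv.trans_apply, LinearEquiv.trans_apply, hψ', hψ]

lemma FormIso.finrank_eq {L L' : Type*} [AddCommGroup L] [Module F L] [AddCommGroup L']
    [Module F L'] {s : L → L → F} {s' : L' → L' → F} (h : FormIso s s') :
    finrank F L = finrank F L' := by
  obtain ⟨ψ, -⟩ := h
  exact ψ.finrank_eq

lemma FormIso.isStd {L L' : Type*} [AddCommGroup L] [Module F L] [AddCommGroup L']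
    [Module F L'] {s : L → L → F} {s' : L' → L' → F} (h : FormIso s s') (hs : IsStd s) :
    IsStd s' := by
  have hfr := h.finrank_eq
  obtain ⟨ψ, hψ⟩ := h
  obtain ⟨v, hv⟩ := hs
  refine ⟨fun a => ψ (v (Fin.cast hfr.symm a)), fun a c => ?_⟩
  rw [hψ, hv]
  by_cases hac : a = c
  · rw [if_pos hac, if_pos (by rw [hac])]
  · rw [if_neg hac, if_neg (fun h => hac (Fin.cast_injective _ h))]

lemma FormIso.isStd_iff {L L' : Type*} [AddCommGroup L] [Module F L] [AddCommGroup L']
    [Module F L'] {s : L → L → F} {s' : L' → L' → F} (h : FormIso s s') :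
    IsStd s ↔ IsStd s' :=
  ⟨h.isStd, h.symm.isStd⟩

lemma TripleIso.refl {V : Type*} [AddCommGroup V] [Module F V] (B : V → V → F)
    (N : V →ₗ[F] V) : TripleIso B N B N :=
  ⟨LinearEquiv.refl F V, fun _ _ => rfl, fun _ => rfl⟩

lemma TripleIso.symm {V V' : Type*} [AddCommGroup V] [Module F V] [AddCommGroup V']
    [Module F V'] {B : V → V → F} {N : V →ₗ[F] V} {B' : V' → V' → F} {N' : V' →ₗ[F] V'}
    (h : TripleIso B N B' N') : TripleIso B' N' B N := by
  obtain ⟨φ, hφ, hφN⟩ := h
  refine ⟨φ.symm, fun v w => ?_, fun x => ?_⟩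
  · rw [← hφ, φ.apply_symm_apply, φ.apply_symm_apply]
  · apply φ.injective
    rw [hφN, φ.apply_symm_apply, φ.apply_symm_apply]

lemma TripleIso.trans {V V' V'' : Type*} [AddCommGroup V] [Module F V] [AddCommGroup V']
    [Module F V'] [AddCommGroup V''] [Module F V''] {B : V → V → F} {N : V →ₗ[F] V}
    {B' : V' → V' → F} {N' : V' →ₗ[F] V'} {B'' : V'' → V'' → F} {N'' : V'' →ₗ[F] V''}
    (h : TripleIso B N B' N') (h' : TripleIso B' N' B'' N'') : TripleIso B N B'' N'' := by
  obtain ⟨φ, hφ, hφN⟩ := h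
  obtain ⟨φ', hφ', hφN'⟩ := h'
  refine ⟨φ.trans φ', fun v w => ?_, fun x => ?_⟩
  · rw [LinearEquiv.trans_apply, LinearEquiv.trans_apply, hφ', hφ]
  · rw [LinearEquiv.trans_apply, LinearEquiv.trans_apply, hφN, hφN']

/-- Frames transport along isometries of triples. -/
lemma IsFrame.map {V V' : Type*} [AddCommGroup V] [Module F V] [AddCommGroup V'] [Module F V']
    {ι : Type*} [Fintype ι] {B : V → V → F} {N : V →ₗ[F] V} {B' : V' → V' → F}
    {N' : V' →ₗ[F] V'} {d : ι → ℕ} {G : ι → ι → F} {x : ι → V} (hx : IsFrame B N d G x)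
    (φ : V ≃ₗ[F] V') (hφ : ∀ x y, B' (φ x) (φ y) = B x y) (hφN : ∀ x, φ (N x) = N' (φ x)) :
    IsFrame B' N' d G (fun i => φ (x i)) := by
  have hpow : ∀ (a : ℕ) (v : V), (N' ^ a) (φ v) = φ ((N ^ a) v) := by
    intro a
    induction a with
    | zero => intro v; simp
    | succ a ih =>
      intro v
      rw [pow_succ, pow_succ, Module.End.mul_apply, Module.End.mul_apply, ← hφN, ih]
  refine ⟨hx.pos, fun i => ?_, fun i k a b => ?_, hx.nondeg, ?_⟩
  · rw [hpow, hx.kill, map_zero]
  · rw [hpow, hpow, hφ, hx.gram]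
  · rw [hx.card, φ.finrank_eq]

/-- Gram data of an orthogonal sum of two frames. -/
def sumGram {ι₁ ι₂ : Type*} (G₁ : ι₁ → ι₁ → F) (G₂ : ι₂ → ι₂ → F) : ι₁ ⊕ ι₂ → ι₁ ⊕ ι₂ → F
  | .inl i, .inl k => G₁ i k
  | .inr i, .inr k => G₂ i k
  | _, _ => 0

/-- The Cayley transform `(M - 1) (M + 1)⁻¹` of a matrix. -/
noncomputable def cayM {n : Type*} [Fintype n] [DecidableEq n] (M : Matrix n n F) : Matrix n n F :=
  (M - 1) * (M + 1)⁻¹

/-- `HasData B N μ A`: some frame of `(V, B, N)` has multiset of sizes `μ`, and `A` is the set of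
even sizes whose layer form is standard. -/
def HasData {V : Type*} [AddCommGroup V] [Module F V] (B : V → V → F) (N : V →ₗ[F] V)
    (μ : Multiset ℕ) (A : Finset ℕ) : Prop :=
  ∃ (ι : Type) (_ : Fintype ι) (d : ι → ℕ) (G : ι → ι → F) (x : ι → V),
    IsFrame B N d G x ∧ Multiset.map d Finset.univ.val = μ ∧
      ∀ j, j ∈ A ↔ (Even j ∧ j ∈ μ ∧ IsStd (layerForm d G j))

end UniDefs

end Cfsg.Agent.Lib.Helper47
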