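import Cfsg.Agent.Lib.Helper47.UniPieces

/-!
# Unipotent classes of `Sp_{2m}(q)`, `q` odd: assembly
-/

set_option autoImplicit false

namespace Cfsg.Agent.Lib.Helper47

open Module UniSkel

universe u

section UniMain

variable {F : Type u} [Field F]

lemma skew_pow {V : Type*} [AddCommGroup V] [Module F V] {B : V → V → F} {N : V →ₗ[F] V}
    (hN : IsSkewAdj B N) (k : ℕ) (x y : V) :
    B ((N ^ k) x) y = (-1) ^ k * B x ((N ^ k) y) := by
  induction k generalizing x y with
  | zero => simp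
  | succ k ih =>
    rw [pow_succ, Module.End.mul_apply, ih, hN, ← Module.End.mul_apply, ← pow_succ', ← pow_succ]
    rw [pow_succ (-1 : F)]
    ring

/-- Existence of frames. -/
theorem exists_frame [Finite F] (h2 : (2 : F) ≠ 0) :
    ∀ (n : ℕ) (V : Type u) [AddCommGroup V] [Module F V] [FiniteDimensional F V]
      (B : V → V → F) (N : V →ₗ[F] V), finrank F V = n → IsSForm (RingHom.id F) (-1) B →
      Nondeg B → IsSkewAdj B N → (∃ k, N ^ k = 0) →
      ∃ (ι : Type) (_ : Fintype ι) (d : ι → ℕ) (G : ι → ι → F) (x : ι → V),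
        IsFrame B N d G x := by
  intro n
  induction n using Nat.strong_induction_on with
  | _ n ih =>
    intro V _ _ _ B N hn hB hnd hN hnil
    rcases Nat.eq_zero_or_pos n with h0 | hpos
    · subst h0
      refine ⟨Empty, inferInstance, Empty.elim, fun i _ => 0, Empty.elim, ?_⟩
      refine ⟨fun i => i.elim, fun i => i.elim, fun i => i.elim, fun j v _ => ?_, ?_⟩
      · funext i
        exact i.1.elim
      · rw [hn]
        simp
    · have hnt : Nontrivial V := Module.finrank_pos_iff.mp (by rw [hn]; exact hpos)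
      classical
      have hk0 : Nat.find hnil ≠ 0 := by
        intro h
        have h1 := Nat.find_spec hnil
        rw [h, pow_zero] at h1
        obtain ⟨v, hv⟩ := exists_ne (0 : V)
        apply hv
        have h3 := congrArg (fun f : Module.End F V => f v) h1
        simpa using h3
      obtain ⟨j, hj⟩ : ∃ j, Nat.find hnil = j + 1 := Nat.exists_eq_succ_of_ne_zero hk0
      have hNj1 : N ^ (j + 1) = 0 := hj ▸ Nat.find_spec hnil
      have hNj : N ^ j ≠ 0 := fun h => Nat.find_min hnil (by omega : j < Nat.find hnil) h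
      obtain ⟨r, x, hr, hxnd⟩ := exists_top hB h2 hnd hN j hNj
      obtain ⟨y, hy1, hy2⟩ := exists_normalize hB h2 hN j hNj1 x hxnd
      obtain ⟨d₁, hd₁⟩ : ∃ d₁ : Fin r → ℕ, d₁ = fun _ => j + 1 := ⟨_, rfl⟩
      obtain ⟨G₁, hG₁⟩ : ∃ G₁ : Fin r → Fin r → F, G₁ = fun a b => B (y a) ((N ^ j) (y b)) :=
        ⟨_, rfl⟩
      have hkill : ∀ i, (N ^ d₁ i) (y i) = 0 := fun i => by rw [hd₁, hNj1]; rfl
      have hgram : ∀ i k a b, B ((N ^ a) (y i)) ((N ^ b) (y k))
          = if d₁ i = d₁ k ∧ a + b + 1 = d₁ i then (-1) ^ a * G₁ i k else 0 := by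
        intro i k a b
        rw [skew_pow hN, ← Module.End.mul_apply, ← pow_add, hd₁, hG₁]
        by_cases hab : a + b + 1 = j + 1
        · rw [if_pos ⟨rfl, hab⟩]
          have : a + b = j := by omega
          rw [this]
        · rw [if_neg (fun h => hab h.2)]
          rcases Nat.lt_or_gt_of_ne (show a + b ≠ j by omega) with hlt | hgt
          · rw [hy2 _ hlt, mul_zero]
          · have h0 : N ^ (a + b) = 0 := by
              obtain ⟨c, hc⟩ := Nat.exists_eq_add_of_le (show j + 1 ≤ a + b by omega)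
              rw [hc, pow_add, hNj1, zero_mul]
            rw [h0, LinearMap.zero_apply, hB.zero_right, mul_zero]
      have hnd₁ : ∀ j', Nondeg (layerForm d₁ G₁ j') := by
        rw [hd₁]
        refine nondeg_layer_const G₁ (j + 1) ?_
        have : G₁ = fun a b => B (x a) ((N ^ j) (x b)) := by
          rw [hG₁]
          funext a b
          exact hy1 a b
        rw [this]
        exact hxnd
      let P : Submodule F V :=
        { carrier := {v | ∀ i a, B ((N ^ a) (y i)) v = 0}
          add_mem' := fun {u v} hu hv i a => by rw [hB.add_right, hu i a, hv i a, add_zero]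
          zero_mem' := fun i a => hB.zero_right _
          smul_mem' := fun c v hv i a => by rw [hB.smul_right, hv i a, mul_zero] }
      have hP : ∀ v, v ∈ P ↔ ∀ i a, B ((N ^ a) (y i)) v = 0 := fun v => Iff.rfl
      have hNP : ∀ v ∈ P, N v ∈ P := by
        intro v hv i a
        have h1 := hN ((N ^ a) (y i)) v
        rw [← Module.End.mul_apply, ← pow_succ', hv i (a + 1)] at h1
        exact neg_eq_zero.mp h1.symm
      obtain ⟨hcard, hndP⟩ := finrank_orth_top hB hnd d₁ G₁ y hkill hgram hnd₁ P hP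
      have hlt : finrank F P < n := by
        have h1 : 0 < ∑ i : Fin r, d₁ i := by
          rw [hd₁, Finset.sum_const, Finset.card_univ, Fintype.card_fin, smul_eq_mul]
          exact Nat.mul_pos hr (Nat.succ_pos j)
        omega
      have hskP : IsSkewAdj (resForm B P) (N.restrict hNP) := fun u v => hN u v
      have hnilP : ∃ k, (N.restrict hNP) ^ k = 0 := by
        refine ⟨j + 1, ?_⟩
        apply LinearMap.ext
        intro v
        apply Subtype.ext
        rw [Module.End.pow_restrict]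
        simp [hNj1]
      obtain ⟨ι₂, _, d₂, G₂, x₂, hx₂⟩ := ih (finrank F P) hlt P (resForm B P) (N.restrict hNP)
        rfl (hB.res P) hndP hskP hnilP
      exact ⟨Fin r ⊕ ι₂, inferInstance, Sum.elim d₁ d₂, sumGram G₁ G₂,
        Sum.elim y (fun i => (x₂ i : V)),
        frame_combine hB d₁ G₁ y (fun _ => by rw [hd₁]; exact Nat.succ_pos j) hkill hgram hnd₁
          P hP hNP hcard d₂ G₂ x₂ hx₂⟩

lemma gForm_isSForm {κ : Type*} [Fintype κ] (G : κ → κ → F) (ε : F)
    (hG : ∀ a b, G b a = ε * G a b) : IsSForm (RingHom.id F) ε (gForm G) where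
  add_left x y z := by simp [gForm, add_mul, Finset.sum_add_distrib]
  smul_left c x y := by simp [gForm, Finset.mul_sum, mul_assoc]
  symm x y := by
    simp only [gForm, RingHom.id_apply, Finset.mul_sum]
    rw [Finset.sum_comm]
    refine Finset.sum_congr rfl fun a _ => Finset.sum_congr rfl fun b _ => ?_
    rw [hG a b]
    ring

lemma layer_isSForm {V : Type*} [AddCommGroup V] [Module F V]
    {ι : Type*} [Fintype ι] {B : V → V → F} {N : V →ₗ[F] V} {d : ι → ℕ} {G : ι → ι → F}
    {x : ι → V} (hB : IsSForm (RingHom.id F) (-1) B) (hx : IsFrame B N d G x) (j : ℕ) :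
    IsSForm (RingHom.id F) ((-1) ^ j) (layerForm d G j) := by
  apply gForm_isSForm
  intro a b
  have h := frame_gram_symm hB hx a.1 b.1 (a.2.trans b.2.symm)
  rw [a.2] at h
  exact h

lemma layerForm_zero_left {ι : Type*} [Fintype ι] (d : ι → ℕ) (G : ι → ι → F) (j : ℕ)
    (w : {i : ι // d i = j} → F) : layerForm d G j 0 w = 0 := by
  simp [layerForm, gForm]

lemma count_map_univ {ι : Type*} [Fintype ι] (d : ι → ℕ) (j : ℕ) :
    Multiset.count j (Multiset.map d Finset.univ.val) = finrank F ({i : ι // d i = j} → F) := by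
  classical
  rw [Module.finrank_fintype_fun_eq_card, Multiset.count_map, ← Finset.filter_val,
    ← Finset.card_def, Fintype.card_subtype]
  congr 1
  ext i
  simp [eq_comm]

/-- Nondegenerate alternating forms of the same dimension over a finite field are isometric. -/
theorem alt_formIso [Finite F] {L L' : Type u} [AddCommGroup L] [Module F L]
    [FiniteDimensional F L] [AddCommGroup L'] [Module F L'] [FiniteDimensional F L']
    {s : L → L → F} {s' : L' → L' → F} (hs : IsSForm (RingHom.id F) (-1) s)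
    (hs' : IsSForm (RingHom.id F) (-1) s') (halt : ∀ v, s v v = 0) (halt' : ∀ v, s' v v = 0)
    (hnd : Nondeg s) (hnd' : Nondeg s') (hdim : finrank F L = finrank F L') : FormIso s s' := by
  obtain ⟨φ, -, hφ⟩ := exists_isometry_conj (σ := RingHom.id F) (ε := -1) (fun x => rfl)
    (Or.inl ⟨rfl, rfl⟩) _ L L' s s' LinearMap.id LinearMap.id rfl hs hs' hnd hnd'
    (fun _ => halt) (fun _ => halt') Module.End.isSemisimple_id Module.End.isSemisimple_id
    (fun x y => rfl) (fun x y => rfl)
    (by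
      have h1 : (LinearMap.id : Module.End F L) = 1 := rfl
      have h2 : (LinearMap.id : Module.End F L') = 1 := rfl
      rw [h1, h2, LinearMap.charpoly_one, LinearMap.charpoly_one, hdim])
  exact ⟨φ, hφ⟩

theorem layer_formIso_of_tripleIso {V V' : Type*} [AddCommGroup V] [Module F V]
    [FiniteDimensional F V] [AddCommGroup V'] [Module F V'] [FiniteDimensional F V']
    {ι ι' : Type*} [Fintype ι] [Fintype ι'] {B : V → V → F} {N : V →ₗ[F] V}
    {B' : V' → V' → F} {N' : V' →ₗ[F] V'} {d : ι → ℕ} {G : ι → ι → F} {x : ι → V}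
    {d' : ι' → ℕ} {G' : ι' → ι' → F} {x' : ι' → V'}
    (hB : IsSForm (RingHom.id F) (-1) B) (hB' : IsSForm (RingHom.id F) (-1) B')
    (hx : IsFrame B N d G x) (hx' : IsFrame B' N' d' G' x') (h : TripleIso B N B' N') (j : ℕ) :
    FormIso (layerForm d G j) (layerForm d' G' j) := by
  obtain ⟨φ, hφ, hφN⟩ := h
  obtain ⟨hli, hsp⟩ := frame_basis hB hx
  obtain ⟨hli', hsp'⟩ := frame_basis hB' hx'
  obtain ⟨ψ, hψ⟩ := layer_map_of_triple_map hB hB' hx hx' hli' hsp' φ.toLinearMap hφ hφN j
  obtain ⟨ψ', hψ'⟩ := layer_map_of_triple_map hB' hB hx' hx hli hsp φ.symm.toLinearMap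
    (fun u v => by
      have := hφ (φ.symm u) (φ.symm v)
      rw [φ.apply_symm_apply, φ.apply_symm_apply] at this
      exact this.symm)
    (fun u => by
      apply φ.injective
      have := hφN (φ.symm u)
      rw [φ.apply_symm_apply] at this
      simp only [LinearEquiv.coe_coe, φ.apply_symm_apply]
      exact this.symm) j
  have hinj : Function.Injective ψ := by
    rw [← LinearMap.ker_eq_bot, LinearMap.ker_eq_bot']
    intro v hv
    apply hx.nondeg j
    intro w
    rw [← hψ, hv, layerForm_zero_left]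
  have hinj' : Function.Injective ψ' := by
    rw [← LinearMap.ker_eq_bot, LinearMap.ker_eq_bot']
    intro v hv
    apply hx'.nondeg j
    intro w
    rw [← hψ', hv, layerForm_zero_left]
  have hfr : finrank F ({i : ι // d i = j} → F) = finrank F ({i : ι' // d' i = j} → F) :=
    le_antisymm (LinearMap.finrank_le_finrank_of_injective hinj)
      (LinearMap.finrank_le_finrank_of_injective hinj')
  refine ⟨LinearMap.linearEquivOfInjective ψ hinj hfr, fun v w => ?_⟩
  rw [LinearMap.linearEquivOfInjective_apply, LinearMap.linearEquivOfInjective_apply, hψ]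

theorem tripleIso_of_layer_formIso {V V' : Type*} [AddCommGroup V] [Module F V]
    [FiniteDimensional F V] [AddCommGroup V'] [Module F V'] [FiniteDimensional F V']
    {ι ι' : Type*} [Fintype ι] [Fintype ι'] {B : V → V → F} {N : V →ₗ[F] V}
    {B' : V' → V' → F} {N' : V' →ₗ[F] V'} {d : ι → ℕ} {G : ι → ι → F} {x : ι → V}
    {d' : ι' → ℕ} {G' : ι' → ι' → F} {x' : ι' → V'}
    (hB : IsSForm (RingHom.id F) (-1) B) (hB' : IsSForm (RingHom.id F) (-1) B')
    (hx : IsFrame B N d G x) (hx' : IsFrame B' N' d' G' x')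
    (hdim : finrank F V = finrank F V')
    (h : ∀ j, FormIso (layerForm d G j) (layerForm d' G' j)) : TripleIso B N B' N' := by
  choose ψ hψ using h
  obtain ⟨y, hy⟩ := frame_change hB' hx' hx.pos hx.nondeg (hx.card.trans hdim)
    (fun j => (ψ j).toLinearMap) (fun j v w => hψ j v w)
  obtain ⟨hli, hsp⟩ := frame_basis hB hx
  obtain ⟨hli', hsp'⟩ := frame_basis hB' hy
  exact triple_iso_of_same_frame hB hB' hx hy hli hsp hli' hsp'

lemma frame_pow_eq_zero {V : Type*} [AddCommGroup V] [Module F V]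
    {ι : Type*} [Fintype ι] {B : V → V → F} {N : V →ₗ[F] V} {d : ι → ℕ} {G : ι → ι → F}
    {x : ι → V} (hx : IsFrame B N d G x)
    (hsp : Submodule.span F (Set.range (fun s : (i : ι) × Fin (d i) => (N ^ (s.2 : ℕ)) (x s.1))) = ⊤)
    (k : ℕ) (h : ∀ i, d i ≤ k) : N ^ k = 0 := by
  apply LinearMap.ext
  intro v
  have hv : v ∈ Submodule.span F
      (Set.range (fun s : (i : ι) × Fin (d i) => (N ^ (s.2 : ℕ)) (x s.1))) := by
    rw [hsp]
    trivial
  rw [LinearMap.zero_apply]
  induction hv using Submodule.span_induction with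
  | mem u hu =>
    obtain ⟨s, rfl⟩ := hu
    obtain ⟨c, hc⟩ := Nat.exists_eq_add_of_le (h s.1)
    simp only
    rw [← Module.End.mul_apply, ← pow_add, hc, show d s.1 + c + (s.2 : ℕ) = (c + (s.2 : ℕ)) + d s.1 by ring,
      pow_add, Module.End.mul_apply, hx.kill, map_zero]
  | zero => exact map_zero _
  | add u w _ _ hu hw => rw [map_add, hu, hw, add_zero]
  | smul c u _ hu => rw [map_smul, hu, smul_zero]

lemma isStd_of_finrank_zero {L : Type*} [AddCommGroup L] [Module F L] (s : L → L → F)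
    (h : finrank F L = 0) : IsStd s :=
  ⟨fun _ => 0, fun a _ => (Nat.not_lt_zero _ (lt_of_lt_of_eq a.2 h)).elim⟩

lemma alt_of_neg {L : Type*} [AddCommGroup L] [Module F L] {s : L → L → F} (h2 : (2 : F) ≠ 0)
    (hs : IsSForm (RingHom.id F) (-1) s) (v : L) : s v v = 0 := by
  have h1 := hs.symm v v
  rw [RingHom.id_apply] at h1
  have h3 : (2 : F) * s v v = 0 := by linear_combination h1
  rcases mul_eq_zero.mp h3 with h | h
  · exact absurd h h2
  · exact h

theorem exists_hasData [Finite F] (h2 : (2 : F) ≠ 0) {V : Type u} [AddCommGroup V] [Module F V]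
    [FiniteDimensional F V] {B : V → V → F} {N : V →ₗ[F] V}
    (hB : IsSForm (RingHom.id F) (-1) B) (hnd : Nondeg B) (hN : IsSkewAdj B N)
    (hnil : ∃ k, N ^ k = 0) : ∃ t : Multiset ℕ × Finset ℕ, HasData B N t.1 t.2 := by
  classical
  obtain ⟨ι, _, d, G, x, hx⟩ := exists_frame h2 _ V B N rfl hB hnd hN hnil
  refine ⟨(Multiset.map d Finset.univ.val, (Multiset.map d Finset.univ.val).toFinset.filter
    (fun j => Even j ∧ IsStd (layerForm d G j))), ι, inferInstance, d, G, x, hx, rfl, fun j => ?_⟩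
  rw [Finset.mem_filter, Multiset.mem_toFinset]
  tauto

theorem hasData_unique {V V' : Type*} [AddCommGroup V] [Module F V]
    [FiniteDimensional F V] [AddCommGroup V'] [Module F V'] [FiniteDimensional F V']
    {B : V → V → F} {N : V →ₗ[F] V} {B' : V' → V' → F} {N' : V' →ₗ[F] V'}
    (hB : IsSForm (RingHom.id F) (-1) B) (hB' : IsSForm (RingHom.id F) (-1) B')
    {μ μ' : Multiset ℕ} {A A' : Finset ℕ} (h : HasData B N μ A) (h' : HasData B' N' μ' A')
    (hi : TripleIso B N B' N') : μ = μ' ∧ A = A' := by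
  obtain ⟨ι, _, d, G, x, hx, hμ, hA⟩ := h
  obtain ⟨ι', _, d', G', x', hx', hμ', hA'⟩ := h'
  have hl := layer_formIso_of_tripleIso hB hB' hx hx' hi
  have hμμ : μ = μ' := by
    rw [← hμ, ← hμ']
    ext j
    rw [count_map_univ (F := F), count_map_univ (F := F)]
    exact (hl j).finrank_eq
  refine ⟨hμμ, ?_⟩
  ext j
  rw [hA, hA', hμμ, (hl j).isStd_iff]

theorem tripleIso_of_hasData [Fintype F] (h2 : (2 : F) ≠ 0) (hodd : Fintype.card F % 2 = 1)
    {V V' : Type*} [AddCommGroup V] [Module F V]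
    [FiniteDimensional F V] [AddCommGroup V'] [Module F V'] [FiniteDimensional F V']
    {B : V → V → F} {N : V →ₗ[F] V} {B' : V' → V' → F} {N' : V' →ₗ[F] V'}
    (hB : IsSForm (RingHom.id F) (-1) B) (hB' : IsSForm (RingHom.id F) (-1) B')
    {μ : Multiset ℕ} {A : Finset ℕ} (h : HasData B N μ A) (h' : HasData B' N' μ A)
    (hdim : finrank F V = finrank F V') : TripleIso B N B' N' := by
  obtain ⟨ι, _, d, G, x, hx, hμ, hA⟩ := h
  obtain ⟨ι', _, d', G', x', hx', hμ', hA'⟩ := h'
  refine tripleIso_of_layer_formIso hB hB' hx hx' hdim (fun j => ?_)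
  have hfr : finrank F ({i : ι // d i = j} → F) = finrank F ({i : ι' // d' i = j} → F) := by
    rw [← count_map_univ, ← count_map_univ, hμ, hμ']
  have hs := layer_isSForm hB hx j
  have hs' := layer_isSForm hB' hx' j
  rcases Nat.even_or_odd j with hj | hj
  · rw [hj.neg_one_pow] at hs hs'
    refine sym_formIso h2 hodd hs hs' (hx.nondeg j) (hx'.nondeg j) hfr ?_
    by_cases hjμ : j ∈ μ
    · have h1 := hA j
      have h3 := hA' j
      constructor
      · intro h
        exact (h3.mp (h1.mpr ⟨hj, hjμ, h⟩)).2.2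
      · intro h
        exact (h1.mp (h3.mpr ⟨hj, hjμ, h⟩)).2.2
    · have h0 : finrank F ({i : ι // d i = j} → F) = 0 := by
        rw [← count_map_univ, hμ]
        exact Multiset.count_eq_zero_of_notMem hjμ
      have h0' : finrank F ({i : ι' // d' i = j} → F) = 0 := by
        rw [← hfr]
        exact h0
      exact ⟨fun _ => isStd_of_finrank_zero _ h0', fun _ => isStd_of_finrank_zero _ h0⟩
  · rw [hj.neg_one_pow] at hs hs'
    exact alt_formIso hs hs' (alt_of_neg h2 hs) (alt_of_neg h2 hs') (hx.nondeg j)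
      (hx'.nondeg j) hfr

theorem hasData_props (h2 : (2 : F) ≠ 0) {V : Type*} [AddCommGroup V] [Module F V]
    [FiniteDimensional F V] {B : V → V → F} {N : V →ₗ[F] V}
    (hB : IsSForm (RingHom.id F) (-1) B) {μ : Multiset ℕ} {A : Finset ℕ}
    (h : HasData B N μ A) :
    μ.sum = finrank F V ∧ (∀ a ∈ μ, 0 < a) ∧ (∀ k, N ^ k = 0 → ∀ a ∈ μ, a ≤ k) ∧
      (∀ j, Odd j → Even (μ.count j)) ∧ (N ≠ 0 ↔ ∃ a ∈ μ, 2 ≤ a) ∧
      ∀ j ∈ A, Even j ∧ j ∈ μ := by
  obtain ⟨ι, _, d, G, x, hx, hμ, hA⟩ := h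
  obtain ⟨hli, hsp⟩ := frame_basis hB hx
  have hmem : ∀ a ∈ μ, ∃ i, d i = a := by
    intro a ha
    rw [← hμ, Multiset.mem_map] at ha
    obtain ⟨i, -, hi⟩ := ha
    exact ⟨i, hi⟩
  have hle : ∀ k, N ^ k = 0 → ∀ a ∈ μ, a ≤ k := by
    intro k hk a ha
    obtain ⟨i, rfl⟩ := hmem a ha
    exact frame_le_of_pow_eq_zero hB hx k hk i
  refine ⟨?_, ?_, hle, ?_, ?_, ?_⟩
  · rw [← hμ]
    exact hx.card
  · intro a ha
    obtain ⟨i, rfl⟩ := hmem a ha
    exact hx.pos i
  · intro j hj
    rw [← hμ, count_map_univ (F := F)]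
    have hs := layer_isSForm hB hx j
    rw [hj.neg_one_pow] at hs
    exact Cfsg.Agent.Lib.Helper78.Quad.even_finrank_of_alt hs (alt_of_neg h2 hs) (hx.nondeg j)
  · constructor
    · intro hN0
      by_contra hcon
      push Not at hcon
      apply hN0
      have h1 : N ^ 1 = 0 := by
        apply frame_pow_eq_zero hx hsp 1
        intro i
        have := hcon (d i) (by rw [← hμ]; exact Multiset.mem_map_of_mem d (Finset.mem_univ_val i))
        omega
      rwa [pow_one] at h1
    · rintro ⟨a, ha, h2a⟩ hN0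
      have := hle 1 (by rw [pow_one]; exact hN0) a ha
      omega
  · intro j hj
    have := (hA j).mp hj
    exact ⟨this.1, this.2.1⟩

theorem exists_std_hasData [Fintype F] (h2 : (2 : F) ≠ 0) (p m : ℕ) (μ : Multiset ℕ)
    (A : Finset ℕ) (hsum : μ.sum = 2 * m) (hpos : ∀ a ∈ μ, 0 < a) (hle : ∀ a ∈ μ, a ≤ p)
    (hcnt : ∀ j, Odd j → Even (μ.count j)) (hA : ∀ j ∈ A, Even j ∧ j ∈ μ) :
    ∃ N : (Fin m ⊕ Fin m → F) →ₗ[F] (Fin m ⊕ Fin m → F),
      IsSkewAdj (spForm (Fin m) F) N ∧ N ^ p = 0 ∧ HasData (spForm (Fin m) F) N μ A := by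
  classical
  obtain ⟨ι, _, d, G, hμ, hsymm, hnd, hstd⟩ := exists_data
    (fun k hk b => exists_gram_sym h2 k hk b) (fun c => exists_gram_alt c) μ hpos hcnt A
  have hmemd : ∀ i, d i ∈ μ := fun i => by
    rw [← hμ]
    exact Multiset.mem_map_of_mem d (Finset.mem_univ_val i)
  obtain ⟨B₀, N₀, x₀, hB₀, hnd₀, hsk₀, hx₀⟩ := exists_model d G (fun i => hpos _ (hmemd i))
    hsymm hnd
  have hfr : finrank F (((i : ι) × Fin (d i)) → F) = finrank F (Fin m ⊕ Fin m → F) := by
    rw [← hx₀.card, Module.finrank_fintype_fun_eq_card, Fintype.card_sum, Fintype.card_fin]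
    have : ∑ i, d i = μ.sum := by
      rw [← hμ]
      rfl
    omega
  obtain ⟨φ, hφ⟩ := alt_formIso hB₀ spForm_isSForm (alt_of_neg h2 hB₀)
    (fun v => spForm_alt v) hnd₀ spForm_nondeg hfr
  have hφN : ∀ v, φ (N₀ v)
      = (φ.toLinearMap ∘ₗ N₀ ∘ₗ φ.symm.toLinearMap) (φ v) := by
    intro v
    simp
  have hfrm := hx₀.map φ hφ hφN
  obtain ⟨hli, hsp⟩ := frame_basis spForm_isSForm hfrm
  refine ⟨φ.toLinearMap ∘ₗ N₀ ∘ₗ φ.symm.toLinearMap, ?_, ?_, ι, inferInstance, d, G,
    fun i => φ (x₀ i), hfrm, hμ, fun j => ?_⟩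
  · intro u v
    have h1 := hsk₀ (φ.symm u) (φ.symm v)
    rw [← hφ, ← hφ, φ.apply_symm_apply, φ.apply_symm_apply] at h1
    simpa using h1
  · exact frame_pow_eq_zero hfrm hsp p (fun i => hle _ (hmemd i))
  · constructor
    · intro hj
      exact ⟨(hA j hj).1, (hA j hj).2, (hstd j (hA j hj).1 (hA j hj).2).mpr hj⟩
    · rintro ⟨hj, hjμ, hs⟩
      exact (hstd j hj hjμ).mp hs

end UniMain

section SpMain

variable {F : Type u} [Field F] [Fintype F]

open Classical in
/-- The class invariant of an element of order `p` of `Sp_{2m}(q)`. -/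
noncomputable def spData (p m : ℕ) (g : Matrix.symplecticGroup (Fin m) F) :
    Multiset ℕ × Finset ℕ :=
  if orderOf g = p then
    Classical.epsilon (fun t : Multiset ℕ × Finset ℕ => HasData (spForm (Fin m) F)
      (Matrix.toLin' (cayM (g : Matrix (Fin m ⊕ Fin m) (Fin m ⊕ Fin m) F))) t.1 t.2)
  else (0, ∅)

omit [Fintype F] in
lemma toLin'_pow' {n : Type*} [Fintype n] [DecidableEq n] (M : Matrix n n F) (k : ℕ) :
    Matrix.toLin' M ^ k = Matrix.toLin' (M ^ k) := by
  induction k with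
  | zero => rw [pow_zero, pow_zero, Matrix.toLin'_one]; rfl
  | succ k ih => rw [pow_succ, pow_succ, ih, Matrix.toLin'_mul]; rfl

open Classical in
theorem sp_card_order_p_classes {p : ℕ} [Fact p.Prime] [CharP F p] (hp : p ≠ 2) (m : ℕ) :
    Nat.card {C : ConjClasses ↥(Matrix.symplecticGroup (Fin m) F) //
        ∃ g : Matrix.symplecticGroup (Fin m) F, ConjClasses.mk g = C ∧ orderOf g = p}
      = Nat.card {t : Multiset ℕ × Finset ℕ //
        (t.1.sum = 2 * m ∧ (∀ a ∈ t.1, 0 < a ∧ a ≤ p) ∧ (∀ j, Odd j → Even (t.1.count j)) ∧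
          ∃ a ∈ t.1, 2 ≤ a) ∧ t.2 ⊆ t.1.toFinset.filter (fun j => Even j)} := by
  have hpp : p.Prime := Fact.out
  have h2 : (2 : F) ≠ 0 := by
    intro h
    have h1 : ((2 : ℕ) : F) = 0 := by exact_mod_cast h
    rw [CharP.cast_eq_zero_iff F p] at h1
    exact hp ((Nat.prime_dvd_prime_iff_eq hpp Nat.prime_two).mp h1)
  have hodd : Fintype.card F % 2 = 1 := by
    obtain ⟨n, hn⟩ := FiniteField.card F p
    rw [hn.2]
    have hpo : Odd p := hpp.odd_of_ne_two hp
    exact Nat.odd_iff.mp hpo.pow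
  -- facts about elements of order p
  have key : ∀ g : Matrix.symplecticGroup (Fin m) F, orderOf g = p →
      IsUnit ((g : Matrix (Fin m ⊕ Fin m) (Fin m ⊕ Fin m) F) + 1).det ∧
      (Matrix.toLin' (cayM (g : Matrix (Fin m ⊕ Fin m) (Fin m ⊕ Fin m) F))) ^ p = 0 ∧
      Matrix.toLin' (cayM (g : Matrix (Fin m ⊕ Fin m) (Fin m ⊕ Fin m) F)) ≠ 0 ∧
      (1 - cayM (g : Matrix (Fin m ⊕ Fin m) (Fin m ⊕ Fin m) F))
        * (g : Matrix (Fin m ⊕ Fin m) (Fin m ⊕ Fin m) F)
        = 1 + cayM (g : Matrix (Fin m ⊕ Fin m) (Fin m ⊕ Fin m) F) ∧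
      IsUnit (1 - cayM (g : Matrix (Fin m ⊕ Fin m) (Fin m ⊕ Fin m) F)).det ∧
      IsSkewAdj (spForm (Fin m) F)
        (Matrix.toLin' (cayM (g : Matrix (Fin m ⊕ Fin m) (Fin m ⊕ Fin m) F))) ∧
      HasData (spForm (Fin m) F)
        (Matrix.toLin' (cayM (g : Matrix (Fin m ⊕ Fin m) (Fin m ⊕ Fin m) F)))
        (spData p m g).1 (spData p m g).2 := by
    intro g hg
    have hM : (g : Matrix (Fin m ⊕ Fin m) (Fin m ⊕ Fin m) F) ^ p = 1 := by
      rw [← SubmonoidClass.coe_pow, ← hg, pow_orderOf_eq_one]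
      rfl
    obtain ⟨hu, hNp, hN0, hNM, hu'⟩ := cay_props p hp _ hM
    have hsk := cay_skew _ g.2 hu
    have hnil : (Matrix.toLin' (cayM (g : Matrix (Fin m ⊕ Fin m) (Fin m ⊕ Fin m) F))) ^ p = 0 := by
      rw [toLin'_pow', hNp, map_zero]
    refine ⟨hu, hnil, ?_, hNM, hu', hsk, ?_⟩
    · intro h0
      have h1 : cayM (g : Matrix (Fin m ⊕ Fin m) (Fin m ⊕ Fin m) F) = 0 :=
        Matrix.toLin'.injective (by rw [h0, map_zero])
      have h3 : g = 1 := Subtype.ext (hN0.mp h1)
      rw [h3, orderOf_one] at hg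
      exact hpp.one_lt.ne hg
    · have hex := exists_hasData h2 spForm_isSForm spForm_nondeg hsk ⟨p, hnil⟩
      unfold spData
      rw [if_pos hg]
      exact Classical.epsilon_spec hex
  refine card_classes_eq (fun g => orderOf g = p) (spData p m) ?_ ?_ _ ?_
  · -- invariance
    intro g h hgh
    obtain ⟨c, hc⟩ := isConj_iff.mp hgh
    by_cases hg : orderOf g = p
    · have hh : orderOf h = p := by
        rw [← hc, ← MulAut.conj_apply, MulEquiv.orderOf_eq]
        exact hg
      obtain ⟨hu, -, -, -, -, -, hD⟩ := key g hg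
      obtain ⟨hu', -, -, -, -, -, hD'⟩ := key h hh
      have hPM : (c : Matrix (Fin m ⊕ Fin m) (Fin m ⊕ Fin m) F)
          * (g : Matrix (Fin m ⊕ Fin m) (Fin m ⊕ Fin m) F)
          = (h : Matrix (Fin m ⊕ Fin m) (Fin m ⊕ Fin m) F)
            * (c : Matrix (Fin m ⊕ Fin m) (Fin m ⊕ Fin m) F) := by
        have h1 : c * g = h * c := by rw [← hc]; group
        exact congrArg Subtype.val h1
      have hPN := cay_conj _ _ _ hu hu' hPM
      have hinv1 : (c : Matrix (Fin m ⊕ Fin m) (Fin m ⊕ Fin m) F)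
          * ((c⁻¹ : Matrix.symplecticGroup (Fin m) F) :
            Matrix (Fin m ⊕ Fin m) (Fin m ⊕ Fin m) F) = 1 :=
        congrArg Subtype.val (mul_inv_cancel c)
      have hinv2 : ((c⁻¹ : Matrix.symplecticGroup (Fin m) F) :
            Matrix (Fin m ⊕ Fin m) (Fin m ⊕ Fin m) F)
          * (c : Matrix (Fin m ⊕ Fin m) (Fin m ⊕ Fin m) F) = 1 :=
        congrArg Subtype.val (inv_mul_cancel c)
      have hti : TripleIso (spForm (Fin m) F)
          (Matrix.toLin' (cayM (g : Matrix (Fin m ⊕ Fin m) (Fin m ⊕ Fin m) F)))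
          (spForm (Fin m) F)
          (Matrix.toLin' (cayM (h : Matrix (Fin m ⊕ Fin m) (Fin m ⊕ Fin m) F))) := by
        refine ⟨LinearEquiv.ofLinearMap
          (Matrix.toLin' (c : Matrix (Fin m ⊕ Fin m) (Fin m ⊕ Fin m) F))
          (Matrix.toLin' ((c⁻¹ : Matrix.symplecticGroup (Fin m) F) :
            Matrix (Fin m ⊕ Fin m) (Fin m ⊕ Fin m) F))
          (by rw [← Matrix.toLin'_mul, hinv1, Matrix.toLin'_one])
          (by rw [← Matrix.toLin'_mul, hinv2, Matrix.toLin'_one]), ?_, ?_⟩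
        · intro x y
          exact spForm_isometry c.2 x y
        · intro x
          simp only [LinearEquiv.coe_ofLinearMap]
          rw [← LinearMap.comp_apply, ← Matrix.toLin'_mul, hPN, Matrix.toLin'_mul,
            LinearMap.comp_apply]
      have := hasData_unique spForm_isSForm spForm_isSForm hD hD' hti
      exact Prod.ext this.1 this.2
    · have hh : ¬ orderOf h = p := by
        rw [← hc, ← MulAut.conj_apply, MulEquiv.orderOf_eq]
        exact hg
      unfold spData
      rw [if_neg hg, if_neg hh]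
  · -- same data implies conjugate
    intro g h hg hh hgh
    obtain ⟨-, -, -, hNM, -, -, hD⟩ := key g hg
    obtain ⟨-, -, -, hNM', hu', -, hD'⟩ := key h hh
    rw [hgh] at hD
    obtain ⟨φ, hφ, hφN⟩ := tripleIso_of_hasData h2 hodd spForm_isSForm spForm_isSForm hD hD' rfl
    have hP : LinearMap.toMatrix' φ.toLinearMap ∈ Matrix.symplecticGroup (Fin m) F :=
      mem_sp_of_isometry (fun x y => by
        rw [← Matrix.toLin'_apply, ← Matrix.toLin'_apply, Matrix.toLin'_toMatrix']
        exact hφ x y)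
    have hPN : LinearMap.toMatrix' φ.toLinearMap
        * cayM (g : Matrix (Fin m ⊕ Fin m) (Fin m ⊕ Fin m) F)
        = cayM (h : Matrix (Fin m ⊕ Fin m) (Fin m ⊕ Fin m) F)
          * LinearMap.toMatrix' φ.toLinearMap := by
      apply Matrix.toLin'.injective
      rw [Matrix.toLin'_mul, Matrix.toLin'_mul, Matrix.toLin'_toMatrix']
      apply LinearMap.ext
      intro x
      rw [LinearMap.comp_apply, LinearMap.comp_apply]
      exact hφN x
    have hPM : LinearMap.toMatrix' φ.toLinearMap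
        * (g : Matrix (Fin m ⊕ Fin m) (Fin m ⊕ Fin m) F)
        = (h : Matrix (Fin m ⊕ Fin m) (Fin m ⊕ Fin m) F)
          * LinearMap.toMatrix' φ.toLinearMap := by
      have hunit : IsUnit (1 - cayM (h : Matrix (Fin m ⊕ Fin m) (Fin m ⊕ Fin m) F)) :=
        (Matrix.isUnit_iff_isUnit_det _).mpr hu'
      apply hunit.mul_left_cancel
      calc (1 - cayM (h : Matrix (Fin m ⊕ Fin m) (Fin m ⊕ Fin m) F))
            * (LinearMap.toMatrix' φ.toLinearMap
              * (g : Matrix (Fin m ⊕ Fin m) (Fin m ⊕ Fin m) F))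
          = LinearMap.toMatrix' φ.toLinearMap
            * ((1 - cayM (g : Matrix (Fin m ⊕ Fin m) (Fin m ⊕ Fin m) F))
              * (g : Matrix (Fin m ⊕ Fin m) (Fin m ⊕ Fin m) F)) := by
            rw [← mul_assoc, ← mul_assoc, sub_mul, mul_sub, one_mul, mul_one, hPN]
        _ = (1 + cayM (h : Matrix (Fin m ⊕ Fin m) (Fin m ⊕ Fin m) F))
            * LinearMap.toMatrix' φ.toLinearMap := by
            rw [hNM, mul_add, add_mul, one_mul, mul_one, hPN]
        _ = (1 - cayM (h : Matrix (Fin m ⊕ Fin m) (Fin m ⊕ Fin m) F))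
            * ((h : Matrix (Fin m ⊕ Fin m) (Fin m ⊕ Fin m) F)
              * LinearMap.toMatrix' φ.toLinearMap) := by
            rw [← mul_assoc, hNM']
    rw [isConj_iff]
    refine ⟨⟨_, hP⟩, ?_⟩
    rw [mul_inv_eq_iff_eq_mul]
    apply Subtype.ext
    exact hPM
  · -- the image
    rintro ⟨μ, A⟩
    simp only
    constructor
    · rintro ⟨⟨hsum, hposle, hcnt, hex⟩, hA⟩
      obtain ⟨N, hsk, hNp, hD⟩ := exists_std_hasData h2 p m μ A hsum
        (fun a ha => (hposle a ha).1) (fun a ha => (hposle a ha).2) hcnt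
        (fun j hj => by
          have := hA hj
          rw [Finset.mem_filter, Multiset.mem_toFinset] at this
          exact ⟨this.2, this.1⟩)
      have hprops := hasData_props h2 spForm_isSForm hD
      have hN0 : N ≠ 0 := hprops.2.2.2.2.1.mpr hex
      have hNm : Matrix.toLin' (LinearMap.toMatrix' N) = N := Matrix.toLin'_toMatrix' N
      obtain ⟨M, hM, hMp, hcay⟩ := cay_inv p hp (LinearMap.toMatrix' N)
        (by rw [hNm]; exact hsk)
        (Matrix.toLin'.injective (by rw [← toLin'_pow', hNm, hNp, map_zero]))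
      have hg1 : (⟨M, hM⟩ : Matrix.symplecticGroup (Fin m) F) ≠ 1 := by
        intro h1
        have hM1 : M = 1 := congrArg Subtype.val h1
        obtain ⟨-, -, hN0', -, -⟩ := cay_props p hp M hMp
        apply hN0
        rw [← hNm, ← hcay, hN0'.mpr hM1, map_zero]
      have hgp : (⟨M, hM⟩ : Matrix.symplecticGroup (Fin m) F) ^ p = 1 := by
        apply Subtype.ext
        rw [SubmonoidClass.coe_pow]
        exact hMp
      have hord : orderOf (⟨M, hM⟩ : Matrix.symplecticGroup (Fin m) F) = p :=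
        orderOf_eq_prime hgp hg1
      refine ⟨⟨M, hM⟩, hord, ?_⟩
      obtain ⟨-, -, -, -, -, -, hD'⟩ := key ⟨M, hM⟩ hord
      simp only at hD'
      rw [hcay, hNm] at hD'
      have := hasData_unique spForm_isSForm spForm_isSForm hD' hD (TripleIso.refl _ _)
      exact Prod.ext this.1 this.2
    · rintro ⟨g, hg, hgt⟩
      obtain ⟨-, hnil, hN0, -, -, -, hD⟩ := key g hg
      rw [hgt] at hD
      simp only at hD
      obtain ⟨h1, h3, h4, h5, h6, h7⟩ := hasData_props h2 spForm_isSForm hD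
      refine ⟨⟨?_, fun a ha => ⟨h3 a ha, h4 p hnil a ha⟩, h5, h6.mp hN0⟩, fun j hj => ?_⟩
      · rw [h1, Module.finrank_fintype_fun_eq_card, Fintype.card_sum, Fintype.card_fin]
        ring
      · rw [Finset.mem_filter, Multiset.mem_toFinset]
        exact ⟨(h7 j hj).2, (h7 j hj).1⟩

end SpMain

end Cfsg.Agent.Lib.Helper47
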