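import Cfsg.Agent.Lib.Helper47.UniDefs
import Cfsg.Agent.Lib.Helper21.UniCHANGE
import Cfsg.Agent.Lib.Helper26.UniSYMCLASS
import Cfsg.Agent.Lib.Helper26.UniSYMEX
import Cfsg.Agent.Lib.Helper31.UniBASIS
import Cfsg.Agent.Lib.Helper35.UniNORMALIZE
import Cfsg.Agent.Lib.Helper4.UniCAYB
import Cfsg.Agent.Lib.Helper4.UniCOUNT
import Cfsg.Agent.Lib.Helper43.UniMODEL
import Cfsg.Agent.Lib.Helper55.UniCONSTLAYER
import Cfsg.Agent.Lib.Helper64.UniEXDATA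
import Cfsg.Agent.Lib.Helper64.UniSAME
import Cfsg.Agent.Lib.Helper73.UniORTHDIM
import Cfsg.Agent.Lib.Helper77.UniLAYERMAP
import Cfsg.Agent.Lib.Helper77.UniPROPS
import Cfsg.Agent.Lib.Helper78.UniCOMBINE
import Cfsg.Agent.Lib.Helper8.UniTOP
import Cfsg.Agent.Lib.Helper94.UniALTEX
import Cfsg.Agent.Lib.Helper94.UniCAYA
import Cfsg.Agent.Lib.Helper78.QuadEVENALT

/-!
# Pieces of the S2676 project (proved by other seats), restated in one namespace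
-/

set_option autoImplicit false

namespace Cfsg.Agent.Lib.Helper47.UniSkel

open Cfsg.Agent.Lib.Helper47 Module

universe u

section Pieces

variable {F : Type u} [Field F]

-- PIECE BASIS
theorem frame_basis {V : Type*} [AddCommGroup V] [Module F V] [FiniteDimensional F V]
    {ι : Type*} [Fintype ι] {B : V → V → F} {N : V →ₗ[F] V} {d : ι → ℕ} {G : ι → ι → F}
    {x : ι → V} (hB : IsSForm (RingHom.id F) (-1) B) (hx : IsFrame B N d G x) :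
    LinearIndependent F (fun s : (i : ι) × Fin (d i) => (N ^ (s.2 : ℕ)) (x s.1)) ∧
    Submodule.span F (Set.range (fun s : (i : ι) × Fin (d i) => (N ^ (s.2 : ℕ)) (x s.1))) = ⊤ :=
  Cfsg.Agent.Lib.Helper31.Uni.frame_basis hB hx

-- PIECE PROPS (three theorems)
theorem frame_le_of_pow_eq_zero {V : Type*} [AddCommGroup V] [Module F V]
    {ι : Type*} [Fintype ι] {B : V → V → F} {N : V →ₗ[F] V} {d : ι → ℕ} {G : ι → ι → F}
    {x : ι → V} (hB : IsSForm (RingHom.id F) (-1) B) (hx : IsFrame B N d G x) (k : ℕ)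
    (hk : N ^ k = 0) (i : ι) : d i ≤ k :=
  Cfsg.Agent.Lib.Helper77.Uni.frame_le_of_pow_eq_zero hB hx k hk i

theorem frame_gram_symm {V : Type*} [AddCommGroup V] [Module F V]
    {ι : Type*} [Fintype ι] {B : V → V → F} {N : V →ₗ[F] V} {d : ι → ℕ} {G : ι → ι → F}
    {x : ι → V} (hB : IsSForm (RingHom.id F) (-1) B) (hx : IsFrame B N d G x) (i k : ι)
    (h : d i = d k) : G k i = (-1) ^ d i * G i k :=
  Cfsg.Agent.Lib.Helper77.Uni.frame_gram_symm hB hx i k h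

theorem frame_eq_zero_of_le_one {V : Type*} [AddCommGroup V] [Module F V]
    {ι : Type*} [Fintype ι] {B : V → V → F} {N : V →ₗ[F] V} {d : ι → ℕ} {G : ι → ι → F}
    {x : ι → V} (hx : IsFrame B N d G x)
    (hsp : Submodule.span F (Set.range (fun s : (i : ι) × Fin (d i) => (N ^ (s.2 : ℕ)) (x s.1))) = ⊤)
    (h : ∀ i, d i ≤ 1) : N = 0 :=
  Cfsg.Agent.Lib.Helper77.Uni.frame_eq_zero_of_le_one hx hsp h

-- PIECE TOP
theorem exists_top {V : Type*} [AddCommGroup V] [Module F V] {B : V → V → F} {N : V →ₗ[F] V}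
    (hB : IsSForm (RingHom.id F) (-1) B) (h2 : (2 : F) ≠ 0) (hnd : Nondeg B)
    (hN : IsSkewAdj B N) (j : ℕ) (hj' : N ^ j ≠ 0) :
    ∃ (r : ℕ) (x : Fin r → V), 0 < r ∧
      Nondeg (gForm (fun a b : Fin r => B (x a) ((N ^ j) (x b)))) :=
  Cfsg.Agent.Lib.Helper8.Uni.exists_top hB h2 hnd hN j hj'

-- PIECE NORMALIZE
theorem exists_normalize {V : Type*} [AddCommGroup V] [Module F V] {B : V → V → F}
    {N : V →ₗ[F] V} (hB : IsSForm (RingHom.id F) (-1) B) (h2 : (2 : F) ≠ 0)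
    (hN : IsSkewAdj B N) (j : ℕ) (hj : N ^ (j + 1) = 0) {r : ℕ} (x : Fin r → V)
    (hx : Nondeg (gForm (fun a b : Fin r => B (x a) ((N ^ j) (x b))))) :
    ∃ y : Fin r → V, (∀ a b, B (y a) ((N ^ j) (y b)) = B (x a) ((N ^ j) (x b))) ∧
      ∀ k, k < j → ∀ a b, B (y a) ((N ^ k) (y b)) = 0 :=
  Cfsg.Agent.Lib.Helper35.Uni.exists_normalize hB h2 hN j hj x hx

-- PIECE CONSTLAYER
theorem nondeg_layer_const {κ : Type*} [Fintype κ] (G : κ → κ → F) (c : ℕ)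
    (h : Nondeg (gForm G)) (j : ℕ) : Nondeg (layerForm (fun _ : κ => c) G j) :=
  Cfsg.Agent.Lib.Helper55.Uni.nondeg_layer_const G c h j

-- PIECE ORTHDIM
theorem finrank_orth_top [Finite F] {V : Type*} [AddCommGroup V] [Module F V]
    [FiniteDimensional F V] {B : V → V → F} {N : V →ₗ[F] V}
    (hB : IsSForm (RingHom.id F) (-1) B) (hnd : Nondeg B)
    {ι₁ : Type*} [Fintype ι₁] (d₁ : ι₁ → ℕ) (G₁ : ι₁ → ι₁ → F) (x₁ : ι₁ → V)
    (hkill : ∀ i, (N ^ d₁ i) (x₁ i) = 0)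
    (hgram : ∀ i k a b, B ((N ^ a) (x₁ i)) ((N ^ b) (x₁ k))
      = if d₁ i = d₁ k ∧ a + b + 1 = d₁ i then (-1) ^ a * G₁ i k else 0)
    (hnd₁ : ∀ j, Nondeg (layerForm d₁ G₁ j))
    (P : Submodule F V) (hP : ∀ v, v ∈ P ↔ ∀ i a, B ((N ^ a) (x₁ i)) v = 0) :
    ∑ i, d₁ i + finrank F P = finrank F V ∧ Nondeg (resForm B P) :=
  Cfsg.Agent.Lib.Helper73.Uni.finrank_orth_top hB hnd d₁ G₁ x₁ hkill hgram hnd₁ P hP

-- PIECE COMBINE
theorem frame_combine {V : Type*} [AddCommGroup V] [Module F V]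
    [FiniteDimensional F V] {B : V → V → F} {N : V →ₗ[F] V}
    (hB : IsSForm (RingHom.id F) (-1) B)
    {ι₁ ι₂ : Type*} [Fintype ι₁] [Fintype ι₂] (d₁ : ι₁ → ℕ) (G₁ : ι₁ → ι₁ → F) (x₁ : ι₁ → V)
    (hpos : ∀ i, 0 < d₁ i) (hkill : ∀ i, (N ^ d₁ i) (x₁ i) = 0)
    (hgram : ∀ i k a b, B ((N ^ a) (x₁ i)) ((N ^ b) (x₁ k))
      = if d₁ i = d₁ k ∧ a + b + 1 = d₁ i then (-1) ^ a * G₁ i k else 0)
    (hnd₁ : ∀ j, Nondeg (layerForm d₁ G₁ j))
    (P : Submodule F V) (hP : ∀ v, v ∈ P ↔ ∀ i a, B ((N ^ a) (x₁ i)) v = 0)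
    (hNP : ∀ v ∈ P, N v ∈ P) (hcard : ∑ i, d₁ i + finrank F P = finrank F V)
    (d₂ : ι₂ → ℕ) (G₂ : ι₂ → ι₂ → F) (x₂ : ι₂ → P)
    (hx₂ : IsFrame (resForm B P) (N.restrict hNP) d₂ G₂ x₂) :
    IsFrame B N (Sum.elim d₁ d₂) (sumGram G₁ G₂) (Sum.elim x₁ (fun i => (x₂ i : V))) :=
  Cfsg.Agent.Lib.Helper78.Uni.frame_combine hB d₁ G₁ x₁ hpos hkill hgram hnd₁ P hP hNP hcard d₂ G₂ x₂ hx₂

-- PIECE LAYERMAP
theorem layer_map_of_triple_map {V V' : Type*} [AddCommGroup V] [Module F V]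
    [AddCommGroup V'] [Module F V'] [FiniteDimensional F V']
    {ι ι' : Type*} [Fintype ι] [Fintype ι'] {B : V → V → F} {N : V →ₗ[F] V}
    {B' : V' → V' → F} {N' : V' →ₗ[F] V'} {d : ι → ℕ} {G : ι → ι → F} {x : ι → V}
    {d' : ι' → ℕ} {G' : ι' → ι' → F} {x' : ι' → V'}
    (hB : IsSForm (RingHom.id F) (-1) B) (hB' : IsSForm (RingHom.id F) (-1) B')
    (hx : IsFrame B N d G x) (hx' : IsFrame B' N' d' G' x')
    (hli' : LinearIndependent F (fun s : (i : ι') × Fin (d' i) => (N' ^ (s.2 : ℕ)) (x' s.1)))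
    (hsp' : Submodule.span F
      (Set.range (fun s : (i : ι') × Fin (d' i) => (N' ^ (s.2 : ℕ)) (x' s.1))) = ⊤)
    (φ : V →ₗ[F] V') (hφ : ∀ x y, B' (φ x) (φ y) = B x y) (hφN : ∀ x, φ (N x) = N' (φ x))
    (j : ℕ) :
    ∃ ψ : ({i : ι // d i = j} → F) →ₗ[F] ({i : ι' // d' i = j} → F),
      ∀ v w, layerForm d' G' j (ψ v) (ψ w) = layerForm d G j v w :=
  Cfsg.Agent.Lib.Helper77.Uni.layer_map_of_triple_map hB hB' hx hx' hli' hsp' φ hφ hφN j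

-- PIECE CHANGE
theorem frame_change {V' : Type*} [AddCommGroup V'] [Module F V']
    {ι ι' : Type*} [Fintype ι] [Fintype ι'] {B' : V' → V' → F} {N' : V' →ₗ[F] V'}
    {d : ι → ℕ} {G : ι → ι → F} {d' : ι' → ℕ} {G' : ι' → ι' → F} {x' : ι' → V'}
    (hB' : IsSForm (RingHom.id F) (-1) B') (hx' : IsFrame B' N' d' G' x')
    (hpos : ∀ i, 0 < d i) (hnd : ∀ j, Nondeg (layerForm d G j))
    (hcard : ∑ i, d i = finrank F V')
    (ψ : ∀ j, ({i : ι // d i = j} → F) →ₗ[F] ({i : ι' // d' i = j} → F))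
    (hψ : ∀ j v w, layerForm d' G' j (ψ j v) (ψ j w) = layerForm d G j v w) :
    ∃ y : ι → V', IsFrame B' N' d G y :=
  Cfsg.Agent.Lib.Helper21.Uni.frame_change hB' hx' hpos hnd hcard ψ hψ

-- PIECE SAME
theorem triple_iso_of_same_frame {V V' : Type*} [AddCommGroup V] [Module F V]
    [AddCommGroup V'] [Module F V']
    {ι : Type*} [Fintype ι] {B : V → V → F} {N : V →ₗ[F] V}
    {B' : V' → V' → F} {N' : V' →ₗ[F] V'} {d : ι → ℕ} {G : ι → ι → F} {x : ι → V}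
    {y : ι → V'}
    (hB : IsSForm (RingHom.id F) (-1) B) (hB' : IsSForm (RingHom.id F) (-1) B')
    (hx : IsFrame B N d G x) (hy : IsFrame B' N' d G y)
    (hli : LinearIndependent F (fun s : (i : ι) × Fin (d i) => (N ^ (s.2 : ℕ)) (x s.1)))
    (hsp : Submodule.span F
      (Set.range (fun s : (i : ι) × Fin (d i) => (N ^ (s.2 : ℕ)) (x s.1))) = ⊤)
    (hli' : LinearIndependent F (fun s : (i : ι) × Fin (d i) => (N' ^ (s.2 : ℕ)) (y s.1)))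
    (hsp' : Submodule.span F
      (Set.range (fun s : (i : ι) × Fin (d i) => (N' ^ (s.2 : ℕ)) (y s.1))) = ⊤) :
    TripleIso B N B' N' :=
  Cfsg.Agent.Lib.Helper64.Uni.triple_iso_of_same_frame hB hB' hx hy hli hsp hli' hsp'

-- PIECE SYMCLASS
theorem sym_formIso [Fintype F] (h2 : (2 : F) ≠ 0) (hodd : Fintype.card F % 2 = 1)
    {L L' : Type u} [AddCommGroup L] [Module F L] [FiniteDimensional F L]
    [AddCommGroup L'] [Module F L'] [FiniteDimensional F L'] {s : L → L → F}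
    {s' : L' → L' → F} (hs : IsSForm (RingHom.id F) 1 s) (hs' : IsSForm (RingHom.id F) 1 s')
    (hnd : Nondeg s) (hnd' : Nondeg s') (hdim : finrank F L = finrank F L')
    (hstd : IsStd s ↔ IsStd s') : FormIso s s' :=
  Cfsg.Agent.Lib.Helper26.Uni.sym_formIso h2 hodd hs hs' hnd hnd' hdim hstd

-- PIECE SYMEX
theorem exists_gram_sym [Fintype F] (h2 : (2 : F) ≠ 0) (k : ℕ) (hk : 0 < k) (b : Prop) :
    ∃ G : Fin k → Fin k → F, (∀ a c, G c a = G a c) ∧ Nondeg (gForm G) ∧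
      (IsStd (gForm G) ↔ b) :=
  Cfsg.Agent.Lib.Helper26.Uni.exists_gram_sym h2 k hk b

-- PIECE ALTEX
theorem exists_gram_alt (c : ℕ) :
    ∃ G : Fin (2 * c) → Fin (2 * c) → F, (∀ a b, G b a = -G a b) ∧ Nondeg (gForm G) :=
  Cfsg.Agent.Lib.Helper94.Uni.exists_gram_alt c

-- PIECE EXDATA
theorem exists_data
    (hsym : ∀ k : ℕ, 0 < k → ∀ b : Prop, ∃ G : Fin k → Fin k → F,
      (∀ a c, G c a = G a c) ∧ Nondeg (gForm G) ∧ (IsStd (gForm G) ↔ b))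
    (halt : ∀ c : ℕ, ∃ G : Fin (2 * c) → Fin (2 * c) → F,
      (∀ a b, G b a = -G a b) ∧ Nondeg (gForm G))
    (μ : Multiset ℕ) (hpos : ∀ a ∈ μ, 0 < a) (hcnt : ∀ j, Odd j → Even (μ.count j))
    (A : Finset ℕ) :
    ∃ (ι : Type) (_ : Fintype ι) (d : ι → ℕ) (G : ι → ι → F),
      Multiset.map d Finset.univ.val = μ ∧
      (∀ i k, d i = d k → G k i = (-1) ^ d i * G i k) ∧
      (∀ j, Nondeg (layerForm d G j)) ∧
      (∀ j, Even j → j ∈ μ → (IsStd (layerForm d G j) ↔ j ∈ A)) :=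
  Cfsg.Agent.Lib.Helper64.Uni.exists_data hsym halt μ hpos hcnt A

-- PIECE MODEL
theorem exists_model {ι : Type} [Fintype ι] (d : ι → ℕ) (G : ι → ι → F) (hpos : ∀ i, 0 < d i)
    (hsymm : ∀ i k, d i = d k → G k i = (-1) ^ d i * G i k)
    (hnd : ∀ j, Nondeg (layerForm d G j)) :
    ∃ (B : (((i : ι) × Fin (d i)) → F) → (((i : ι) × Fin (d i)) → F) → F)
      (N : (((i : ι) × Fin (d i)) → F) →ₗ[F] (((i : ι) × Fin (d i)) → F))
      (x : ι → (((i : ι) × Fin (d i)) → F)),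
      IsSForm (RingHom.id F) (-1) B ∧ Nondeg B ∧ IsSkewAdj B N ∧ IsFrame B N d G x :=
  Cfsg.Agent.Lib.Helper43.Uni.exists_model d G hpos hsymm hnd

-- PIECE CAYA
theorem cay_props (p : ℕ) [Fact p.Prime] [CharP F p] (hp : p ≠ 2) {n : Type*} [Fintype n]
    [DecidableEq n] (M : Matrix n n F) (hM : M ^ p = 1) :
    IsUnit (M + 1).det ∧ (cayM M) ^ p = 0 ∧ (cayM M = 0 ↔ M = 1) ∧
      (1 - cayM M) * M = 1 + cayM M ∧ IsUnit (1 - cayM M).det :=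
  Cfsg.Agent.Lib.Helper94.Uni.cay_props p hp M hM

theorem cay_conj {n : Type*} [Fintype n] [DecidableEq n] (M M' P : Matrix n n F)
    (hu : IsUnit (M + 1).det) (hu' : IsUnit (M' + 1).det) (h : P * M = M' * P) :
    P * cayM M = cayM M' * P :=
  Cfsg.Agent.Lib.Helper94.Uni.cay_conj M M' P hu hu' h

-- PIECE CAYB
theorem cay_skew {l : Type*} [Fintype l] [DecidableEq l] (M : Matrix (l ⊕ l) (l ⊕ l) F)
    (hM : M ∈ Matrix.symplecticGroup l F) (hu : IsUnit (M + 1).det) :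
    IsSkewAdj (spForm l F) (Matrix.toLin' (cayM M)) :=
  Cfsg.Agent.Lib.Helper4.Uni.cay_skew M hM hu

theorem cay_inv (p : ℕ) [Fact p.Prime] [CharP F p] (hp : p ≠ 2) {l : Type*} [Fintype l]
    [DecidableEq l] (N : Matrix (l ⊕ l) (l ⊕ l) F)
    (hN : IsSkewAdj (spForm l F) (Matrix.toLin' N)) (hNp : N ^ p = 0) :
    ∃ M : Matrix (l ⊕ l) (l ⊕ l) F, M ∈ Matrix.symplecticGroup l F ∧ M ^ p = 1 ∧
      cayM M = N :=
  Cfsg.Agent.Lib.Helper4.Uni.cay_inv p hp N hN hNp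

-- PIECE COUNT
open Classical in
theorem count_data (p : ℕ) (hp : 1 ≤ p) (m : ℕ) :
    Nat.card {t : Multiset ℕ × Finset ℕ //
        (t.1.sum = 2 * m ∧ (∀ a ∈ t.1, 0 < a ∧ a ≤ p) ∧ (∀ j, Odd j → Even (t.1.count j)) ∧
          ∃ a ∈ t.1, 2 ≤ a) ∧ t.2 ⊆ t.1.toFinset.filter (fun j => Even j)}
      = (∑ μ ∈ Finset.univ.filter (fun μ : Nat.Partition (2 * m) => (∀ a ∈ μ.parts, a ≤ p) ∧ ∀ j : ℕ, Odd j → Even (μ.parts.count j)), 2 ^ ((μ.parts.toFinset.filter (fun j : ℕ => Even j)).card)) - 1 :=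
  Cfsg.Agent.Lib.Helper4.Uni.count_data p hp m

end Pieces

end Cfsg.Agent.Lib.Helper47.UniSkel
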