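import Mathlib

set_option autoImplicit false

namespace Cfsg.Agent.Lib.Helper47

open Module

section core

/-- A fixed vector of `C` in the range of `C - 1` is zero, when `C ^ ℓ = 1` and `ℓ ≠ 0` in `F`. -/
theorem eq_zero_of_fixed_of_mem_range {F : Type*} [Field F] {V : Type*} [AddCommGroup V]
    [Module F V] (ℓ : ℕ) (hℓ : (ℓ : F) ≠ 0) (C : Module.End F V)
    (hC : C ^ ℓ = 1) (v : V) (hv : v ∈ LinearMap.range (C - 1)) (hfix : C v = v) : v = 0 := by
  obtain ⟨w, rfl⟩ := hv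
  have h1 : (∑ i ∈ Finset.range ℓ, C ^ i) * (C - 1) = 0 := by
    rw [geom_sum_mul, hC, sub_self]
  have h2 : (∑ i ∈ Finset.range ℓ, C ^ i) ((C - 1) w) = 0 := by
    rw [← Module.End.mul_apply, h1]
    rfl
  have h3 : ∀ i : ℕ, (C ^ i) ((C - 1) w) = (C - 1) w := by
    intro i
    induction i with
    | zero => simp
    | succ i ih => rw [pow_succ, Module.End.mul_apply, hfix, ih]
  rw [LinearMap.sum_apply] at h2
  simp only [h3, Finset.sum_const, Finset.card_range] at h2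
  rw [← Nat.cast_smul_eq_nsmul F] at h2
  exact (smul_eq_zero.mp h2).resolve_left hℓ

variable {F : Type*} [Field F] [Fintype F] {V : Type*} [AddCommGroup V] [Module F V]
  [FiniteDimensional F V]

/-- Orbit counting: `C` of prime order `ℓ` acts without fixed points on `B \ A` for `C`-invariant
`A ≤ B` inside the range of `C - 1`. -/
theorem dvd_card_diff (ℓ : ℕ) [hp : Fact ℓ.Prime] (hℓ : (ℓ : F) ≠ 0) (C : Module.End F V)
    (hC : C ^ ℓ = 1) (A B : Submodule F V) (hAB : A ≤ B) (hB : B ≤ LinearMap.range (C - 1))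
    (hCA : ∀ x ∈ A, C x ∈ A) (hCB : ∀ x ∈ B, C x ∈ B) :
    ℓ ∣ Fintype.card F ^ finrank F B - Fintype.card F ^ finrank F A := by
  classical
  have hfinV : Finite V := Module.finite_of_finite F
  have hinv : ∀ x, (C ^ (ℓ - 1)) (C x) = x := by
    intro x
    rw [← Module.End.mul_apply, ← pow_succ, Nat.sub_add_cancel hp.out.one_le, hC]
    rfl
  have hpowA : ∀ k : ℕ, ∀ x ∈ A, (C ^ k) x ∈ A := by
    intro k
    induction k with
    | zero =>
      intro x hx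
      simpa using hx
    | succ k ih =>
      intro x hx
      rw [pow_succ, Module.End.mul_apply]
      exact ih _ (hCA x hx)
  obtain ⟨X, hX⟩ : ∃ X : Type _, X = {x : V // x ∈ B ∧ x ∉ A} := ⟨_, rfl⟩
  subst hX
  have hfinX : Fintype {x : V // x ∈ B ∧ x ∉ A} := Fintype.ofFinite _
  let f : Function.End {x : V // x ∈ B ∧ x ∉ A} := fun x =>
    ⟨C x.1, hCB _ x.2.1, fun h => x.2.2 (by
      have := hpowA (ℓ - 1) _ h
      rwa [hinv] at this)⟩
  have hfpow : ∀ k : ℕ, ∀ x : {x : V // x ∈ B ∧ x ∉ A}, ((f ^ k) x).1 = (C ^ k) x.1 := by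
    intro k
    induction k with
    | zero =>
      intro x
      rfl
    | succ k ih =>
      intro x
      rw [pow_succ, pow_succ, Module.End.mul_apply]
      exact ih (f x)
  have hf : f ^ ℓ ^ 1 = 1 := by
    funext x
    apply Subtype.ext
    rw [pow_one, hfpow, hC]
    rfl
  have key := Equiv.Perm.card_fixedPoints_modEq (f := f) (p := ℓ) (n := 1) hf
  have hempty : IsEmpty ↥(Function.fixedPoints f) := by
    refine ⟨fun ⟨x, hx⟩ => ?_⟩
    have h1 : C x.1 = x.1 := congrArg Subtype.val hx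
    have h2 := eq_zero_of_fixed_of_mem_range ℓ hℓ C hC x.1 (hB x.2.1) h1
    apply x.2.2
    rw [h2]
    exact A.zero_mem
  rw [Fintype.card_eq_zero_iff.mpr hempty] at key
  have hdvd : ℓ ∣ Fintype.card {x : V // x ∈ B ∧ x ∉ A} := (Nat.modEq_zero_iff_dvd).mp key
  have hcard : Fintype.card {x : V // x ∈ B ∧ x ∉ A}
      = Fintype.card F ^ finrank F B - Fintype.card F ^ finrank F A := by
    rw [← Nat.card_eq_fintype_card]
    have h1 : Nat.card {x : V // x ∈ B ∧ x ∉ A} = ((B : Set V) \ (A : Set V)).ncard := by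
      rw [← Nat.card_coe_set_eq]
      rfl
    have h2 : (B : Set V).ncard = Fintype.card F ^ finrank F B := by
      rw [← Nat.card_coe_set_eq]
      have := Module.natCard_eq_pow_finrank (K := F) (V := ↥B)
      rw [Nat.card_eq_fintype_card (α := F)] at this
      exact this
    have h3 : (A : Set V).ncard = Fintype.card F ^ finrank F A := by
      rw [← Nat.card_coe_set_eq]
      have := Module.natCard_eq_pow_finrank (K := F) (V := ↥A)
      rw [Nat.card_eq_fintype_card (α := F)] at this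
      exact this
    rw [h1, Set.ncard_sdiff (by exact hAB) (Set.toFinite _), h2, h3]
  rw [hcard] at hdvd
  exact hdvd

/-- One step of a `C`-invariant chain. -/
theorem step_lemma (ℓ : ℕ) [hp : Fact ℓ.Prime] (hℓ : (ℓ : F) ≠ 0) (hℓq : ¬ ℓ ∣ Fintype.card F)
    (C : Module.End F V) (hC : C ^ ℓ = 1)
    (U W : Submodule F V) (hUW : U ≤ W) (hCU : ∀ x ∈ U, C x ∈ U) (hCW : ∀ x ∈ W, C x ∈ W) :
    U ⊓ LinearMap.range (C - 1) = W ⊓ LinearMap.range (C - 1) ∨
      ∃ e, 1 ≤ e ∧ e + finrank F U ≤ finrank F W ∧ ℓ ∣ Fintype.card F ^ e - 1 := by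
  by_cases h : U ⊓ LinearMap.range (C - 1) = W ⊓ LinearMap.range (C - 1)
  · exact Or.inl h
  right
  obtain ⟨Z, hZ⟩ : ∃ Z, Z = LinearMap.range (C - 1) := ⟨_, rfl⟩
  rw [← hZ] at h
  have hle : U ⊓ Z ≤ W ⊓ Z := inf_le_inf_right Z hUW
  have hlt : U ⊓ Z < W ⊓ Z := lt_of_le_of_ne hle h
  have hfr : finrank F ↥(U ⊓ Z) < finrank F ↥(W ⊓ Z) := Submodule.finrank_lt_finrank_of_lt hlt
  have hCZ : ∀ x ∈ Z, C x ∈ Z := by
    intro x hx
    rw [hZ] at hx ⊢
    obtain ⟨y, rfl⟩ := hx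
    refine ⟨C y, ?_⟩
    simp only [LinearMap.sub_apply, Module.End.one_apply, map_sub]
  have hdvd := dvd_card_diff ℓ hℓ C hC (U ⊓ Z) (W ⊓ Z) hle (by rw [hZ]; exact inf_le_right)
    (fun x hx => ⟨hCU x hx.1, hCZ x hx.2⟩) (fun x hx => ⟨hCW x hx.1, hCZ x hx.2⟩)
  refine ⟨finrank F ↥(W ⊓ Z) - finrank F ↥(U ⊓ Z), by omega, ?_, ?_⟩
  · have h1 := Submodule.finrank_sup_add_finrank_inf_eq (W ⊓ Z) U
    have h2 : (W ⊓ Z) ⊓ U = U ⊓ Z := by
      rw [inf_comm, ← inf_assoc, inf_eq_left.mpr hUW]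
    have h3 : finrank F ↥((W ⊓ Z) ⊔ U) ≤ finrank F ↥W :=
      Submodule.finrank_mono (sup_le inf_le_left hUW)
    rw [h2] at h1
    omega
  · have hsplit : Fintype.card F ^ finrank F ↥(W ⊓ Z) - Fintype.card F ^ finrank F ↥(U ⊓ Z)
        = Fintype.card F ^ finrank F ↥(U ⊓ Z) *
          (Fintype.card F ^ (finrank F ↥(W ⊓ Z) - finrank F ↥(U ⊓ Z)) - 1) := by
      rw [Nat.mul_sub, mul_one, ← pow_add]
      congr 2
      omega
    rw [hsplit] at hdvd
    rcases (Nat.Prime.dvd_mul hp.out).mp hdvd with h1 | h1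
    · exact absurd (hp.out.dvd_of_dvd_pow h1) hℓq
    · exact h1

/-- If a nontrivial element `C` of prime order `ℓ` (prime to the characteristic) commutes with
a nonzero nilpotent endomorphism of an `n`-dimensional space over `F_q`, `n ≥ 4`, then
`ℓ ∣ q ^ e - 1` for some `1 ≤ e ≤ n - 2`. -/
theorem exists_small_exponent (ℓ : ℕ) [hp : Fact ℓ.Prime] (hℓ : (ℓ : F) ≠ 0)
    (hℓq : ¬ ℓ ∣ Fintype.card F) (C N : Module.End F V)
    (hC : C ^ ℓ = 1) (hC1 : C ≠ 1) (hCN : Commute C N) (hN : IsNilpotent N) (hN0 : N ≠ 0)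
    (hn : 4 ≤ finrank F V) :
    ∃ e, 1 ≤ e ∧ e + 2 ≤ finrank F V ∧ ℓ ∣ Fintype.card F ^ e - 1 := by
  obtain ⟨K, hK⟩ : ∃ K, K = LinearMap.ker N := ⟨_, rfl⟩
  obtain ⟨R, hR⟩ : ∃ R, R = LinearMap.range N := ⟨_, rfl⟩
  have hcomm : ∀ x, N (C x) = C (N x) := by
    intro x
    have := congrArg (fun f : Module.End F V => f x) hCN.eq
    simpa [Module.End.mul_apply] using this.symm
  have hCK : ∀ x ∈ K, C x ∈ K := by
    intro x hx
    rw [hK, LinearMap.mem_ker] at hx ⊢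
    rw [hcomm, hx, map_zero]
  have hCR : ∀ x ∈ R, C x ∈ R := by
    intro x hx
    rw [hR] at hx ⊢
    obtain ⟨y, rfl⟩ := hx
    exact ⟨C y, hcomm y⟩
  have hclaim : ∀ j : ℕ, ∀ v ∈ R, v ≠ 0 → (N ^ j) v = 0 → ∃ w ∈ K ⊓ R, w ≠ 0 := by
    intro j
    induction j with
    | zero =>
      intro v _ hv0 h
      simp at h
      exact absurd h hv0
    | succ j ih =>
      intro v hvR hv0 h
      by_cases hNv : N v = 0
      · exact ⟨v, ⟨by rw [hK]; exact LinearMap.mem_ker.mpr hNv, hvR⟩, hv0⟩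
      · apply ih (N v) (by rw [hR]; exact ⟨v, rfl⟩) hNv
        rw [← Module.End.mul_apply, ← pow_succ]
        exact h
  obtain ⟨m, hm⟩ := hN
  have hy : ∃ y, N y ≠ 0 := by
    by_contra hcon
    push Not at hcon
    apply hN0
    ext y
    simpa using hcon y
  obtain ⟨y, hy⟩ := hy
  obtain ⟨w, hw, hw0⟩ := hclaim m (N y) (by rw [hR]; exact ⟨y, rfl⟩) hy (by rw [hm]; rfl)
  have hKR : K ⊓ R ≠ ⊥ := by
    intro h
    rw [h] at hw
    exact hw0 ((Submodule.mem_bot F).mp hw)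
  have ha : 1 ≤ finrank F ↥(K ⊓ R) := Submodule.one_le_finrank_iff.mpr hKR
  have hrn := LinearMap.finrank_range_add_finrank_ker N
  rw [← hK, ← hR] at hrn
  have hsup := Submodule.finrank_sup_add_finrank_inf_eq K R
  have haK : finrank F ↥(K ⊓ R) ≤ finrank F ↥K := Submodule.finrank_mono inf_le_left
  have haR : finrank F ↥(K ⊓ R) ≤ finrank F ↥R := Submodule.finrank_mono inf_le_right
  have hCKR : ∀ x ∈ K ⊓ R, C x ∈ K ⊓ R := fun x hx => ⟨hCK x hx.1, hCR x hx.2⟩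
  have hCKsR : ∀ x ∈ K ⊔ R, C x ∈ K ⊔ R := by
    intro x hx
    obtain ⟨u, hu, v, hv, rfl⟩ := Submodule.mem_sup.mp hx
    rw [map_add]
    exact Submodule.add_mem_sup (hCK u hu) (hCR v hv)
  have hbot : ∀ x ∈ (⊥ : Submodule F V), C x ∈ (⊥ : Submodule F V) := by
    intro x hx
    rw [Submodule.mem_bot] at hx ⊢
    rw [hx, map_zero]
  have htop : ∀ x ∈ (⊤ : Submodule F V), C x ∈ (⊤ : Submodule F V) := fun x _ => Submodule.mem_top
  rcases step_lemma ℓ hℓ hℓq C hC ⊥ (K ⊓ R) bot_le hbot hCKR with h1 | ⟨e, he1, he2, he3⟩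
  swap
  · rw [finrank_bot] at he2
    exact ⟨e, he1, by omega, he3⟩
  rcases step_lemma ℓ hℓ hℓq C hC (K ⊓ R) K inf_le_left hCKR hCK with h2 | ⟨e, he1, he2, he3⟩
  swap
  · exact ⟨e, he1, by omega, he3⟩
  rcases step_lemma ℓ hℓ hℓq C hC K (K ⊔ R) le_sup_left hCK hCKsR with h3 | ⟨e, he1, he2, he3⟩
  swap
  · exact ⟨e, he1, by omega, he3⟩
  rcases step_lemma ℓ hℓ hℓq C hC (K ⊔ R) ⊤ le_top hCKsR htop with h4 | ⟨e, he1, he2, he3⟩
  swap
  · rw [finrank_top] at he2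
    exact ⟨e, he1, by omega, he3⟩
  exfalso
  apply hC1
  have h5 : LinearMap.range (C - 1) = ⊥ := by
    rw [← top_inf_eq (LinearMap.range (C - 1)), ← h4, ← h3, ← h2, ← h1, bot_inf_eq]
  have h6 : C - 1 = 0 := LinearMap.range_eq_bot.mp h5
  exact sub_eq_zero.mp h6

end core

end Cfsg.Agent.Lib.Helper47
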