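import Mathlib
import Cfsg.Agent.Lib.Helper47.SemiConj
import Cfsg.Agent.Lib.Helper47.SemiConjMat
import Cfsg.Agent.Lib.Helper47.PrimeOrd
import Cfsg.Agent.Lib.Helper47.DualPoly
import Cfsg.Agent.Lib.Helper47.GUSim

/-!
# Semisimple unitary elements commuting with a unipotent element

* `charpoly_resInv_dvd`: for a semisimple endomorphism, the characteristic polynomial of the
  restriction to a smaller invariant subspace divides that of a larger one.
* `exists_sq_dvd_charpoly_of_commute_nilpotent`: a semisimple endomorphism commuting with a nonzero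
  nilpotent one has a characteristic polynomial divisible by a nonconstant square.
* `cyc_prod_sq_dvd`, `cyc_factors_dual_of_unitary`, `card_ge_of_count`.
* `exists_unitary_exponent`: an element of prime order `ℓ ∤ p(q²-1)` of `GU_m(q)` commuting with a
  nonzero nilpotent matrix forces `ℓ ∣ q^i - (-1)^i` for some `2 ≤ i ≤ m - 2`.
-/

set_option autoImplicit false

namespace Cfsg.Agent.Lib.Helper47

open Polynomial Module

section Nested

variable {F : Type*} [Field F] {V : Type*} [AddCommGroup V] [Module F V] [FiniteDimensional F V]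

lemma charpoly_eq_of_intertwine {V' : Type*} [AddCommGroup V'] [Module F V']
    [FiniteDimensional F V'] (g : Module.End F V) (h : Module.End F V') (φ : V ≃ₗ[F] V')
    (hφ : ∀ x, φ (g x) = h (φ x)) : g.charpoly = h.charpoly := by
  have h1 : h = φ.conj g := by
    apply LinearMap.ext
    intro y
    obtain ⟨x, rfl⟩ := φ.surjective y
    simp [LinearEquiv.conj_apply, hφ]
  rw [h1, LinearEquiv.charpoly_conj]

/-- For a semisimple endomorphism the characteristic polynomial of the restriction to an invariant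
subspace divides that of the restriction to any larger invariant subspace. -/
lemma charpoly_resInv_dvd {g : Module.End F V} (hg : g.IsSemisimple) {p p' : Submodule F V}
    (hp : p ∈ Module.End.invtSubmodule g) (hp' : p' ∈ Module.End.invtSubmodule g)
    (hle : p ≤ p') : (resInv g hp).charpoly ∣ (resInv g hp').charpoly := by
  obtain ⟨q, hq, hpq⟩ := Module.End.isSemisimple_iff.mp hg p hp
  have hp₁ : p.comap p'.subtype ∈ Module.End.invtSubmodule (resInv g hp') := by
    rw [Module.End.mem_invtSubmodule_iff_forall_mem_of_mem]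
    intro x hx
    exact (Module.End.mem_invtSubmodule_iff_forall_mem_of_mem g).mp hp _ hx
  have hq₁ : q.comap p'.subtype ∈ Module.End.invtSubmodule (resInv g hp') := by
    rw [Module.End.mem_invtSubmodule_iff_forall_mem_of_mem]
    intro x hx
    exact (Module.End.mem_invtSubmodule_iff_forall_mem_of_mem g).mp hq _ hx
  have hc : IsCompl (p.comap p'.subtype) (q.comap p'.subtype) := by
    constructor
    · rw [disjoint_iff, ← Submodule.comap_inf, hpq.inf_eq_bot, Submodule.comap_bot,
        Submodule.ker_subtype]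
    · rw [codisjoint_iff, eq_top_iff]
      rintro ⟨x, hx⟩ -
      have hxt : x ∈ p ⊔ q := by rw [hpq.sup_eq_top]; exact Submodule.mem_top
      obtain ⟨a, ha, b, hb, hab⟩ := Submodule.mem_sup.mp hxt
      have hb' : b ∈ p' := by
        have h1 : b = x - a := by rw [← hab]; abel
        rw [h1]
        exact p'.sub_mem hx (hle ha)
      exact Submodule.mem_sup.mpr ⟨⟨a, hle ha⟩, ha, ⟨b, hb'⟩, hb, Subtype.ext hab⟩
  have h1 := charpoly_of_isCompl hp₁ hq₁ hc
  have h2 : (resInv (resInv g hp') hp₁).charpoly = (resInv g hp).charpoly := by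
    apply charpoly_eq_of_intertwine _ _ (Submodule.comapSubtypeEquivOfLe hle)
    intro x
    apply Subtype.ext
    rfl
  rw [h1, h2]
  exact dvd_mul_right _ _

/-- A semisimple endomorphism commuting with a nonzero nilpotent endomorphism has a characteristic
polynomial divisible by the square of a nonconstant polynomial. -/
theorem exists_sq_dvd_charpoly_of_commute_nilpotent {g N : Module.End F V} (hg : g.IsSemisimple)
    (hgN : Commute g N) (hN : IsNilpotent N) (hN0 : N ≠ 0) :
    ∃ h : F[X], 0 < h.natDegree ∧ h * h ∣ g.charpoly := by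
  obtain ⟨K, hK⟩ : ∃ K, K = LinearMap.ker N := ⟨_, rfl⟩
  obtain ⟨R, hR⟩ : ∃ R, R = LinearMap.range N := ⟨_, rfl⟩
  have hcomm : ∀ x, N (g x) = g (N x) := by
    intro x
    have := congrArg (fun f : Module.End F V => f x) hgN.eq
    simpa [Module.End.mul_apply] using this.symm
  have hKi : K ∈ Module.End.invtSubmodule g := by
    rw [Module.End.mem_invtSubmodule_iff_forall_mem_of_mem]
    intro x hx
    rw [hK, LinearMap.mem_ker] at hx ⊢
    rw [hcomm, hx, map_zero]
  have hRi : R ∈ Module.End.invtSubmodule g := by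
    rw [Module.End.mem_invtSubmodule_iff_forall_mem_of_mem]
    intro x hx
    rw [hR] at hx ⊢
    obtain ⟨y, rfl⟩ := hx
    exact ⟨g y, hcomm y⟩
  have hWi : K ⊓ R ∈ Module.End.invtSubmodule g := by
    rw [Module.End.mem_invtSubmodule_iff_forall_mem_of_mem]
    intro x hx
    exact ⟨(Module.End.mem_invtSubmodule_iff_forall_mem_of_mem g).mp hKi x hx.1,
      (Module.End.mem_invtSubmodule_iff_forall_mem_of_mem g).mp hRi x hx.2⟩
  have hclaim : ∀ j : ℕ, ∀ v ∈ R, v ≠ 0 → (N ^ j) v = 0 → ∃ w ∈ K ⊓ R, w ≠ 0 := by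
    intro j
    induction j with
    | zero =>
      intro v _ hv0 h
      simp at h
      exact absurd h hv0
    | succ j ih =>
      intro v hvR hv0 h
      by_cases hNv : N v = 0
      · exact ⟨v, ⟨by rw [hK]; exact LinearMap.mem_ker.mpr hNv, hvR⟩, hv0⟩
      · apply ih (N v) (by rw [hR]; exact ⟨v, rfl⟩) hNv
        rw [← Module.End.mul_apply, ← pow_succ]
        exact h
  obtain ⟨k, hk⟩ := hN
  have hy : ∃ y, N y ≠ 0 := by
    by_contra hcon
    push Not at hcon
    apply hN0
    ext y
    simpa using hcon y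
  obtain ⟨y, hy⟩ := hy
  obtain ⟨w, hw, hw0⟩ := hclaim k (N y) (by rw [hR]; exact ⟨y, rfl⟩) hy (by rw [hk]; rfl)
  have hWpos : 0 < finrank F ↥(K ⊓ R) := by
    have : Nontrivial ↥(K ⊓ R) := ⟨⟨⟨w, hw⟩, 0, fun h => hw0 (congrArg Subtype.val h)⟩⟩
    exact Module.finrank_pos
  obtain ⟨K', hK', hKK'⟩ := Module.End.isSemisimple_iff.mp hg K hKi
  obtain ⟨φ, hφ⟩ : ∃ φ : ↥K' →ₗ[F] ↥R, ∀ x : ↥K', (φ x : V) = N (x : V) :=
    ⟨(N.domRestrict K').codRestrict R (fun x => by rw [hR]; exact ⟨x, rfl⟩), fun x => rfl⟩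
  have hinj : Function.Injective φ := by
    rw [← LinearMap.ker_eq_bot, LinearMap.ker_eq_bot']
    intro x hx
    have h1 : N (x : V) = 0 := by rw [← hφ, hx]; rfl
    have h2 : (x : V) ∈ K ⊓ K' := ⟨by rw [hK]; exact LinearMap.mem_ker.mpr h1, x.2⟩
    rw [hKK'.inf_eq_bot, Submodule.mem_bot] at h2
    exact Subtype.ext h2
  have hsurj : Function.Surjective φ := by
    rintro ⟨z, hz⟩
    rw [hR] at hz
    obtain ⟨v, rfl⟩ := hz
    have hvt : v ∈ K ⊔ K' := by rw [hKK'.sup_eq_top]; exact Submodule.mem_top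
    obtain ⟨a, ha, b, hb, hab⟩ := Submodule.mem_sup.mp hvt
    refine ⟨⟨b, hb⟩, ?_⟩
    apply Subtype.ext
    rw [hφ]
    simp only
    rw [← hab, map_add]
    rw [hK, LinearMap.mem_ker] at ha
    rw [ha, zero_add]
  have h1 : g.charpoly = (resInv g hKi).charpoly * (resInv g hK').charpoly :=
    charpoly_of_isCompl hKi hK' hKK'
  have h2 : (resInv g hK').charpoly = (resInv g hRi).charpoly := by
    apply charpoly_eq_of_intertwine _ _ (LinearEquiv.ofBijective φ ⟨hinj, hsurj⟩)
    intro x
    apply Subtype.ext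
    change (φ (resInv g hK' x) : V) = (resInv g hRi (φ x) : V)
    rw [hφ, resInv_apply, resInv_apply, hφ, hcomm]
  have h3 := charpoly_resInv_dvd hg hWi hKi inf_le_left
  have h4 := charpoly_resInv_dvd hg hWi hRi inf_le_right
  refine ⟨(resInv g hWi).charpoly, ?_, ?_⟩
  · rw [LinearMap.charpoly_natDegree]
    exact hWpos
  · rw [h1, h2]
    exact mul_dvd_mul h3 h4

end Nested

section Mult

variable {F : Type*} [Field F]

lemma card_ge_of_count {α : Type*} [DecidableEq α] (s : Multiset α) (a b : α) (hab : a ≠ b)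
    (k : ℕ) (ha : k ≤ s.count a) (hb : k ≤ s.count b) : 2 * k ≤ Multiset.card s := by
  have h1 : Multiset.replicate k a + Multiset.replicate k b ≤ s := by
    rw [Multiset.le_iff_count]
    intro x
    rw [Multiset.count_add, Multiset.count_replicate, Multiset.count_replicate]
    by_cases hxa : x = a
    · subst hxa
      rw [if_pos rfl, if_neg (fun h => hab h.symm), add_zero]
      exact ha
    · by_cases hxb : x = b
      · subst hxb
        rw [if_neg (fun h => hxa h.symm), if_pos rfl, zero_add]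
        exact hb
      · rw [if_neg (fun h => hxa h.symm), if_neg (fun h => hxb h.symm)]
        exact Nat.zero_le _
  have h2 := Multiset.card_le_card h1
  rw [Multiset.card_add, Multiset.card_replicate, Multiset.card_replicate] at h2
  omega

/-- A nonconstant square dividing `(X - 1)^c ∏ s`, `s` a multiset of cyclotomic factors, forces
`c ≥ 2` or a repeated factor. -/
lemma cyc_prod_sq_dvd [DecidableEq F] (p : ℕ) [Fact p.Prime] [CharP F p] {r : ℕ} (hr : r.Prime)
    (hrp : r ≠ p) (c : ℕ) (s : Multiset F[X]) (hs : ∀ f ∈ s, IsCycFactor r f) (h : F[X])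
    (hdeg : 0 < h.natDegree) (hdvd : h * h ∣ (X - 1) ^ c * s.prod) :
    2 ≤ c ∨ ∃ f ∈ s, 2 ≤ s.count f := by
  have hnu : ¬ IsUnit h := by
    intro hu
    have := natDegree_eq_zero_of_isUnit hu
    omega
  obtain ⟨π, hπm, hπi, hπh⟩ := Polynomial.exists_monic_irreducible_factor h hnu
  have hπ2 : π * π ∣ (X - 1) ^ c * s.prod := (mul_dvd_mul hπh hπh).trans hdvd
  have hcops : ∀ f ∈ s, IsCoprime (X - 1 : F[X]) f := by
    intro f hf
    apply (irreducible_X_sub_one.coprime_iff_not_dvd).mpr
    intro hd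
    apply (hs f hf).ne_X_sub_one p hr hrp
    exact (eq_of_monic_of_associated monic_X_sub_one (hs f hf).1
      (irreducible_X_sub_one.associated_of_dvd (hs f hf).2.1 hd)).symm
  by_cases hπ1 : π = X - 1
  · left
    subst hπ1
    have hcop1 : IsCoprime (X - 1 : F[X]) s.prod := by
      have hgen : ∀ t : Multiset F[X], (∀ f ∈ t, IsCoprime (X - 1 : F[X]) f) →
          IsCoprime (X - 1 : F[X]) t.prod := by
        intro t
        induction t using Multiset.induction_on with
        | empty =>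
          intro _
          rw [Multiset.prod_zero]
          exact isCoprime_one_right
        | cons a t ih =>
          intro h
          rw [Multiset.prod_cons]
          exact (h a (Multiset.mem_cons_self a t)).mul_right
            (ih (fun f hf => h f (Multiset.mem_cons_of_mem hf)))
      exact hgen s hcops
    have hcop : IsCoprime ((X - 1 : F[X]) * (X - 1)) s.prod := hcop1.mul_left hcop1
    have h2 : (X - 1 : F[X]) * (X - 1) ∣ (X - 1) ^ c := hcop.dvd_of_dvd_mul_right hπ2
    have h3 := natDegree_le_of_dvd h2 (pow_ne_zero _ monic_X_sub_one.ne_zero)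
    rw [natDegree_pow, natDegree_mul monic_X_sub_one.ne_zero monic_X_sub_one.ne_zero] at h3
    have h4 : (X - 1 : F[X]).natDegree = 1 := by
      rw [← C_1]
      exact natDegree_X_sub_C 1
    rw [h4] at h3
    omega
  · right
    have hcop : IsCoprime π ((X - 1 : F[X]) ^ c) := by
      apply IsCoprime.pow_right
      apply (hπi.coprime_iff_not_dvd).mpr
      intro hd
      exact hπ1 (eq_of_monic_of_associated hπm monic_X_sub_one
        (hπi.associated_of_dvd irreducible_X_sub_one hd))
    have h1 : π ∣ s.prod := hcop.dvd_of_dvd_mul_left ((dvd_mul_right π π).trans hπ2)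
    obtain ⟨f, hf, hπf⟩ := hπi.prime.exists_mem_multiset_dvd h1
    have hfπ : π = f := eq_of_monic_of_associated hπm (hs f hf).1
      (hπi.associated_of_dvd (hs f hf).2.1 hπf)
    subst hfπ
    refine ⟨π, hf, ?_⟩
    obtain ⟨s', rfl⟩ := Multiset.exists_cons_of_mem hf
    rw [Multiset.prod_cons] at hπ2
    have h2 : π ∣ (X - 1) ^ c * s'.prod := by
      have h3 : π * π ∣ π * ((X - 1) ^ c * s'.prod) := by
        rw [mul_left_comm]
        exact hπ2
      exact (mul_dvd_mul_iff_left hπi.ne_zero).mp h3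
    have h3 : π ∣ s'.prod := hcop.dvd_of_dvd_mul_left h2
    obtain ⟨f', hf', hπf'⟩ := hπi.prime.exists_mem_multiset_dvd h3
    have hs' : IsCycFactor r f' := hs f' (Multiset.mem_cons_of_mem hf')
    have hfπ' : π = f' := eq_of_monic_of_associated hπm hs'.1
      (hπi.associated_of_dvd hs'.2.1 hπf')
    subst hfπ'
    rw [Multiset.count_cons_self]
    have := Multiset.count_pos.mpr hf'
    omega

/-- The cyclotomic factors of the characteristic polynomial of a unitary matrix of order `r` are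
closed under duality. -/
lemma cyc_factors_dual_of_unitary [Finite F] (p : ℕ) [Fact p.Prime] [CharP F p] {σ : F →+* F}
    (hσ : ∀ x, σ (σ x) = x) {r : ℕ} (hr : r.Prime) (hrp : r ≠ p) {n : ℕ}
    (M : Matrix (Fin n) (Fin n) F) (hMu : sT σ M * M = 1) (c : ℕ) (s : Multiset F[X])
    (hs : ∀ f ∈ s, IsCycFactor r f) (hc : M.charpoly = (X - 1) ^ c * s.prod) :
    s.map (dualP σ) = s := by
  classical
  have hdet : IsUnit M.det := by
    have h1 := congrArg Matrix.det hMu
    rw [Matrix.det_mul, Matrix.det_one] at h1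
    exact IsUnit.of_mul_eq_one _ (by rw [mul_comm]; exact h1)
  have hinv : (sT σ M)⁻¹ = M := Matrix.inv_eq_right_inv hMu
  have h1 := charpoly_sT_inv (σ := σ) M hdet
  rw [hinv, hc, dualP_mul, dualP_pow, dualP_X_sub_one, dualP_multiset_prod] at h1
  have hs' : ∀ f ∈ s.map (dualP σ), IsCycFactor r f := by
    intro f hf
    obtain ⟨g, hg, rfl⟩ := Multiset.mem_map.mp hf
    exact dualP_isCycFactor p hσ hr hrp (hs g hg)
  have h2 := normalizedFactors_cyc_prod p hr hrp c s hs
  have h3 := normalizedFactors_cyc_prod p hr hrp c (s.map (dualP σ)) hs'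
  rw [← h1] at h3
  rw [← h3, h2]

end Mult

section Main

lemma count_le_count_map' {α β : Type*} [DecidableEq α] [DecidableEq β] (g : α → β)
    (s : Multiset α) (a : α) : s.count a ≤ (s.map g).count (g a) := by
  rw [Multiset.le_count_iff_replicate_le, ← Multiset.map_replicate]
  exact Multiset.map_le_map (Multiset.le_count_iff_replicate_le.mp le_rfl)

/-- An element `C` of prime order `ℓ ∤ p (q² - 1)` of `GU_m(q)` commuting with a nonzero nilpotent
matrix: `ℓ` divides `q^i - (-1)^i` for some `2 ≤ i ≤ m - 2`. -/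
theorem exists_unitary_exponent {K : Type*} [Field K] [Fintype K] {p q : ℕ} [Fact p.Prime]
    [CharP K p] (hK : Fintype.card K = q ^ 2) {σ : K →+* K} (hσq : ∀ x, σ x = x ^ q)
    (hσ : ∀ x, σ (σ x) = x) {ℓ : ℕ} (hℓ : ℓ.Prime) (hℓp : ℓ ≠ p) (hℓq : ¬ ℓ ∣ q ^ 2 - 1) {m : ℕ}
    (C N : Matrix (Fin m) (Fin m) K) (hC : C ^ ℓ = 1) (hC1 : C ≠ 1) (hCu : sT σ C * C = 1)
    (hCN : Commute C N) (hN : IsNilpotent N) (hN0 : N ≠ 0) :
    ∃ i, 2 ≤ i ∧ i + 2 ≤ m ∧ ((Even i ∧ ℓ ∣ q ^ i - 1) ∨ (Odd i ∧ ℓ ∣ q ^ i + 1)) := by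
  classical
  have hpp : p.Prime := Fact.out
  have hfact : Fact ℓ.Prime := ⟨hℓ⟩
  have hcop : ℓ.Coprime p := (Nat.coprime_primes hℓ hpp).mpr hℓp
  have hℓK : (ℓ : K) ≠ 0 := natCast_ne_zero_of_coprime p hcop
  obtain ⟨kq, _, hkq⟩ := FiniteField.card K p
  have hℓq' : ¬ ℓ ∣ q := by
    intro h
    have h1 : ℓ ∣ p ^ (kq : ℕ) := by
      rw [← hkq, hK]
      exact dvd_pow h two_ne_zero
    exact hℓp ((Nat.prime_dvd_prime_iff_eq hℓ hpp).mp (hℓ.dvd_of_dvd_pow h1))
  have hq0 : 0 < q := by
    rcases Nat.eq_zero_or_pos q with h | h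
    · exfalso
      rw [h] at hℓq'
      exact hℓq' (dvd_zero _)
    · exact h
  have hℓ2 : ℓ ≠ 2 := by
    rintro rfl
    rcases Nat.even_or_odd q with he | ho
    · exact hℓq' (even_iff_two_dvd.mp he)
    · apply hℓq
      obtain ⟨k, hk⟩ := ho.pow (n := 2)
      rw [hk, Nat.add_sub_cancel]
      exact dvd_mul_right 2 k
  have hqu : (q : ZMod ℓ) ≠ 0 := by
    rw [Ne, ZMod.natCast_eq_zero_iff]
    exact hℓq'
  obtain ⟨e, he⟩ : ∃ e, e = orderOf (q : ZMod ℓ) := ⟨_, rfl⟩
  obtain ⟨d, hd⟩ : ∃ d, d = orderOf (((q ^ 2 : ℕ) : ZMod ℓ)) := ⟨_, rfl⟩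
  have hqfin : IsOfFinOrder (q : ZMod ℓ) := by
    rw [isOfFinOrder_iff_pow_eq_one]
    exact ⟨ℓ - 1, by have := hℓ.two_le; omega, ZMod.pow_card_sub_one_eq_one hqu⟩
  have he0 : 0 < e := by
    rw [he]
    exact hqfin.orderOf_pos
  have hde : d = e / Nat.gcd e 2 := by
    rw [hd, he, Nat.cast_pow, orderOf_pow' _ two_ne_zero]
  have hd0 : 0 < d := by
    rw [hde]
    exact Nat.div_pos (Nat.le_of_dvd he0 (Nat.gcd_dvd_left e 2)) (Nat.gcd_pos_of_pos_left 2 he0)
  have hd1 : d ≠ 1 := by
    intro h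
    rw [hd, orderOf_eq_one_iff] at h
    apply hℓq
    rw [← ZMod.natCast_eq_zero_iff, Nat.cast_sub (Nat.one_le_pow _ _ hq0), h, Nat.cast_one,
      sub_self]
  obtain ⟨c, s, hs, hchar⟩ := charpoly_factors_of_pow_eq_one p hℓ hℓp C hC
  have hdeg : ∀ f ∈ s, f.Monic ∧ f.natDegree = d := fun f hf =>
    ⟨(hs f hf).1, by rw [hd]; exact (hs f hf).natDegree_eq hK hℓ hℓp⟩
  have hm : m = c + d * Multiset.card s := by
    have h1 := natDegree_cyc_prod c s hdeg
    rw [← hchar, Matrix.charpoly_natDegree_eq_dim, Fintype.card_fin] at h1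
    exact h1
  have hs0 : s ≠ 0 := by
    rintro rfl
    apply hC1
    exact eq_one_of_charpoly_eq p hℓ hℓp C hC c (by rw [hchar, Multiset.prod_zero, mul_one])
  have hsd : s.map (dualP σ) = s := cyc_factors_dual_of_unitary p hσ hℓ hℓp C hCu c s hs hchar
  have hsemi := isSemisimple_toLin'_of_pow_eq_one C ℓ hℓK hC
  have hcommL : Commute (Matrix.toLin' C) (Matrix.toLin' N) := by
    rw [Commute, SemiconjBy, Module.End.mul_eq_comp, Module.End.mul_eq_comp,
      ← Matrix.toLin'_mul, ← Matrix.toLin'_mul, hCN.eq]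
  have hnilL : IsNilpotent (Matrix.toLin' N) := by
    obtain ⟨k, hk⟩ := hN
    exact ⟨k, by rw [← Matrix.toLin'_pow, hk, map_zero]⟩
  have hN0L : Matrix.toLin' N ≠ 0 := by
    intro h
    apply hN0
    exact Matrix.toLin'.injective (by rw [h, map_zero])
  obtain ⟨h, hh0, hhd⟩ := exists_sq_dvd_charpoly_of_commute_nilpotent hsemi hcommL hnilL hN0L
  rw [Matrix.charpoly_toLin', hchar] at hhd
  have hmult := cyc_prod_sq_dvd p hℓ hℓp c s hs h hh0 hhd
  obtain ⟨f₀, hf₀⟩ := Multiset.exists_mem_of_ne_zero hs0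
  have hcard1 : 1 ≤ Multiset.card s := Multiset.card_pos.mpr hs0
  by_cases hsd4 : e % 4 = 2
  · have hg2 : Nat.gcd e 2 = 2 := Nat.gcd_eq_right (Nat.dvd_of_mod_eq_zero (by omega))
    have hde2 : e = 2 * d := by
      rw [hde, hg2]
      omega
    have hdodd : Odd d := by
      rw [Nat.odd_iff]
      omega
    have hpow : ((q : ZMod ℓ) ^ d) * ((q : ZMod ℓ) ^ d) = 1 := by
      rw [← pow_add, ← two_mul, ← hde2, he]
      exact pow_orderOf_eq_one _
    have hqd : (q : ZMod ℓ) ^ d = -1 := by
      rcases mul_self_eq_one_iff.mp hpow with h1 | h1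
      · exfalso
        have h2 := orderOf_dvd_of_pow_eq_one h1
        rw [← he, hde2] at h2
        have := Nat.le_of_dvd hd0 h2
        omega
      · exact h1
    refine ⟨d, by omega, ?_, Or.inr ⟨hdodd, ?_⟩⟩
    · rcases hmult with hc2 | ⟨f, hf, hcnt⟩
      · have : d * 1 ≤ d * Multiset.card s := Nat.mul_le_mul_left d hcard1
        omega
      · have h2 : 2 ≤ Multiset.card s := hcnt.trans (Multiset.count_le_card f s)
        have : d * 2 ≤ d * Multiset.card s := Nat.mul_le_mul_left d h2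
        omega
    · rw [← ZMod.natCast_eq_zero_iff, Nat.cast_add, Nat.cast_pow, hqd, Nat.cast_one,
        neg_add_cancel]
  · have hne : ∀ f ∈ s, dualP σ f ≠ f := fun f hf h' =>
      hsd4 (by rw [he]; exact (dualP_eq_self_iff hK hσq hℓ hℓ2 hℓp (hs f hf)).mp h')
    have hcnt : ∀ f, s.count f ≤ s.count (dualP σ f) := by
      intro f
      have h1 := count_le_count_map' (dualP σ) s f
      rwa [hsd] at h1
    have hcard2 : 2 ≤ Multiset.card s := by
      have h1 := card_ge_of_count s f₀ (dualP σ f₀) (fun h' => hne f₀ hf₀ h'.symm) 1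
        (Multiset.one_le_count_iff_mem.mpr hf₀)
        ((Multiset.one_le_count_iff_mem.mpr hf₀).trans (hcnt f₀))
      omega
    refine ⟨2 * d, by omega, ?_, Or.inl ⟨even_two_mul d, ?_⟩⟩
    · rcases hmult with hc2 | ⟨f, hf, hcnt2⟩
      · have : d * 2 ≤ d * Multiset.card s := Nat.mul_le_mul_left d hcard2
        omega
      · have h1 := card_ge_of_count s f (dualP σ f) (fun h' => hne f hf h'.symm) 2 hcnt2
          (hcnt2.trans (hcnt f))
        have : d * 4 ≤ d * Multiset.card s := Nat.mul_le_mul_left d h1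
        omega
    · have h1 : (((q ^ 2 : ℕ) : ZMod ℓ)) ^ d = 1 := by
        rw [hd]
        exact pow_orderOf_eq_one _
      rw [← ZMod.natCast_eq_zero_iff, Nat.cast_sub (Nat.one_le_pow _ _ hq0), pow_mul,
        Nat.cast_pow, h1, Nat.cast_one, sub_self]

end Main

end Cfsg.Agent.Lib.Helper47
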