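import Mathlib
import Cfsg.Agent.Lib.Helper22.W2Defs

/-! Project W2 (helper22, S4707), piece CARD60 (helper47): `|G| = 60` from the graph data. -/

set_option autoImplicit false

namespace Cfsg.Agent.Lib.Helper47.W2

open Cfsg Cfsg.Agent.Lib.Helper22.W2
open scoped ComplexConjugate

universe u

variable {α : Type*} [Fintype α] [DecidableEq α]

/-- PIECE CARD60 -/
theorem card60 (hα : Fintype.card α = 10) (G : Subgroup (Equiv.Perm α))
    (hprim : MulAction.IsPreprimitive G α) (P : Sylow 5 G)
    (hN : Nat.card (Subgroup.normalizer ((P : Subgroup G) : Set G)) = 10) (x y : α)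
    (hy : adj G x y) (h48 : Nat.card (MulAction.stabilizer G x) ∣ 48) : Nat.card G = 60 := by
  haveI : MulAction.IsPretransitive G α := hprim.toIsPretransitive
  haveI : Fact (Nat.Prime 5) := ⟨by norm_num⟩
  obtain ⟨s, hsdef⟩ : ∃ s, s = Nat.card (MulAction.stabilizer G x) := ⟨_, rfl⟩
  rw [← hsdef] at h48
  -- |G| = 10 s
  have hG : Nat.card G = 10 * s := by
    have h1 := MulAction.index_stabilizer_of_transitive (G := G) (x := x)
    have h2 := Subgroup.index_mul_card (MulAction.stabilizer G x)
    rw [h1, Nat.card_eq_fintype_card, hα, ← hsdef] at h2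
    exact h2.symm
  -- 3 ∣ s
  have h3 : 3 ∣ s := by
    have h1 := MulAction.index_stabilizer (G := MulAction.stabilizer G x) (x := y)
    have h2 : (MulAction.orbit (MulAction.stabilizer G x) y).ncard = 3 := by
      rw [← Nat.card_coe_set_eq]
      exact hy.2
    rw [h2] at h1
    have h4 := Subgroup.index_dvd_card (MulAction.stabilizer (MulAction.stabilizer G x) y)
    rw [h1, ← hsdef] at h4
    exact h4
  -- s ≡ 1 mod 5
  have h5 : s % 5 = 1 := by
    have h1 := card_sylow_modEq_one 5 G
    have h2 := P.card_eq_index_normalizer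
    have h4 := Subgroup.index_mul_card (Subgroup.normalizer ((P : Subgroup G) : Set G))
    rw [hN, hG] at h4
    have h6 : (Subgroup.normalizer ((P : Subgroup G) : Set G)).index = s := by omega
    rw [h2] at h1
    have h8 : s ≡ 1 [MOD 5] := by
      rw [← h6]
      exact h1
    exact h8
  have hpos : 0 < s := by
    rw [hsdef]
    exact Nat.card_pos
  have hs : s = 6 := by
    obtain ⟨k, hk⟩ := h3
    obtain ⟨m, hm⟩ := h48
    subst hk
    have hk16 : k ≤ 16 := by
      have : 3 * k ≤ 48 := Nat.le_of_dvd (by norm_num) ⟨m, hm⟩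
      omega
    interval_cases k <;> omega
  rw [hG, hs]

end Cfsg.Agent.Lib.Helper47.W2
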